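import Mathlib
import Cfsg.Agent.Helper33.OType
import Cfsg.Agent.Helper43.SingCount
import Cfsg.Agent.Helper58.TSDefs

/-!
# CALL TS (helper58, rows S5973 / S5987), BIG stage COUNT (helper48): definitions and hub

`TSFam Q m`: the linearly independent totally singular `m`-families of a quadratic space.
This file imports what the pieces of the sub-CALL TSC need: `Helper43.PolarNondeg`,
`Helper43.OrthEven.HasTS`, the recognition theorems `exists_plus_of_hasTS`,
`exists_minus_of_not_hasTS`, the counts `Helper43.SingCount.card_sing_plus / card_sing_minus`,
`Helper98.op_qf` and `Helper58.TS.TypeDefect`.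
-/

set_option autoImplicit false

namespace Cfsg.Agent.Helper48.TSC

/-- Linearly independent totally singular `m`-families of a quadratic space. -/
def TSFam {F : Type*} [Field F] {V : Type*} [AddCommGroup V] [Module F V]
    (Q : QuadraticForm F V) (m : ℕ) : Type _ :=
  {v : Fin m → V // LinearIndependent F v ∧ (∀ a, Q (v a) = 0) ∧
    ∀ a b, QuadraticMap.polar Q (v a) (v b) = 0}

end Cfsg.Agent.Helper48.TSC
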