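import Mathlib
import Cfsg.Agent.Helper15.WinterDefs
import Cfsg.Agent.Helper15.WinterFix
import Cfsg.Agent.Helper1.Tools
import Cfsg.Agent.Helper1.MinNormal
import Cfsg.Agent.Helper1.SZGen

/-!
# Winter's theorem, piece P1: primitive solvable groups

If `T` is a maximal subgroup of the finite solvable group `G` and the `p`-element `x` is not in
the core of `T`, then some prime power `q` dividing `|G : T|` has `p ∣ q` or `p ∣ q - 1`.
-/

set_option autoImplicit false

namespace Cfsg.Agent.Helper48

open Cfsg.Agent.Helper15

universe u

theorem winter_primitive_aux (n : ℕ) :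
    ∀ (G : Type u) [Group G] [Finite G] [Group.IsSolvable G],
    Nat.card G = n → ∀ (T : Subgroup G), IsCoatom T → ∀ (p : ℕ), p.Prime → ∀ x : G, IsPEl p x →
    x ∉ T.normalCore → ∃ q : ℕ, IsPrimePow q ∧ q ∣ T.index ∧ (p ∣ q ∨ p ∣ q - 1) := by
  induction n using Nat.strong_induction_on with
  | _ n ih =>
    intro G _ _ _ hn T hT p hp x hx hxT
    have htop : (⊤ : Subgroup G) ≠ ⊥ := by
      intro h
      apply hT.1
      rw [eq_top_iff, h]; exact bot_le
    obtain ⟨N, hNn, -, hN0, hNmin⟩ := Helper1.exists_minNormal (⊤ : Subgroup G) htop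
    have hNs : Group.IsSolvable N := inferInstance
    obtain ⟨hNc, r, hr, hpow⟩ := Helper1.minNormal_elemAbelian N hN0 hNmin
    have : Fact r.Prime := ⟨hr⟩
    have hNab : ∀ a ∈ N, ∀ b ∈ N, a * b = b * a := by
      intro a ha b hb
      exact congrArg Subtype.val (hNc.is_comm.comm ⟨a, ha⟩ ⟨b, hb⟩)
    have hNp : IsPGroup r N := by
      intro g
      refine ⟨1, ?_⟩
      apply Subtype.ext
      rw [pow_one]
      exact hpow g g.2
    obtain ⟨k, hk⟩ := IsPGroup.iff_card.mp hNp
    by_cases hNT : N ≤ T
    · have hsurj := QuotientGroup.mk'_surjective N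
      have hcm : (T.map (QuotientGroup.mk' N)).comap (QuotientGroup.mk' N) = T := by
        rw [Subgroup.comap_map_eq, QuotientGroup.ker_mk', sup_of_le_left hNT]
      have hco : IsCoatom (T.map (QuotientGroup.mk' N)) := by
        refine ⟨fun h => hT.1 ?_, fun L hL => ?_⟩
        · rw [← hcm, h, Subgroup.comap_top]
        · have h1 : T ≤ L.comap (QuotientGroup.mk' N) := by
            rw [← hcm]; exact Subgroup.comap_mono hL.le
          have h2 : T ≠ L.comap (QuotientGroup.mk' N) := by
            intro h
            apply hL.ne
            rw [h, Subgroup.map_comap_eq_self_of_surjective hsurj]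
          have h3 := hT.2 _ (lt_of_le_of_ne h1 h2)
          rw [← Subgroup.map_comap_eq_self_of_surjective hsurj L, h3, ← MonoidHom.range_eq_map,
            MonoidHom.range_eq_top.mpr hsurj]
      have hidx : (T.map (QuotientGroup.mk' N)).index = T.index := by
        rw [Subgroup.index_map, MonoidHom.range_eq_top.mpr hsurj, Subgroup.index_top, mul_one,
          QuotientGroup.ker_mk', sup_of_le_left hNT]
      have hx' : IsPEl p (QuotientGroup.mk' N x) := hx.map _
      have hxT' : QuotientGroup.mk' N x ∉ (T.map (QuotientGroup.mk' N)).normalCore := by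
        intro h
        apply hxT
        have h1 : ((T.map (QuotientGroup.mk' N)).normalCore.comap (QuotientGroup.mk' N)) ≤
            T.normalCore := by
          rw [Subgroup.normal_le_normalCore]
          calc _ ≤ (T.map (QuotientGroup.mk' N)).comap (QuotientGroup.mk' N) :=
                Subgroup.comap_mono (Subgroup.normalCore_le _)
            _ = T := hcm
        exact h1 h
      rw [← hidx]
      exact ih _ (hn ▸ Helper1.card_quotient_lt N hN0) (G ⧸ N) rfl _ hco p hp _ hx' hxT'
    · have hsup : N ⊔ T = ⊤ := by
        apply hT.2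
        refine lt_of_le_of_ne le_sup_right ?_
        intro h
        apply hNT
        rw [h]; exact le_sup_left
      have hdecomp : ∀ g : G, ∃ n ∈ N, ∃ t ∈ T, g = n * t := by
        intro g
        have hg : g ∈ ((N ⊔ T : Subgroup G) : Set G) := by rw [hsup]; exact Subgroup.mem_top g
        rw [Subgroup.normal_mul] at hg
        obtain ⟨n, hn, t, ht, rfl⟩ := Set.mem_mul.mp hg
        exact ⟨n, hn, t, ht, rfl⟩
      have hnorm : ∀ K : Subgroup G, (∀ t ∈ T, ∀ y ∈ K, t * y * t⁻¹ ∈ K) →
          (∀ n ∈ N, ∀ y ∈ K, n * y * n⁻¹ = y) → K.Normal := by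
        intro K h1 h2
        constructor
        intro y hy g
        obtain ⟨n, hn, t, ht, rfl⟩ := hdecomp g
        have h3 := h1 t ht y hy
        have h4 := h2 n hn _ h3
        have h5 : n * t * y * (n * t)⁻¹ = n * (t * y * t⁻¹) * n⁻¹ := by group
        rw [h5, h4]; exact h3
      have hNT0 : N ⊓ T = ⊥ := by
        have hnormal : (N ⊓ T).Normal :=
          hnorm _ (fun t ht y hy => ⟨hNn.conj_mem y hy.1 t,
            T.mul_mem (T.mul_mem ht hy.2) (T.inv_mem ht)⟩)
            (fun n hn y hy => by rw [hNab n hn y hy.1, mul_inv_cancel_right])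
        rcases hNmin _ hnormal inf_le_left with h | h
        · exact h
        · exfalso
          apply hNT
          rw [← h]; exact inf_le_right
      have hcompl : Subgroup.IsComplement' N T :=
        Subgroup.isComplement'_of_disjoint_and_mul_eq_univ (disjoint_iff.mpr hNT0)
          (by rw [← Subgroup.normal_mul, hsup]; rfl)
      have hidx : T.index = r ^ k := by rw [hcompl.index_eq_card, hk]
      have hk0 : k ≠ 0 := by
        rintro rfl
        rw [pow_zero] at hidx
        exact hT.1 (Subgroup.index_eq_one.mp hidx)
      by_cases hpr : p = r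
      · subst hpr
        refine ⟨T.index, ?_, dvd_rfl, Or.inl ?_⟩
        · rw [hidx, isPrimePow_nat_iff]; exact ⟨p, k, hp, Nat.pos_of_ne_zero hk0, rfl⟩
        · rw [hidx]; exact dvd_pow_self p hk0
      · by_cases hcen : ∀ n ∈ N, x * n * x⁻¹ = n
        · exfalso
          apply hxT
          have hKn : (Subgroup.centralizer (N : Set G)).Normal := inferInstance
          have hKT : (Subgroup.centralizer (N : Set G) ⊓ T).Normal :=
            hnorm _ (fun t ht y hy => ⟨hKn.conj_mem y hy.1 t,
              T.mul_mem (T.mul_mem ht hy.2) (T.inv_mem ht)⟩)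
              (fun n hn y hy => by
                have h6 := Subgroup.mem_centralizer_iff.mp hy.1 n hn
                rw [h6, mul_inv_cancel_right])
          have hle : Subgroup.centralizer (N : Set G) ⊓ T ≤ T.normalCore :=
            (Subgroup.normal_le_normalCore).mpr inf_le_right
          apply hle
          obtain ⟨n, hn, t, ht, hxe⟩ := hdecomp x
          obtain ⟨e, he⟩ := hx
          have hxK : x ∈ Subgroup.centralizer (N : Set G) := by
            rw [Subgroup.mem_centralizer_iff]
            intro m hm
            have h6 := hcen m hm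
            calc m * x = (x * m * x⁻¹) * x := by rw [h6]
              _ = x * m := by group
          have hnK : n ∈ Subgroup.centralizer (N : Set G) := by
            rw [Subgroup.mem_centralizer_iff]
            intro m hm
            exact hNab m hm n hn
          have htK : t ∈ Subgroup.centralizer (N : Set G) := by
            have h6 : t = n⁻¹ * x := by rw [hxe]; group
            rw [h6]; exact Subgroup.mul_mem _ (Subgroup.inv_mem _ hnK) hxK
          have hcomm : Commute n t := Subgroup.mem_centralizer_iff.mp htK n hn
          have hpow1 : n ^ p ^ e * t ^ p ^ e = 1 := by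
            rw [← hcomm.mul_pow, ← hxe, he]
          have hnpow : n ^ p ^ e ∈ N ⊓ T := ⟨N.pow_mem hn _, by
            have h6 : n ^ p ^ e = (t ^ p ^ e)⁻¹ := eq_inv_of_mul_eq_one_left hpow1
            rw [h6]; exact T.inv_mem (T.pow_mem ht _)⟩
          rw [hNT0, Subgroup.mem_bot] at hnpow
          have hn1 : n = 1 := by
            have h1 : orderOf n ∣ p ^ e := orderOf_dvd_of_pow_eq_one hnpow
            have h2 : orderOf n ∣ r := orderOf_dvd_of_pow_eq_one (hpow n hn)
            have h3 : Nat.Coprime (p ^ e) r :=
              Nat.Coprime.pow_left e ((Nat.coprime_primes hp hr).mpr hpr)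
            have h4 : orderOf n ∣ 1 := by
              have h7 := Nat.dvd_gcd h1 h2
              rwa [h3.gcd_eq_one] at h7
            exact orderOf_eq_one_iff.mp (Nat.dvd_one.mp h4)
          rw [hxe, hn1, one_mul]
          exact ⟨htK, ht⟩
        · have hfix := winter_fixed_card p hp x hx (N : Set G) (fun s hs => hNn.conj_mem s hs x)
          obtain ⟨C, hC⟩ : ∃ C : Subgroup G, C = N ⊓ Subgroup.centralizer {x} := ⟨_, rfl⟩
          have hset : {s | s ∈ (N : Set G) ∧ x * s * x⁻¹ = s} = (C : Set G) := by
            ext s
            rw [hC]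
            simp only [Set.mem_ofPred_eq, SetLike.mem_coe, Subgroup.mem_inf,
              Subgroup.mem_centralizer_iff, Set.mem_singleton_iff, forall_eq]
            constructor
            · rintro ⟨h1, h2⟩
              refine ⟨h1, ?_⟩
              calc x * s = (x * s * x⁻¹) * x := by group
                _ = s * x := by rw [h2]
            · rintro ⟨h1, h2⟩
              refine ⟨h1, ?_⟩
              rw [h2, mul_inv_cancel_right]
          rw [hset] at hfix
          have hCle : C ≤ N := by rw [hC]; exact inf_le_left
          have hCne : C ≠ N := by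
            intro h
            apply hcen
            intro m hm
            have h1 : m ∈ C := by rw [h]; exact hm
            rw [hC] at h1
            have h2 := Subgroup.mem_centralizer_iff.mp h1.2 x rfl
            rw [h2, mul_inv_cancel_right]
          have hCcard : Nat.card C ∣ r ^ k := by rw [← hk]; exact Subgroup.card_dvd_of_le hCle
          obtain ⟨j, hjk, hj⟩ := (Nat.dvd_prime_pow hr).mp hCcard
          have hjlt : j < k := by
            rcases lt_or_eq_of_le hjk with h | h
            · exact h
            · exfalso; apply hCne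
              exact Subgroup.eq_of_le_of_card_ge hCle (by rw [hj, hk, h])
          have hN' : (N : Set G).ncard = r ^ k := by
            rw [← hk]; exact (Nat.card_coe_set_eq _).symm
          have hC' : (C : Set G).ncard = r ^ j := by
            rw [← hj]; exact (Nat.card_coe_set_eq _).symm
          rw [hN', hC'] at hfix
          refine ⟨r ^ (k - j), ?_, ?_, Or.inr ?_⟩
          · rw [isPrimePow_nat_iff]; exact ⟨r, k - j, hr, Nat.sub_pos_of_lt hjlt, rfl⟩
          · rw [hidx]; exact pow_dvd_pow r (Nat.sub_le k j)
          · have h1 : p ∣ r ^ k - r ^ j :=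
              (Nat.modEq_iff_dvd' (pow_le_pow_right₀ hr.one_lt.le hjk)).mp hfix.symm
            have h2 : r ^ k - r ^ j = r ^ j * (r ^ (k - j) - 1) := by
              rw [Nat.mul_sub, mul_one, ← pow_add, Nat.add_sub_cancel' hjk]
            rw [h2] at h1
            exact (Nat.Coprime.dvd_mul_left
              (Nat.Coprime.pow_right j ((Nat.coprime_primes hp hr).mpr hpr))).mp h1

/-- Winter, piece P1: a `p`-element outside the core of a maximal subgroup `T` of a finite
solvable group forces a prime power `q ∣ |G : T|` with `p ∣ q` or `p ∣ q - 1`. -/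
theorem winter_primitive {G : Type u} [Group G] [Finite G] (hsol : Group.IsSolvable G)
    (T : Subgroup G) (hT : IsCoatom T) (p : ℕ) (hp : p.Prime) (x : G) (hx : IsPEl p x)
    (hxT : x ∉ T.normalCore) :
    ∃ q : ℕ, IsPrimePow q ∧ q ∣ T.index ∧ (p ∣ q ∨ p ∣ q - 1) :=
  winter_primitive_aux (Nat.card G) G rfl T hT p hp x hx hxT

end Cfsg.Agent.Helper48
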