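import Mathlib
import Cfsg.Agent.Helper53.TriR
import Cfsg.Agent.Helper53.TriS4A

/-!
Helper48: PIECE S4 of CALL S2607 (helper45).  A group of order `24 f` with a central cyclic
subgroup `⟨z⟩` of order `f`, a subgroup `K` of order `8` meeting `⟨z⟩` trivially and a fused
central involution of `K` is `S4 × C_f`.
-/

set_option autoImplicit false

universe u

namespace Cfsg.Agent.Helper48.TriCall

/-- groups of order dividing 4 are commutative -/
theorem tri_comm_of_card_dvd_four {L : Type*} [Group L] [Finite L] (h : Nat.card L ∣ 4)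
    (a b : L) : a * b = b * a := by
  have hpos : 0 < Nat.card L := Nat.card_pos
  have hle : Nat.card L ≤ 4 := Nat.le_of_dvd (by norm_num) h
  have h2 : Fact (Nat.Prime 2) := ⟨Nat.prime_two⟩
  obtain ⟨n, hn⟩ : ∃ n, n = Nat.card L := ⟨_, rfl⟩
  rw [← hn] at h hpos hle
  interval_cases n
  · have : Subsingleton L := (Nat.card_eq_one_iff_unique.mp hn.symm).1
    rw [Subsingleton.elim a 1, Subsingleton.elim b 1]
  · have : IsCyclic L := isCyclic_of_prime_card (p := 2) hn.symm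
    obtain ⟨g, hg⟩ := IsCyclic.exists_generator (α := L)
    obtain ⟨i, rfl⟩ := hg a
    obtain ⟨j, rfl⟩ := hg b
    rw [← zpow_add, ← zpow_add, add_comm]
  · norm_num at h
  · exact (IsPGroup.isMulCommutative_of_card_eq_prime_sq (p := 2)
      (by rw [← hn]; norm_num : Nat.card L = 2 ^ 2)).is_comm.comm a b

/-- a non-abelian group of order 8 has at most one non-trivial central element -/
theorem tri_center_unique {K : Type*} [Group K] [Finite K] (hK : Nat.card K = 8)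
    (c d₂ : K) (hcd : c * d₂ ≠ d₂ * c) (d e : K) (hd : ∀ k, k * d = d * k)
    (he : ∀ k, k * e = e * k) (hd1 : d ≠ 1) (he1 : e ≠ 1) : e = d := by
  by_contra hne
  have h2 : Fact (Nat.Prime 2) := ⟨Nat.prime_two⟩
  have hdZ : d ∈ Subgroup.center K := Subgroup.mem_center_iff.mpr hd
  have heZ : e ∈ Subgroup.center K := Subgroup.mem_center_iff.mpr he
  have hdvd : Nat.card (Subgroup.center K) ∣ 8 := hK ▸ Subgroup.card_subgroup_dvd_card _
  have h3 : 2 < Nat.card (Subgroup.center K) := by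
    have : Fintype ↥(Subgroup.center K) := Fintype.ofFinite _
    rw [Nat.card_eq_fintype_card, Fintype.two_lt_card_iff]
    refine ⟨1, ⟨d, hdZ⟩, ⟨e, heZ⟩, ?_, ?_, ?_⟩
    · intro h; exact hd1 (congrArg Subtype.val h).symm
    · intro h; exact he1 (congrArg Subtype.val h).symm
    · intro h; exact hne (congrArg Subtype.val h).symm
  have hidx : (Subgroup.center K).index ∣ 2 := by
    have h4 := (Subgroup.center K).card_mul_index
    rw [hK] at h4
    obtain ⟨n, hn⟩ : ∃ n, n = Nat.card (Subgroup.center K) := ⟨_, rfl⟩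
    obtain ⟨m, hm⟩ : ∃ m, m = (Subgroup.center K).index := ⟨_, rfl⟩
    rw [← hn] at hdvd h3 h4
    rw [← hm] at h4 ⊢
    have hn8 : n ≤ 8 := Nat.le_of_dvd (by norm_num) hdvd
    interval_cases n
    · omega
    · have : m = 2 := by omega
      rw [this]
    · omega
    · omega
    · omega
    · have : m = 1 := by omega
      rw [this]; norm_num
  have hcyc : IsCyclic (K ⧸ Subgroup.center K) := by
    apply isCyclic_of_card_dvd_prime (p := 2)
    rw [← Subgroup.index_eq_card]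
    exact hidx
  exact hcd ((MonoidHom.isMulCommutative_of_isCyclic_of_ker_le_center
    (QuotientGroup.mk' (Subgroup.center K)) (by rw [QuotientGroup.ker_mk'])).is_comm.comm c d₂)

/-- the internal direct product of a subgroup `A` and a cyclic subgroup `⟨z⟩` centralising it and
meeting it trivially, with its projection onto `⟨z⟩` -/
theorem tri_prod_sub {G : Type*} [Group G] [Finite G] (z : G) (A : Subgroup G)
    (hAz : ∀ a ∈ A, a * z = z * a) (hA : ∀ i : ℤ, z ^ i ∈ A → z ^ i = 1) :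
    ∃ (H : Subgroup G) (h : z ∈ H) (ρ : ↥H →* ↥(Subgroup.zpowers z)),
      ρ ⟨z, h⟩ = ⟨z, Subgroup.mem_zpowers z⟩ ∧ Nat.card H = Nat.card A * orderOf z ∧ A ≤ H ∧
      ∀ x ∈ H, ∃ a ∈ A, ∃ i : ℤ, x = a * z ^ i := by
  have hcomm : ∀ (a : ↥A) (w : ↥(Subgroup.zpowers z)),
      Commute (A.subtype a) ((Subgroup.zpowers z).subtype w) := by
    intro a w
    obtain ⟨i, hi⟩ := Subgroup.mem_zpowers_iff.mp w.2
    show Commute (a : G) (w : G)
    rw [← hi]
    exact Commute.zpow_right (hAz a a.2) i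
  obtain ⟨φ, hφ⟩ : ∃ φ : ↥A × ↥(Subgroup.zpowers z) →* G,
      φ = MonoidHom.noncommCoprod A.subtype (Subgroup.zpowers z).subtype hcomm := ⟨_, rfl⟩
  have hφa : ∀ p : ↥A × ↥(Subgroup.zpowers z), φ p = (p.1 : G) * (p.2 : G) := by
    intro p; rw [hφ]; rfl
  have hinj : Function.Injective φ := by
    rw [injective_iff_map_eq_one]
    intro p hp
    rw [hφa] at hp
    obtain ⟨i, hi⟩ := Subgroup.mem_zpowers_iff.mp p.2.2
    have h2 : (p.2 : G) = (p.1 : G)⁻¹ := eq_inv_of_mul_eq_one_right hp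
    have h3 : z ^ i ∈ A := by rw [hi, h2]; exact A.inv_mem p.1.2
    have h4 : (p.2 : G) = 1 := by rw [← hi]; exact hA i h3
    have h5 : (p.1 : G) = 1 := by rw [h4, mul_one] at hp; exact hp
    exact Prod.ext (Subtype.ext h5) (Subtype.ext h4)
  have hzH : z ∈ φ.range := ⟨(1, ⟨z, Subgroup.mem_zpowers z⟩), by rw [hφa]; simp⟩
  refine ⟨φ.range, hzH,
    (MonoidHom.snd _ _).comp (MonoidHom.ofInjective hinj).symm.toMonoidHom, ?_, ?_, ?_, ?_⟩
  · have h1 : (MonoidHom.ofInjective hinj).symm ⟨z, hzH⟩ = (1, ⟨z, Subgroup.mem_zpowers z⟩) := by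
      rw [MulEquiv.symm_apply_eq]
      apply Subtype.ext
      rw [MonoidHom.ofInjective_apply, hφa]
      simp
    show ((MonoidHom.ofInjective hinj).symm ⟨z, hzH⟩).2 = _
    rw [h1]
  · rw [← Nat.card_congr (MonoidHom.ofInjective hinj).toEquiv, Nat.card_prod, Nat.card_zpowers]
  · intro a ha
    exact ⟨(⟨a, ha⟩, 1), by rw [hφa]; simp⟩
  · rintro x ⟨p, rfl⟩
    obtain ⟨i, hi⟩ := Subgroup.mem_zpowers_iff.mp p.2.2
    exact ⟨p.1, p.1.2, i, by rw [hφa, hi]⟩

/-- cardinality of the image of a subgroup on which the hom is injective -/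
theorem tri_card_map {G Q : Type*} [Group G] [Group Q] (π : G →* Q) (K : Subgroup G)
    (h : ∀ k ∈ K, π k = 1 → k = 1) : Nat.card (K.map π) = Nat.card K := by
  have hinj : Function.Injective (π.comp K.subtype) := by
    rw [injective_iff_map_eq_one]
    intro k hk
    exact Subtype.ext (h k k.2 hk)
  have e1 : K.map π = (π.comp K.subtype).range := by
    rw [MonoidHom.range_comp, Subgroup.range_subtype]
  rw [e1]
  exact (Nat.card_congr (MonoidHom.ofInjective hinj).toEquiv).symm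

/-- step (1) of PIECE S4: `z` is central -/
theorem tri_z_central {G : Type*} [Group G] [Finite G] (f : ℕ) (z : G) (hz : orderOf z = f)
    (K : Subgroup G) (hK : Nat.card K = 8) (hzK : ∀ k ∈ K, z * k * z⁻¹ ∈ K)
    (hKz : ∀ i : ℤ, z ^ i ∈ K → z ^ i = 1) (hcard : Nat.card G = 24 * f)
    (c d t : G) (hc : c ∈ K) (hd : d ∈ K) (hdc : ∀ k ∈ K, k * d = d * k)
    (htd : t * d * t⁻¹ ∈ K) (hcd : c * (t * d * t⁻¹) ≠ (t * d * t⁻¹) * c)
    (hzc : z * c = c * z) (hzt : z * t = t * z) : ∀ g : G, g * z = z * g := by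
  have hf : 0 < f := by
    rcases Nat.eq_zero_or_pos f with h | h
    · rw [h, mul_zero] at hcard
      exact absurd hcard (Nat.card_pos (α := G)).ne'
    · exact h
  have hd1 : d ≠ 1 := by
    rintro rfl
    apply hcd
    simp
  -- `z⁻¹` normalises `K` too
  have hzK' : ∀ k ∈ K, z⁻¹ * k * z ∈ K := by
    have hpow : ∀ n : ℕ, ∀ k ∈ K, z ^ n * k * (z ^ n)⁻¹ ∈ K := by
      intro n
      induction n with
      | zero => intro k hk; simpa using hk
      | succ n ih =>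
        intro k hk
        have h1 := hzK _ (ih k hk)
        have e : z ^ (n + 1) * k * (z ^ (n + 1))⁻¹ = z * (z ^ n * k * (z ^ n)⁻¹) * z⁻¹ := by
          rw [pow_succ']; group
        rw [e]; exact h1
    intro k hk
    have hzinv : z⁻¹ = z ^ (f - 1) := by
      apply inv_eq_of_mul_eq_one_right
      rw [← pow_succ', Nat.sub_add_cancel hf, ← hz, pow_orderOf_eq_one]
    have h1 := hpow (f - 1) k hk
    rw [← hzinv, inv_inv] at h1
    exact h1
  -- `z` fixes `d`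
  have hzd : z * d * z⁻¹ = d := by
    have key := tri_center_unique (K := ↥K) hK ⟨c, hc⟩ ⟨t * d * t⁻¹, htd⟩
      (by intro h; exact hcd (congrArg Subtype.val h)) ⟨d, hd⟩ ⟨z * d * z⁻¹, hzK d hd⟩
      (by rintro ⟨k, hk⟩; exact Subtype.ext (hdc k hk))
      (by
        rintro ⟨k, hk⟩
        apply Subtype.ext
        show k * (z * d * z⁻¹) = z * d * z⁻¹ * k
        have h1 := hdc _ (hzK' k hk)
        calc k * (z * d * z⁻¹) = z * ((z⁻¹ * k * z) * d) * z⁻¹ := by group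
          _ = z * (d * (z⁻¹ * k * z)) * z⁻¹ := by rw [h1]
          _ = z * d * z⁻¹ * k := by group)
      (by intro h; exact hd1 (congrArg Subtype.val h))
      (by
        intro h
        have h1 : z * d * z⁻¹ = 1 := congrArg Subtype.val h
        apply hd1
        calc d = z⁻¹ * (z * d * z⁻¹) * z := by group
          _ = 1 := by rw [h1]; group)
    exact congrArg Subtype.val key
  have hzd' : Commute z d := mul_inv_eq_iff_eq_mul.mp hzd
  have hzt' : Commute z t := hzt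
  have hzd2 : Commute z (t * d * t⁻¹) := (hzt'.mul_right hzd').mul_right hzt'.inv_right
  -- `z` centralises `K`
  have hKcent : ∀ k ∈ K, k * z = z * k := by
    obtain ⟨L, hL⟩ : ∃ L : Subgroup G, L = K ⊓ Subgroup.centralizer {z} := ⟨_, rfl⟩
    have hLK : L ≤ K := hL ▸ inf_le_left
    have hmemL : ∀ x, x ∈ L ↔ x ∈ K ∧ z * x = x * z := by
      intro x
      rw [hL, Subgroup.mem_inf, Subgroup.mem_centralizer_iff]
      constructor
      · rintro ⟨h1, h2⟩; exact ⟨h1, h2 z rfl⟩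
      · rintro ⟨h1, h2⟩; exact ⟨h1, fun y hy => by rw [Set.mem_singleton_iff.mp hy]; exact h2⟩
    have hcL : c ∈ L := (hmemL c).mpr ⟨hc, hzc⟩
    have hd2L : t * d * t⁻¹ ∈ L := (hmemL _).mpr ⟨htd, hzd2.eq⟩
    have hdvd : Nat.card L ∣ 8 := hK ▸ Subgroup.card_dvd_of_le hLK
    by_cases h8 : Nat.card L = 8
    · have hLeq : L = K := Subgroup.eq_of_le_of_card_ge hLK (by rw [h8, hK])
      intro k hk
      rw [← hLeq] at hk
      exact ((hmemL k).mp hk).2.symm
    · exfalso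
      have h4 : Nat.card L ∣ 4 := by
        obtain ⟨i, hi, hi2⟩ := (Nat.dvd_prime_pow Nat.prime_two (m := 3)).mp
          (by norm_num; exact hdvd)
        interval_cases i
        · rw [hi2]; norm_num
        · rw [hi2]; norm_num
        · rw [hi2]; norm_num
        · exact absurd hi2 (by norm_num; exact h8)
      have h5 := tri_comm_of_card_dvd_four (L := ↥L) h4 ⟨c, hcL⟩ ⟨t * d * t⁻¹, hd2L⟩
      exact hcd (congrArg Subtype.val h5)
  -- the subgroup `K × ⟨z⟩`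
  obtain ⟨H, hzH, ρ, -, hHcard, hKH, hHel⟩ := tri_prod_sub z K hKcent hKz
  have htH : t ∉ H := by
    intro h
    obtain ⟨a, ha, i, hai⟩ := hHel t h
    apply hcd
    have h1 : Commute (z ^ i) d := Commute.zpow_left hzd' i
    have h2 : Commute a d := hdc a ha
    have h3 : Commute (a * z ^ i) d := h2.mul_left h1
    have e : t * d * t⁻¹ = d := by
      rw [hai, h3.eq, mul_inv_cancel_right]
    rw [e]
    exact hdc c hc
  obtain ⟨Cz, hCz⟩ : ∃ Cz : Subgroup G, Cz = Subgroup.centralizer {z} := ⟨_, rfl⟩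
  have hmemC : ∀ x, x ∈ Cz ↔ z * x = x * z := by
    intro x
    rw [hCz, Subgroup.mem_centralizer_iff]
    constructor
    · intro h2; exact h2 z rfl
    · intro h2 y hy; rw [Set.mem_singleton_iff.mp hy]; exact h2
  have hHC : H ≤ Cz := by
    intro x hx
    obtain ⟨a, ha, i, rfl⟩ := hHel x hx
    rw [hmemC]
    have h1 : Commute z a := (hKcent a ha).symm
    have h2 : Commute z (z ^ i) := (Commute.refl z).zpow_right i
    exact (h1.mul_right h2).eq
  have htC : t ∈ Cz := (hmemC t).mpr hzt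
  obtain ⟨m, hm⟩ := Subgroup.card_dvd_of_le hHC
  have hCdvd : Nat.card Cz ∣ Nat.card G := Subgroup.card_subgroup_dvd_card Cz
  have hHpos : 0 < Nat.card H := Nat.card_pos
  have hG3 : Nat.card G = Nat.card H * 3 := by rw [hcard, hHcard, hK, hz]; ring
  rw [hm, hG3] at hCdvd
  have hm3 : m ∣ 3 := Nat.dvd_of_mul_dvd_mul_left hHpos hCdvd
  rcases (Nat.dvd_prime Nat.prime_three).mp hm3 with h1 | h3
  · exfalso
    rw [h1, mul_one] at hm
    have hHeq : H = Cz := Subgroup.eq_of_le_of_card_ge hHC (le_of_eq hm)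
    exact htH (hHeq ▸ htC)
  · rw [h3, ← hG3] at hm
    have htop : Cz = ⊤ := (Subgroup.card_eq_iff_eq_top Cz).mp hm
    intro g
    have hg : g ∈ Cz := htop ▸ Subgroup.mem_top g
    exact ((hmemC g).mp hg).symm

/-- an element of order 3 in a central extension of `S4` whose image is non-trivial -/
theorem tri_order_three_lift {G : Type*} [Group G] (z : G) (hzc : ∀ g : G, g * z = z * g)
    (ψ : G →* Equiv.Perm (Fin 4)) (hψs : Function.Surjective ψ)
    (hψk : ∀ g, ψ g = 1 → g ∈ Subgroup.zpowers z) :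
    ∃ u : G, u ^ 3 = 1 ∧ ψ u ≠ 1 := by
  obtain ⟨σ, hσ⟩ : ∃ σ : Equiv.Perm (Fin 4), σ = Equiv.swap 0 1 * Equiv.swap 1 2 := ⟨_, rfl⟩
  obtain ⟨τ, hτ⟩ : ∃ τ : Equiv.Perm (Fin 4), τ = Equiv.swap 0 1 := ⟨_, rfl⟩
  have hσ3 : σ ^ 3 = 1 := by rw [hσ]; decide
  have hσ2 : σ ^ 2 ≠ 1 := by rw [hσ]; decide
  have hτσ : τ * σ * τ⁻¹ * σ = 1 := by rw [hσ, hτ]; decide
  obtain ⟨t₁, ht₁⟩ := hψs σ
  obtain ⟨s, hs⟩ := hψs τ
  have hcent : ∀ x : G, ψ x = 1 → ∀ g : G, Commute g x := by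
    intro x hx g
    obtain ⟨i, hi⟩ := Subgroup.mem_zpowers_iff.mp (hψk x hx)
    rw [← hi]
    exact Commute.zpow_right (hzc g) i
  obtain ⟨z₁, hz₁⟩ : ∃ z₁ : G, z₁ = s * t₁ * s⁻¹ * t₁ := ⟨_, rfl⟩
  have hz₁c : ∀ g : G, Commute g z₁ := by
    apply hcent
    rw [hz₁, map_mul, map_mul, map_mul, map_inv, ht₁, hs, hτσ]
  have hwc : ∀ g : G, Commute g (t₁ ^ 3) := by
    apply hcent
    rw [map_pow, ht₁, hσ3]
  -- `s t₁ s⁻¹ = z₁ t₁⁻¹`
  have h1 : s * t₁ * s⁻¹ = z₁ * t₁⁻¹ := by rw [hz₁]; group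
  have h2 : (s * t₁ * s⁻¹) ^ 3 = t₁ ^ 3 := by
    rw [conj_pow, (hwc s).eq, mul_inv_cancel_right]
  have h3 : (z₁ * t₁⁻¹) ^ 3 = z₁ ^ 3 * (t₁⁻¹) ^ 3 := ((hz₁c t₁⁻¹).symm).mul_pow 3
  have h4 : t₁ ^ 6 = z₁ ^ 3 := by
    have h5 : t₁ ^ 3 = z₁ ^ 3 * (t₁⁻¹) ^ 3 := by rw [← h3, ← h1, h2]
    calc t₁ ^ 6 = t₁ ^ 3 * t₁ ^ 3 := by rw [← pow_add]
      _ = z₁ ^ 3 * (t₁⁻¹) ^ 3 * t₁ ^ 3 := by rw [← h5]
      _ = z₁ ^ 3 := by rw [inv_pow, inv_mul_cancel_right]
  refine ⟨t₁ ^ 2 * z₁⁻¹, ?_, ?_⟩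
  · have hc2 : Commute (t₁ ^ 2) z₁⁻¹ := (hz₁c (t₁ ^ 2)).inv_right
    rw [hc2.mul_pow, ← pow_mul, h4, inv_pow, mul_inv_cancel]
  · have hψz₁ : ψ z₁ = 1 := by
      rw [hz₁, map_mul, map_mul, map_mul, map_inv, ht₁, hs, hτσ]
    rw [map_mul, map_inv, hψz₁, inv_one, mul_one, map_pow, ht₁]
    exact hσ2

/-- PIECE S4 with PIECE S4A as a hypothesis -/
theorem s4_times_cyclic_core {G : Type u} [Group G] [Finite G] (f : ℕ) (z : G)
    (hz : orderOf z = f)
    (K : Subgroup G) (hK : Nat.card K = 8) (hzK : ∀ k ∈ K, z * k * z⁻¹ ∈ K)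
    (hKz : ∀ i : ℤ, z ^ i ∈ K → z ^ i = 1) (hcard : Nat.card G = 24 * f)
    (c d t : G) (hc : c ∈ K) (hd : d ∈ K) (hdc : ∀ k ∈ K, k * d = d * k)
    (htd : t * d * t⁻¹ ∈ K) (hcd : c * (t * d * t⁻¹) ≠ (t * d * t⁻¹) * c)
    (hzc : z * c = c * z) (hzt : z * t = t * z)
    (hS4A : ∀ (Q : Type u) [Group Q] [Finite Q], Nat.card Q = 24 → ∀ (K : Subgroup Q),
      Nat.card K = 8 → ∀ (c d t : Q), c ∈ K → d ∈ K → (∀ k ∈ K, k * d = d * k) →
      t * d * t⁻¹ ∈ K → c * (t * d * t⁻¹) ≠ (t * d * t⁻¹) * c →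
      Nonempty (Q ≃* Equiv.Perm (Fin 4))) :
    Nonempty (G ≃* Equiv.Perm (Fin 4) × Multiplicative (ZMod f)) := by
  have hzcent := tri_z_central f z hz K hK hzK hKz hcard c d t hc hd hdc htd hcd hzc hzt
  have hf : 0 < f := by
    rcases Nat.eq_zero_or_pos f with h | h
    · rw [h, mul_zero] at hcard
      exact absurd hcard (Nat.card_pos (α := G)).ne'
    · exact h
  have hZn : (Subgroup.zpowers z).Normal := by
    constructor
    intro n hn g
    obtain ⟨i, rfl⟩ := Subgroup.mem_zpowers_iff.mp hn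
    have h1 : Commute g (z ^ i) := Commute.zpow_right (hzcent g) i
    rw [h1.eq, mul_inv_cancel_right]
    exact hn
  have hZcard : Nat.card (Subgroup.zpowers z) = f := by rw [Nat.card_zpowers, hz]
  have hQcard : Nat.card (G ⧸ Subgroup.zpowers z) = 24 := by
    have h1 := Subgroup.card_eq_card_quotient_mul_card_subgroup (Subgroup.zpowers z)
    rw [hcard, hZcard] at h1
    exact (Nat.eq_of_mul_eq_mul_right hf h1).symm
  obtain ⟨π, hπ⟩ : ∃ π : G →* G ⧸ Subgroup.zpowers z,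
      π = QuotientGroup.mk' (Subgroup.zpowers z) := ⟨_, rfl⟩
  have hπker : ∀ g, π g = 1 → g ∈ Subgroup.zpowers z := by
    intro g hg
    rw [hπ] at hg
    exact (QuotientGroup.eq_one_iff g).mp hg
  have hπsurj : Function.Surjective π := hπ ▸ QuotientGroup.mk'_surjective _
  have hKinj : ∀ k ∈ K, π k = 1 → k = 1 := by
    intro k hk h1
    obtain ⟨i, hi⟩ := Subgroup.mem_zpowers_iff.mp (hπker k h1)
    rw [← hi]
    exact hKz i (hi ▸ hk)
  have hK' : Nat.card (K.map π) = 8 := by rw [tri_card_map π K hKinj, hK]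
  obtain ⟨e⟩ := hS4A (G ⧸ Subgroup.zpowers z) hQcard (K.map π) hK' (π c) (π d) (π t)
    (Subgroup.mem_map_of_mem π hc) (Subgroup.mem_map_of_mem π hd)
    (by rintro _ ⟨k, hk, rfl⟩; rw [← map_mul, ← map_mul, hdc k hk])
    (by rw [← map_inv, ← map_mul, ← map_mul]; exact Subgroup.mem_map_of_mem π htd)
    (by
      intro h
      rw [← map_inv, ← map_mul, ← map_mul, ← map_mul, ← map_mul] at h
      have h1 : π ((c * (t * d * t⁻¹)) * ((t * d * t⁻¹) * c)⁻¹) = 1 := by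
        rw [map_mul, map_inv, h, mul_inv_cancel]
      have h2 : (c * (t * d * t⁻¹)) * ((t * d * t⁻¹) * c)⁻¹ = 1 :=
        hKinj _ (K.mul_mem (K.mul_mem hc htd) (K.inv_mem (K.mul_mem htd hc))) h1
      exact hcd (mul_inv_eq_one.mp h2))
  obtain ⟨ψ, hψ⟩ : ∃ ψ : G →* Equiv.Perm (Fin 4), ψ = e.toMonoidHom.comp π := ⟨_, rfl⟩
  have hψa : ∀ g, ψ g = e (π g) := by intro g; rw [hψ]; rfl
  have hψker : ∀ g, ψ g = 1 → g ∈ Subgroup.zpowers z := by
    intro g hg
    apply hπker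
    rw [hψa] at hg
    exact (MulEquiv.map_eq_one_iff e).mp hg
  have hψsurj : Function.Surjective ψ := by
    intro x
    obtain ⟨g, hg⟩ := hπsurj (e.symm x)
    exact ⟨g, by rw [hψa, hg, MulEquiv.apply_symm_apply]⟩
  have hψz : ∀ i : ℤ, ψ (z ^ i) = 1 := by
    intro i
    rw [hψa]
    have h1 : π (z ^ i) = 1 := by
      rw [hπ]
      exact (QuotientGroup.eq_one_iff _).mpr (Subgroup.zpow_mem_zpowers z i)
    rw [h1, map_one]
  obtain ⟨u, hu3, hu1⟩ := tri_order_three_lift z hzcent ψ hψsurj hψker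
  have h3p : Fact (Nat.Prime 3) := ⟨Nat.prime_three⟩
  have hψu3 : orderOf (ψ u) = 3 := orderOf_eq_prime (by rw [← map_pow, hu3, map_one]) hu1
  have hu_ne : u ≠ 1 := by
    rintro rfl
    exact hu1 (map_one ψ)
  have huord : orderOf u = 3 := orderOf_eq_prime hu3 hu_ne
  have hUz : ∀ i : ℤ, z ^ i ∈ Subgroup.zpowers u → z ^ i = 1 := by
    intro i hi
    obtain ⟨j, hj⟩ := Subgroup.mem_zpowers_iff.mp hi
    have h1 : (ψ u) ^ j = 1 := by rw [← map_zpow, hj]; exact hψz i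
    have h2 : (3 : ℤ) ∣ j := by
      have h := orderOf_dvd_iff_zpow_eq_one.mpr h1
      rw [hψu3] at h
      exact_mod_cast h
    obtain ⟨m, rfl⟩ := h2
    rw [← hj, zpow_mul]
    have h4 : u ^ (3 : ℤ) = 1 := by exact_mod_cast hu3
    rw [h4, one_zpow]
  obtain ⟨H₁, h1z, ρ₁, hρ₁, hH₁card, -, -⟩ := tri_prod_sub z K (fun k _ => hzcent k) hKz
  obtain ⟨H₂, h2z, ρ₂, hρ₂, hH₂card, -, -⟩ :=
    tri_prod_sub z (Subgroup.zpowers u) (fun k _ => hzcent k) hUz
  have hidx1 : H₁.index = 3 := by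
    have h := H₁.card_mul_index
    rw [hH₁card, hK, hz, hcard] at h
    have h' : 8 * f * H₁.index = 8 * f * 3 := by rw [h]; ring
    exact Nat.eq_of_mul_eq_mul_left (by positivity) h'
  have hidx2 : H₂.index = 8 := by
    have h := H₂.card_mul_index
    rw [hH₂card, Nat.card_zpowers, huord, hz, hcard] at h
    have h' : 3 * f * H₂.index = 3 * f * 8 := by rw [h]; ring
    exact Nat.eq_of_mul_eq_mul_left (by positivity) h'
  obtain ⟨ρ, hρ⟩ := Cfsg.Agent.Helper53.TriCall.retract_of_coprime z hzcent H₁ H₂ h1z h2z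
    (by rw [hidx1, hidx2]; decide) ρ₁ hρ₁ ρ₂ hρ₂
  have hNZ : NeZero f := ⟨hf.ne'⟩
  have hcardM : Nat.card (Multiplicative (ZMod f)) = f :=
    (Nat.card_congr Multiplicative.toAdd).trans (Nat.card_zmod f)
  obtain ⟨ε⟩ : Nonempty (↥(Subgroup.zpowers z) ≃* Multiplicative (ZMod f)) :=
    ⟨mulEquivOfCyclicCardEq (by rw [hZcard, hcardM])⟩
  obtain ⟨Φ, hΦ⟩ : ∃ Φ : G →* Equiv.Perm (Fin 4) × Multiplicative (ZMod f),
      Φ = ψ.prod (ε.toMonoidHom.comp ρ) := ⟨_, rfl⟩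
  have hΦinj : Function.Injective Φ := by
    rw [injective_iff_map_eq_one]
    intro g hg
    rw [hΦ] at hg
    have h1 : ψ g = 1 := congrArg Prod.fst hg
    have h2 : ε (ρ g) = 1 := congrArg Prod.snd hg
    have h3 : ρ g = 1 := (MulEquiv.map_eq_one_iff ε).mp h2
    obtain ⟨i, rfl⟩ := Subgroup.mem_zpowers_iff.mp (hψker g h1)
    rw [map_zpow, hρ] at h3
    exact congrArg Subtype.val h3
  have hΦbij : Function.Bijective Φ := by
    rw [Nat.bijective_iff_injective_and_card]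
    refine ⟨hΦinj, ?_⟩
    rw [Nat.card_prod, hcardM, hcard, Nat.card_eq_fintype_card, Fintype.card_perm,
      Fintype.card_fin]
    rfl
  exact ⟨MulEquiv.ofBijective Φ hΦbij⟩

/-- PIECE S4 of CALL S2607 -/
theorem s4_times_cyclic {G : Type*} [Group G] [Finite G] (f : ℕ) (z : G) (hz : orderOf z = f)
    (K : Subgroup G) (hK : Nat.card K = 8) (hzK : ∀ k ∈ K, z * k * z⁻¹ ∈ K)
    (hKz : ∀ i : ℤ, z ^ i ∈ K → z ^ i = 1) (hcard : Nat.card G = 24 * f)
    (c d t : G) (hc : c ∈ K) (hd : d ∈ K) (hdc : ∀ k ∈ K, k * d = d * k)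
    (htd : t * d * t⁻¹ ∈ K) (hcd : c * (t * d * t⁻¹) ≠ (t * d * t⁻¹) * c)
    (hzc : z * c = c * z) (hzt : z * t = t * z) :
    Nonempty (G ≃* Equiv.Perm (Fin 4) × Multiplicative (ZMod f)) :=
  s4_times_cyclic_core f z hz K hK hzK hKz hcard c d t hc hd hdc htd hcd hzc hzt
    (fun _ _ _ hQ K' hK' c' d' t' hc' hd' hdc' htd' hcd' =>
      Cfsg.Agent.Helper53.TriCall.s4_of_card hQ K' hK' c' d' t' hc' hd' hdc' htd' hcd')

end Cfsg.Agent.Helper48.TriCall
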