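import Mathlib
import Cfsg.Agent.Lead.LWDefs

/-!
# CALL S0747, piece A6 (`ncard_cls_eq_index`)

In the sharp case (pointwise stabilisers of `k`-sets are trivial) the class `cls G Γ δ` has
exactly as many points as the index of the group induced on `insert δ Γ`.
-/

set_option autoImplicit false
set_option linter.unusedSectionVars false

namespace Cfsg.Agent.Helper48.LWA6

open Cfsg.Agent.Lead.LW

variable {α : Type*} [Fintype α] [DecidableEq α]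

/-- Realise an injective map on a `k`-set by an element of a `k`-transitive group. -/
theorem a6_realize (G : Subgroup (Equiv.Perm α)) (k : ℕ) (hG : KTrans G k)
    (S : Finset α) (hS : S.card = k) (f : α → α) (hf : Set.InjOn f (S : Set α)) :
    ∃ g ∈ G, ∀ a ∈ S, g a = f a := by
  classical
  let e : ↥S ≃ Fin k := Finset.equivFinOfCardEq hS
  let x : Fin k ↪ α := e.symm.toEmbedding.trans (Function.Embedding.subtype _)
  have hx : ∀ i, x i ∈ S := fun i => (e.symm i).2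
  let y : Fin k ↪ α := ⟨fun i => f (x i), fun i j hij => x.injective (hf (hx i) (hx j) hij)⟩
  obtain ⟨g, hg, hgxy⟩ := hG x y
  refine ⟨g, hg, fun a ha => ?_⟩
  have hxa : x (e ⟨a, ha⟩) = a := by simp [x]
  rw [← hxa]
  exact hgxy _

/-- `g ∈ G` realises `σ` away from the point that `σ` sends to `δ`. -/
def A6Rel (G : Subgroup (Equiv.Perm α)) (Γ : Finset α) (δ : α)
    (σ : Equiv.Perm ↥(insert δ Γ)) (g : Equiv.Perm α) : Prop :=
  g ∈ G ∧ ∀ x : ↥(insert δ Γ), σ x ≠ ⟨δ, Finset.mem_insert_self δ Γ⟩ → g (x : α) = (σ x : α)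

theorem a6_card_erase (k : ℕ) (Γ : Finset α) (hΓ : Γ.card = k) (δ : α) (hδ : δ ∉ Γ)
    (x : ↥(insert δ Γ)) : ((insert δ Γ).erase (x : α)).card = k := by
  rw [Finset.card_erase_of_mem x.2, Finset.card_insert_of_notMem hδ, hΓ]; rfl

theorem a6_exists (G : Subgroup (Equiv.Perm α)) (k : ℕ) (hG : KTrans G k) (Γ : Finset α)
    (hΓ : Γ.card = k) (δ : α) (hδ : δ ∉ Γ) (σ : Equiv.Perm ↥(insert δ Γ)) :
    ∃ g, A6Rel G Γ δ σ g := by
  classical
  obtain ⟨d, hd⟩ : ∃ d : ↥(insert δ Γ), d = ⟨δ, Finset.mem_insert_self δ Γ⟩ := ⟨_, rfl⟩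
  let f : α → α := fun a => if h : a ∈ insert δ Γ then (σ ⟨a, h⟩ : α) else a
  have hf : Set.InjOn f ((insert δ Γ : Finset α) : Set α) := by
    intro a ha b hb hab
    have ha' : a ∈ insert δ Γ := ha
    have hb' : b ∈ insert δ Γ := hb
    simp only [f, dif_pos ha', dif_pos hb'] at hab
    have h1 := σ.injective (Subtype.ext hab)
    exact congrArg Subtype.val h1
  have hS := a6_card_erase k Γ hΓ δ hδ (σ⁻¹ d)
  obtain ⟨g, hg, hgS⟩ := a6_realize G k hG _ hS f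
    (hf.mono (fun a ha => Finset.mem_of_mem_erase ha))
  refine ⟨g, hg, fun x hx => ?_⟩
  rw [← hd] at hx
  have hxS : (x : α) ∈ (insert δ Γ).erase ((σ⁻¹ d : ↥(insert δ Γ)) : α) := by
    rw [Finset.mem_erase]
    refine ⟨fun h => hx ?_, x.2⟩
    have h1 : x = σ⁻¹ d := Subtype.ext h
    rw [h1]; simp
  rw [hgS _ hxS]
  simp only [f, dif_pos x.2]

theorem a6_unique (G : Subgroup (Equiv.Perm α)) (k : ℕ)
    (hsharp : ∀ Γ' : Finset α, Γ'.card = k → pstab G Γ' = ⊥)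
    (Γ : Finset α) (hΓ : Γ.card = k) (δ : α) (hδ : δ ∉ Γ) (σ : Equiv.Perm ↥(insert δ Γ))
    (g g' : Equiv.Perm α) (h : A6Rel G Γ δ σ g) (h' : A6Rel G Γ δ σ g') : g = g' := by
  classical
  obtain ⟨d, hd⟩ : ∃ d : ↥(insert δ Γ), d = ⟨δ, Finset.mem_insert_self δ Γ⟩ := ⟨_, rfl⟩
  have hS := a6_card_erase k Γ hΓ δ hδ (σ⁻¹ d)
  have hmem : g⁻¹ * g' ∈ pstab G ((insert δ Γ).erase ((σ⁻¹ d : ↥(insert δ Γ)) : α)) := by
    refine ⟨G.mul_mem (G.inv_mem h.1) h'.1, fun a ha => ?_⟩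
    rw [Finset.mem_erase] at ha
    have hx : σ ⟨a, ha.2⟩ ≠ ⟨δ, Finset.mem_insert_self δ Γ⟩ := by
      intro hh
      apply ha.1
      have h1 : (⟨a, ha.2⟩ : ↥(insert δ Γ)) = σ⁻¹ d := by
        rw [Equiv.Perm.eq_inv_iff_eq, hh, hd]
      exact congrArg Subtype.val h1
    have h1 := h.2 ⟨a, ha.2⟩ hx
    have h2 := h'.2 ⟨a, ha.2⟩ hx
    rw [Equiv.Perm.mul_apply, Equiv.Perm.inv_eq_iff_eq]
    exact h2.trans h1.symm
  rw [hsharp _ hS, Subgroup.mem_bot] at hmem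
  exact inv_mul_eq_one.mp hmem

/-- Every point of `Γ` is hit by `g` from a point of `insert δ Γ` not sent to `δ` by `σ`. -/
theorem a6_preimage (G : Subgroup (Equiv.Perm α)) (Γ : Finset α) (δ : α) (hδ : δ ∉ Γ)
    (σ : Equiv.Perm ↥(insert δ Γ)) (g : Equiv.Perm α) (h : A6Rel G Γ δ σ g)
    (γ : α) (hγ : γ ∈ Γ) :
    ∃ x : ↥(insert δ Γ), σ x ≠ ⟨δ, Finset.mem_insert_self δ Γ⟩ ∧ g (x : α) = γ := by
  classical
  have hne : σ (σ⁻¹ ⟨γ, Finset.mem_insert_of_mem hγ⟩) ≠ ⟨δ, Finset.mem_insert_self δ Γ⟩ := by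
    intro hh
    have h1 : (⟨γ, Finset.mem_insert_of_mem hγ⟩ : ↥(insert δ Γ)) =
        ⟨δ, Finset.mem_insert_self δ Γ⟩ := by
      rw [← hh]; simp
    have h2 : γ = δ := congrArg Subtype.val h1
    exact hδ (h2 ▸ hγ)
  refine ⟨σ⁻¹ ⟨γ, Finset.mem_insert_of_mem hγ⟩, hne, ?_⟩
  rw [h.2 _ hne]
  simp

theorem a6_mem_cls (G : Subgroup (Equiv.Perm α)) (Γ : Finset α) (δ : α) (hδ : δ ∉ Γ)
    (σ : Equiv.Perm ↥(insert δ Γ)) (g : Equiv.Perm α) (h : A6Rel G Γ δ σ g) :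
    g ((σ⁻¹ ⟨δ, Finset.mem_insert_self δ Γ⟩ : ↥(insert δ Γ)) : α) ∈ cls G Γ δ := by
  classical
  obtain ⟨d, hd⟩ : ∃ d : ↥(insert δ Γ), d = ⟨δ, Finset.mem_insert_self δ Γ⟩ := ⟨_, rfl⟩
  rw [← hd]
  have hσd : σ (σ⁻¹ d) = d := by simp
  have hnot : g ((σ⁻¹ d : ↥(insert δ Γ)) : α) ∉ Γ := by
    intro hmem
    obtain ⟨x, hx, hgx⟩ := a6_preimage G Γ δ hδ σ g h _ hmem
    have h1 : (x : α) = ((σ⁻¹ d : ↥(insert δ Γ)) : α) := g.injective hgx
    have h2 : x = σ⁻¹ d := Subtype.ext h1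
    apply hx
    rw [h2, hσd, hd]
  refine ⟨hnot, g, h.1, fun a => ⟨fun ha => ?_, fun ha => ?_⟩⟩
  · rw [Finset.mem_insert] at ha
    rcases ha with ha | ha
    · have h1 : a = ((σ⁻¹ d : ↥(insert δ Γ)) : α) := g.injective ha
      rw [h1]; exact (σ⁻¹ d).2
    · obtain ⟨x, hx, hgx⟩ := a6_preimage G Γ δ hδ σ g h _ ha
      have h1 : (x : α) = a := g.injective hgx
      rw [← h1]; exact x.2
  · by_cases hx : σ ⟨a, ha⟩ = ⟨δ, Finset.mem_insert_self δ Γ⟩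
    · have h1 : (⟨a, ha⟩ : ↥(insert δ Γ)) = σ⁻¹ d := by rw [hd, ← hx]; simp
      have h2 : a = ((σ⁻¹ d : ↥(insert δ Γ)) : α) := congrArg Subtype.val h1
      rw [h2]; exact Finset.mem_insert_self _ _
    · have h1 := h.2 ⟨a, ha⟩ hx
      have h2 : g a = ((σ ⟨a, ha⟩ : ↥(insert δ Γ)) : α) := h1
      rw [h2]
      have h3 := (σ ⟨a, ha⟩).2
      rw [Finset.mem_insert] at h3
      rcases h3 with h3 | h3
      · exact absurd (Subtype.ext h3) hx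
      · exact Finset.mem_insert_of_mem h3

/-- Well-definedness on left cosets. -/
theorem a6_welldef (G : Subgroup (Equiv.Perm α)) (Γ : Finset α) (δ : α)
    (σ τ : Equiv.Perm ↥(insert δ Γ)) (g g' : Equiv.Perm α) (h : A6Rel G Γ δ σ g)
    (huniq : ∀ g'', A6Rel G Γ δ τ g'' → g'' = g')
    (hmem : σ⁻¹ * τ ∈ induced G (insert δ Γ)) :
    g ((σ⁻¹ ⟨δ, Finset.mem_insert_self δ Γ⟩ : ↥(insert δ Γ)) : α) =
      g' ((τ⁻¹ ⟨δ, Finset.mem_insert_self δ Γ⟩ : ↥(insert δ Γ)) : α) := by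
  classical
  obtain ⟨d, hd⟩ : ∃ d : ↥(insert δ Γ), d = ⟨δ, Finset.mem_insert_self δ Γ⟩ := ⟨_, rfl⟩
  rw [← hd]
  obtain ⟨u, hu, hux⟩ := hmem
  have hrel : A6Rel G Γ δ τ (g * u) := by
    refine ⟨G.mul_mem h.1 hu, fun x hx => ?_⟩
    rw [Equiv.Perm.mul_apply, hux x]
    have h1 : σ ((σ⁻¹ * τ) x) = τ x := by simp
    have h2 : σ ((σ⁻¹ * τ) x) ≠ ⟨δ, Finset.mem_insert_self δ Γ⟩ := by rw [h1]; exact hx
    rw [h.2 _ h2, h1]
  rw [← huniq _ hrel, Equiv.Perm.mul_apply, hux (τ⁻¹ d)]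
  have h3 : (σ⁻¹ * τ) (τ⁻¹ d) = σ⁻¹ d := by simp
  rw [h3]

/-- Injectivity on left cosets. -/
theorem a6_inj (G : Subgroup (Equiv.Perm α)) (Γ : Finset α) (δ : α)
    (σ τ : Equiv.Perm ↥(insert δ Γ)) (g g' : Equiv.Perm α) (h : A6Rel G Γ δ σ g)
    (h' : A6Rel G Γ δ τ g')
    (heq : g ((σ⁻¹ ⟨δ, Finset.mem_insert_self δ Γ⟩ : ↥(insert δ Γ)) : α) =
      g' ((τ⁻¹ ⟨δ, Finset.mem_insert_self δ Γ⟩ : ↥(insert δ Γ)) : α)) :
    σ⁻¹ * τ ∈ induced G (insert δ Γ) := by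
  classical
  obtain ⟨d, hd⟩ : ∃ d : ↥(insert δ Γ), d = ⟨δ, Finset.mem_insert_self δ Γ⟩ := ⟨_, rfl⟩
  rw [← hd] at heq
  refine ⟨g⁻¹ * g', G.mul_mem (G.inv_mem h.1) h'.1, fun x => ?_⟩
  rw [Equiv.Perm.mul_apply, Equiv.Perm.inv_eq_iff_eq]
  have h1 : σ ((σ⁻¹ * τ) x) = τ x := by simp
  by_cases hx : τ x = ⟨δ, Finset.mem_insert_self δ Γ⟩
  · have h2 : x = τ⁻¹ d := by rw [hd, ← hx]; simp
    have h3 : (σ⁻¹ * τ) x = σ⁻¹ d := by rw [h2]; simp
    rw [h3, heq, h2]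
  · have h2 : σ ((σ⁻¹ * τ) x) ≠ ⟨δ, Finset.mem_insert_self δ Γ⟩ := by rw [h1]; exact hx
    rw [h'.2 x hx, h.2 _ h2, h1]

/-- Surjectivity onto the class. -/
theorem a6_surj (G : Subgroup (Equiv.Perm α)) (Γ : Finset α) (δ : α) (hδ : δ ∉ Γ)
    (δ' : α) (hδ' : δ' ∈ cls G Γ δ) :
    ∃ (σ : Equiv.Perm ↥(insert δ Γ)) (g : Equiv.Perm α), A6Rel G Γ δ σ g ∧
      g ((σ⁻¹ ⟨δ, Finset.mem_insert_self δ Γ⟩ : ↥(insert δ Γ)) : α) = δ' := by
  classical
  obtain ⟨hnot, g, hg, hga⟩ := hδ'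
  obtain ⟨d, hd⟩ : ∃ d : ↥(insert δ Γ), d = ⟨δ, Finset.mem_insert_self δ Γ⟩ := ⟨_, rfl⟩
  have hmemΓ : ∀ x : ↥(insert δ Γ), g (x : α) ≠ δ' → g (x : α) ∈ Γ := by
    intro x hx
    have h1 := (hga (x : α)).mpr x.2
    rw [Finset.mem_insert] at h1
    rcases h1 with h1 | h1
    · exact absurd h1 hx
    · exact h1
  let s : ↥(insert δ Γ) → ↥(insert δ Γ) := fun x =>
    if hx : g (x : α) = δ' then d else ⟨g (x : α), Finset.mem_insert_of_mem (hmemΓ x hx)⟩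
  have hs_pos : ∀ x : ↥(insert δ Γ), g (x : α) = δ' → s x = d := by
    intro x hx
    simp only [s, dif_pos hx]
  have hs_neg : ∀ x : ↥(insert δ Γ), g (x : α) ≠ δ' → ((s x : ↥(insert δ Γ)) : α) = g (x : α) := by
    intro x hx
    simp only [s, dif_neg hx]
  have hs_ne : ∀ x : ↥(insert δ Γ), g (x : α) ≠ δ' → s x ≠ d := by
    intro x hx hh
    have h1 := hs_neg x hx
    rw [hh, hd] at h1
    have h2 : δ = g (x : α) := h1
    apply hδ
    rw [h2]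
    exact hmemΓ x hx
  have hinj : Function.Injective s := by
    intro x y hxy
    by_cases hx : g (x : α) = δ'
    · by_cases hy : g (y : α) = δ'
      · exact Subtype.ext (g.injective (hx.trans hy.symm))
      · exact absurd (hxy.symm.trans (hs_pos x hx)) (hs_ne y hy)
    · by_cases hy : g (y : α) = δ'
      · exact absurd (hxy.trans (hs_pos y hy)) (hs_ne x hx)
      · have h1 := hs_neg x hx
        have h2 := hs_neg y hy
        rw [hxy, h2] at h1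
        exact Subtype.ext (g.injective h1.symm)
  have hbij : Function.Bijective s := Finite.injective_iff_bijective.mp hinj
  obtain ⟨σ, hσ⟩ : ∃ σ : Equiv.Perm ↥(insert δ Γ), ∀ x, σ x = s x :=
    ⟨Equiv.ofBijective s hbij, fun x => rfl⟩
  have hrel : A6Rel G Γ δ σ g := by
    refine ⟨hg, fun x hx => ?_⟩
    rw [hσ x]
    have h1 : g (x : α) ≠ δ' := by
      intro hh
      apply hx
      rw [hσ x, hs_pos x hh, hd]
    exact (hs_neg x h1).symm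
  refine ⟨σ, g, hrel, ?_⟩
  rw [← hd]
  by_contra hne
  have h1 := hs_ne (σ⁻¹ d) hne
  apply h1
  rw [← hσ]
  simp

/-- PIECE A6 of CALL S0747. -/
theorem ncard_cls_eq_index (G : Subgroup (Equiv.Perm α)) (k : ℕ) (hG : KTrans G k)
    (hsharp : ∀ Γ' : Finset α, Γ'.card = k → pstab G Γ' = ⊥)
    (Γ : Finset α) (hΓ : Γ.card = k) (δ : α) (hδ : δ ∉ Γ) :
    (cls G Γ δ).ncard = (induced G (insert δ Γ)).index := by
  classical
  have hex := a6_exists G k hG Γ hΓ δ hδ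
  have huniq := a6_unique G k hsharp Γ hΓ δ hδ
  let F : (Equiv.Perm ↥(insert δ Γ) ⧸ induced G (insert δ Γ)) → ↥(cls G Γ δ) := fun q =>
    ⟨(Classical.choose (hex q.out))
        ((q.out⁻¹ ⟨δ, Finset.mem_insert_self δ Γ⟩ : ↥(insert δ Γ)) : α),
      a6_mem_cls G Γ δ hδ q.out _ (Classical.choose_spec (hex q.out))⟩
  have hFinj : Function.Injective F := by
    intro q q' hqq
    have h1 : (Classical.choose (hex q.out))
        ((q.out⁻¹ ⟨δ, Finset.mem_insert_self δ Γ⟩ : ↥(insert δ Γ)) : α) =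
        (Classical.choose (hex q'.out))
        ((q'.out⁻¹ ⟨δ, Finset.mem_insert_self δ Γ⟩ : ↥(insert δ Γ)) : α) :=
      congrArg Subtype.val hqq
    have h2 := a6_inj G Γ δ q.out q'.out _ _ (Classical.choose_spec (hex q.out))
      (Classical.choose_spec (hex q'.out)) h1
    have h3 : (QuotientGroup.mk q.out : Equiv.Perm ↥(insert δ Γ) ⧸ induced G (insert δ Γ)) =
        QuotientGroup.mk q'.out := QuotientGroup.eq.mpr h2
    rw [QuotientGroup.out_eq', QuotientGroup.out_eq'] at h3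
    exact h3
  have hFsurj : Function.Surjective F := by
    rintro ⟨δ', hδ'⟩
    obtain ⟨σ, g, hrel, hgσ⟩ := a6_surj G Γ δ hδ δ' hδ'
    refine ⟨QuotientGroup.mk σ, Subtype.ext ?_⟩
    have h1 : (QuotientGroup.mk (QuotientGroup.mk σ :
        Equiv.Perm ↥(insert δ Γ) ⧸ induced G (insert δ Γ)).out :
        Equiv.Perm ↥(insert δ Γ) ⧸ induced G (insert δ Γ)) = QuotientGroup.mk σ :=
      QuotientGroup.out_eq' _
    have h2 := QuotientGroup.eq.mp h1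
    have h3 := a6_welldef G Γ δ _ σ _ g (Classical.choose_spec (hex _))
      (fun g'' hg'' => huniq σ g'' g hg'' hrel) h2
    exact h3.trans hgσ
  rw [← Nat.card_coe_set_eq, Subgroup.index]
  exact (Nat.card_congr (Equiv.ofBijective F ⟨hFinj, hFsurj⟩)).symm

end Cfsg.Agent.Helper48.LWA6
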