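import Mathlib
import Cfsg.Agent.Helper98.C2Defs

/-!
Helper48: PIECE X5a of CALL S5634 (helper98).  From one cross transvection, all transvections
`T_ij(c)` with `i`, `j` in the same two blocks, by commutators with within-block transvections.
-/

set_option autoImplicit false

namespace Cfsg.Agent.Helper48.C2X5a

open Matrix Cfsg.Agent.Helper98.C2
open scoped MatrixGroups

variable {K : Type*} [Field K]

/-- a ring identity for the commutator of two commuting-free square-zero perturbations -/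
theorem comm_sq_zero {R : Type*} [Ring R] (A B : R) (hAA : A * A = 0) (hBB : B * B = 0)
    (hBA : B * A = 0) : (1 + A) * (1 + B) * (1 - A) * (1 - B) = 1 + A * B := by
  have h1 : (1 + A) * (1 + B) * (1 - A) = 1 + B + A * B := by
    have e : (1 + A) * (1 + B) * (1 - A) = 1 + B + A * B - A * A - B * A - A * (B * A) := by
      noncomm_ring
    rw [e, hAA, hBA]
    simp
  rw [h1]
  have e : (1 + B + A * B) * (1 - B) = 1 + A * B - B * B - A * (B * B) := by
    noncomm_ring
  rw [e, hBB]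
  simp

/-- the commutator formula for elementary transvections -/
theorem tv_comm {n : ℕ} (a b c : Fin n) (hab : a ≠ b) (hbc : b ≠ c) (hac : a ≠ c) (x y : K) :
    Matrix.transvection a b x * Matrix.transvection b c y * Matrix.transvection a b (-x) *
      Matrix.transvection b c (-y) = Matrix.transvection a c (x * y) := by
  have e1 : Matrix.transvection a b (-x) = 1 - Matrix.single a b x := by
    unfold Matrix.transvection
    rw [sub_eq_add_neg]
    congr 1
    ext p q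
    simp only [Matrix.single_apply, Matrix.neg_apply]
    split_ifs <;> simp
  have e2 : Matrix.transvection b c (-y) = 1 - Matrix.single b c y := by
    unfold Matrix.transvection
    rw [sub_eq_add_neg]
    congr 1
    ext p q
    simp only [Matrix.single_apply, Matrix.neg_apply]
    split_ifs <;> simp
  rw [e1, e2]
  unfold Matrix.transvection
  rw [comm_sq_zero _ _ (Matrix.single_mul_single_of_ne _ _ _ _ hab.symm _)
    (Matrix.single_mul_single_of_ne _ _ _ _ hbc.symm _)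
    (Matrix.single_mul_single_of_ne _ _ _ _ hac.symm _), Matrix.single_mul_single_same]

/-- the inverse of a group element whose matrix is an elementary transvection -/
theorem tv_inv_val {n : ℕ} (k : GL (Fin n) K) (a b : Fin n) (hab : a ≠ b) (x : K)
    (hk : k.1 = Matrix.transvection a b x) : (k⁻¹).1 = Matrix.transvection a b (-x) := by
  rw [Matrix.coe_units_inv, hk]
  apply Matrix.inv_eq_right_inv
  rw [Matrix.transvection_mul_transvection_same a b hab, add_neg_cancel, Matrix.transvection_zero]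

/-- the commutator of two elementary transvections of `M` -/
theorem tv_comm_mem {n : ℕ} (M : Subgroup (GL (Fin n) K)) (a b c : Fin n) (hab : a ≠ b)
    (hbc : b ≠ c) (hac : a ≠ c) (x y : K) (k₁ k₂ : GL (Fin n) K) (h₁ : k₁ ∈ M) (h₂ : k₂ ∈ M)
    (e₁ : k₁.1 = Matrix.transvection a b x) (e₂ : k₂.1 = Matrix.transvection b c y) :
    ∃ k ∈ M, k.1 = Matrix.transvection a c (x * y) := by
  refine ⟨k₁ * k₂ * k₁⁻¹ * k₂⁻¹,
    M.mul_mem (M.mul_mem (M.mul_mem h₁ h₂) (M.inv_mem h₁)) (M.inv_mem h₂), ?_⟩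
  rw [Units.val_mul, Units.val_mul, Units.val_mul, tv_inv_val k₁ a b hab x e₁,
    tv_inv_val k₂ b c hbc y e₂, e₁, e₂]
  exact tv_comm a b c hab hbc hac x y

/-- within-block elementary transvections lie in `M` -/
theorem tv_within {n t : ℕ} (blk : Fin n → Fin t) (M : Subgroup (GL (Fin n) K))
    (hH : BlkLE blk M) (i i' : Fin n) (hne : i ≠ i') (hb : blk i = blk i') (d : K) :
    ∃ k ∈ M, k.1 = Matrix.transvection i i' d := by
  have hdet : (Matrix.transvection i i' d).det = 1 := Matrix.det_transvection_of_ne i i' hne d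
  refine ⟨Matrix.GeneralLinearGroup.mkOfDetNeZero (Matrix.transvection i i' d)
    (by rw [hdet]; exact one_ne_zero), hH _ ?_ hdet, rfl⟩
  refine ⟨1, fun p q hpq => ?_⟩
  have hpq' : blk p ≠ blk q := by simpa using hpq
  have h1 : p ≠ q := fun h => hpq' (by rw [h])
  show (Matrix.transvection i i' d) p q = 0
  unfold Matrix.transvection
  rw [Matrix.add_apply, Matrix.one_apply_ne h1, Matrix.single_apply, zero_add, if_neg]
  rintro ⟨rfl, rfl⟩
  exact hpq' hb

/-- PIECE X5a -/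
theorem blk_pair_full {n t : ℕ} (blk : Fin n → Fin t) (m : ℕ) (hm : 2 ≤ m)
    (hfib : ∀ b : Fin t, (Finset.univ.filter (fun i => blk i = b)).card = m)
    (M : Subgroup (GL (Fin n) K)) (hH : BlkLE blk M) (hT : HasCrossTv blk M) :
    ∃ b1 b2 : Fin t, b1 ≠ b2 ∧ ∀ i j : Fin n, blk i = b1 → blk j = b2 → ∀ c : K,
      ∃ k ∈ M, k.1 = Matrix.transvection i j c := by
  obtain ⟨g, hg, i₀, j₀, hblk, c₀, hc₀, hgeq⟩ := hT
  have hi₀j₀ : i₀ ≠ j₀ := fun h => hblk (by rw [h])
  obtain ⟨i₁, hi₁, hi₁ne⟩ : ∃ i₁, blk i₁ = blk i₀ ∧ i₁ ≠ i₀ := by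
    have h1 : 1 < (Finset.univ.filter (fun i => blk i = blk i₀)).card := by
      rw [hfib]; omega
    obtain ⟨b, hb, hbne⟩ := Finset.exists_mem_ne h1 i₀
    exact ⟨b, (Finset.mem_filter.mp hb).2, hbne⟩
  have hA : ∀ i, blk i = blk i₀ → i ≠ i₀ → ∀ c : K,
      ∃ k ∈ M, k.1 = Matrix.transvection i j₀ c := by
    intro i hi hne c
    obtain ⟨k₁, hk₁, e₁⟩ := tv_within blk M hH i i₀ hne hi (c / c₀)
    have hij₀ : i ≠ j₀ := fun h => hblk (by rw [← hi, h])
    obtain ⟨k, hk, e⟩ := tv_comm_mem M i i₀ j₀ hne hi₀j₀ hij₀ (c / c₀) c₀ k₁ g hk₁ hg e₁ hgeq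
    exact ⟨k, hk, by rw [e, div_mul_cancel₀ c hc₀]⟩
  have hB : ∀ i, blk i = blk i₀ → ∀ c : K, ∃ k ∈ M, k.1 = Matrix.transvection i j₀ c := by
    intro i hi c
    by_cases hne : i = i₀
    · rw [hne]
      obtain ⟨k₁, hk₁, e₁⟩ := tv_within blk M hH i₀ i₁ hi₁ne.symm hi₁.symm 1
      obtain ⟨k₂, hk₂, e₂⟩ := hA i₁ hi₁ hi₁ne c
      have hi₁j₀ : i₁ ≠ j₀ := fun h => hblk (by rw [← hi₁, h])
      obtain ⟨k, hk, e⟩ :=
        tv_comm_mem M i₀ i₁ j₀ hi₁ne.symm hi₁j₀ hi₀j₀ 1 c k₁ k₂ hk₁ hk₂ e₁ e₂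
      exact ⟨k, hk, by rw [e, one_mul]⟩
    · exact hA i hi hne c
  refine ⟨blk i₀, blk j₀, hblk, ?_⟩
  intro i j hi hj c
  by_cases hjj : j = j₀
  · rw [hjj]
    exact hB i hi c
  · obtain ⟨k₁, hk₁, e₁⟩ := hB i hi c
    obtain ⟨k₂, hk₂, e₂⟩ := tv_within blk M hH j₀ j (Ne.symm hjj) hj.symm 1
    have hij₀ : i ≠ j₀ := fun h => hblk (by rw [← hi, h])
    have hij : i ≠ j := fun h => hblk (by rw [← hi, ← hj, h])
    obtain ⟨k, hk, e⟩ := tv_comm_mem M i j₀ j hij₀ (Ne.symm hjj) hij c 1 k₁ k₂ hk₁ hk₂ e₁ e₂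
    exact ⟨k, hk, by rw [e, mul_one]⟩

end Cfsg.Agent.Helper48.C2X5a
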