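import Cfsg.Agent.Helper96.CWDefs

/-!
# CALL S5707, piece ST (helper48): base change of the factor form.
-/

set_option autoImplicit false
set_option linter.unusedSectionVars false
set_option linter.unusedSimpArgs false
set_option linter.unusedVariables false

namespace Cfsg.Agent.Helper48.CWST

open Matrix Cfsg Cfsg.Geo Cfsg.Agent.Helper96 Cfsg.Agent.Helper96.CW

variable {F : Type*} [Field F] {k t : ℕ}

theorem ptM_transpose (a : Fin t → Matrix (Fin k) (Fin k) F) :
    (ptM a)ᵀ = ptM (fun i => (a i)ᵀ) := by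
  ext x y
  rw [Matrix.transpose_apply, ptM_apply, ptM_apply]
  rfl

theorem ptM_mulVec_pure (a : Fin t → Matrix (Fin k) (Fin k) F) (us : Fin t → Fin k → F) :
    ptM a *ᵥ (fun b : Fin t → Fin k => ∏ i, us i (b i))
      = fun b : Fin t → Fin k => ∏ i, (a i *ᵥ us i) (b i) := by
  classical
  funext x
  rw [Matrix.mulVec, dotProduct]
  simp_rw [ptM_apply, ← Finset.prod_mul_distrib]
  simp_rw [Matrix.mulVec, dotProduct]
  exact (Fintype.prod_sum (fun i j => a i (x i) j * us i j)).symm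

/-- PIECE ST: base change of the factor form. -/
theorem st {G : Matrix (Fin k) (Fin k) F} {Q' : ((Fin t → Fin k) → F) → F} (hT : TPQ G Q')
    (A Ainv : Matrix (Fin k) (Fin k) F) (h1 : A * Ainv = 1) (h2 : Ainv * A = 1) :
    TPQ (Aᵀ * G * A) (fun v => Q' (ptM (fun _ : Fin t => A) *ᵥ v)) := by
  classical
  obtain ⟨M, hM⟩ : ∃ M : Matrix (Fin t → Fin k) (Fin t → Fin k) F,
      M = ptM (fun _ : Fin t => A) := ⟨_, rfl⟩
  obtain ⟨Mi, hMi⟩ : ∃ Mi : Matrix (Fin t → Fin k) (Fin t → Fin k) F,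
      Mi = ptM (fun _ : Fin t => Ainv) := ⟨_, rfl⟩
  have hMMi : M * Mi = 1 := by
    rw [hM, hMi, ptM_mul]
    simp only [h1]
    exact ptM_one
  have hMiM : Mi * M = 1 := by
    rw [hM, hMi, ptM_mul]
    simp only [h2]
    exact ptM_one
  rw [← hM]
  have hpol : ∀ v v', QuadraticMap.polar (fun v => Q' (M *ᵥ v)) v v'
      = QuadraticMap.polar Q' (M *ᵥ v) (M *ᵥ v') := by
    intro v v'
    simp only [QuadraticMap.polar, Matrix.mulVec_add]
  have hgram : Mᵀ * GT t G * M = GT t (Aᵀ * G * A) := by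
    rw [hM, ptM_transpose, GT, GT, ptM_mul, ptM_mul]
  refine ⟨?_, ?_, ⟨?_, ⟨?_, ?_, ?_, ?_⟩, ?_⟩, ?_, ?_⟩
  · intro u
    have := hT.alt (A *ᵥ u)
    rw [T5.bf_mulVec_left, T5.bf_mulVec_right] at this
    exact this
  · have hA : A.det ≠ 0 := by
      intro h
      have h3 := congrArg Matrix.det h1
      rw [Matrix.det_mul, h, zero_mul, Matrix.det_one] at h3
      exact zero_ne_one h3
    rw [Matrix.det_mul, Matrix.det_mul, Matrix.det_transpose]
    exact mul_ne_zero (mul_ne_zero hA hT.det) hA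
  · intro c v
    show Q' (M *ᵥ (c • v)) = c ^ 2 * Q' (M *ᵥ v)
    rw [Matrix.mulVec_smul]
    exact hT.nq.smul c _
  · intro x y v
    rw [hpol, hpol, hpol, Matrix.mulVec_add]
    exact hT.nq.polar_bilinear.add_left _ _ _
  · intro c x v
    rw [hpol, hpol, Matrix.mulVec_smul]
    exact hT.nq.polar_bilinear.smul_left _ _ _
  · intro v x y
    rw [hpol, hpol, hpol, Matrix.mulVec_add]
    exact hT.nq.polar_bilinear.add_right _ _ _
  · intro c v x
    rw [hpol, hpol, Matrix.mulVec_smul]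
    exact hT.nq.polar_bilinear.smul_right _ _ _
  · intro v hv
    have hMv : M *ᵥ v ≠ 0 := by
      intro h
      apply hv
      have h3 : (Mi * M) *ᵥ v = 0 := by
        rw [← Matrix.mulVec_mulVec, h, Matrix.mulVec_zero]
      rwa [hMiM, Matrix.one_mulVec] at h3
    obtain ⟨⟨x, hx⟩, ⟨y, hy⟩⟩ := hT.nq.nondegenerate _ hMv
    constructor
    · refine ⟨Mi *ᵥ x, ?_⟩
      rw [hpol, Matrix.mulVec_mulVec, hMMi, Matrix.one_mulVec]
      exact hx
    · refine ⟨Mi *ᵥ y, ?_⟩
      rw [hpol, Matrix.mulVec_mulVec, hMMi, Matrix.one_mulVec]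
      exact hy
  · intro v v'
    rw [hpol, hT.polar, T5.bf_mulVec_left, T5.bf_mulVec_right, hgram]
  · intro us
    show Q' (M *ᵥ fun a => ∏ i, us i (a i)) = 0
    rw [hM, ptM_mulVec_pure]
    exact hT.pure _

end Cfsg.Agent.Helper48.CWST
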