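import Mathlib
import Cfsg.Agent.Helper48.PGroupLemmas

/-!
# A 2-group endgame (piece E3 of the call for S2951)

`S` a 2-group, `E ≤ T' ≤ S` with `E` elementary abelian of order 8 and self-centralising in `S`,
`T' = E E^x` of order 16, `N_S(E) ≤ T'`, `C_S(c) ≤ T'` for some `1 ≠ c ∈ E` central in `T'`,
`U` a normal four-group of `S` centralised by the self-centralising normal subgroup `O` of `S`.
Then odd-order elements normalising `O` centralise `O`, and `O ≠ S`.
-/

set_option autoImplicit false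

namespace Cfsg.Agent.Helper48

variable {G : Type*} [Group G]

theorem e8_mem_map_conj (x y : G) (H : Subgroup G) :
    y ∈ Subgroup.map (MulEquiv.toMonoidHom (MulAut.conj x)) H ↔ x⁻¹ * y * x ∈ H := by
  rw [Subgroup.mem_map]
  constructor
  · rintro ⟨e, he, rfl⟩
    have h1 : x⁻¹ * ((MulEquiv.toMonoidHom (MulAut.conj x)) e) * x = e := by
      simp only [MulEquiv.coe_toMonoidHom, MulAut.conj_apply]
      group
    rw [h1]; exact he
  · intro h
    refine ⟨x⁻¹ * y * x, h, ?_⟩
    simp only [MulEquiv.coe_toMonoidHom, MulAut.conj_apply]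
    group

theorem e8_comm_of_sq {a b : G} (ha : a * a = 1) (hb : b * b = 1) (hab : (a * b) * (a * b) = 1) :
    a * b = b * a := by
  have h1 : a⁻¹ = a := inv_eq_of_mul_eq_one_right ha
  have h2 : b⁻¹ = b := inv_eq_of_mul_eq_one_right hb
  have h3 : (a * b)⁻¹ = a * b := inv_eq_of_mul_eq_one_right hab
  calc a * b = (a * b)⁻¹ := h3.symm
    _ = b⁻¹ * a⁻¹ := mul_inv_rev a b
    _ = b * a := by rw [h1, h2]

/-- In a subgroup `B` with a subgroup `A` of index two, the product of two elements outside `A`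
lies in `A`. -/
theorem e8_mul_mem [Finite G] (A B : Subgroup G) (hAB : A ≤ B)
    (hcard : Nat.card B = 2 * Nat.card A) {a b : G} (ha : a ∈ B) (hb : b ∈ B) (ha' : a ∉ A)
    (hb' : b ∉ A) : a * b ∈ A := by
  have h1 := Subgroup.card_mul_index (A.subgroupOf B)
  have h2 : Nat.card (A.subgroupOf B) = Nat.card A :=
    Nat.card_congr (Subgroup.subgroupOfEquivOfLe hAB).toEquiv
  have hApos : 0 < Nat.card A := Nat.card_pos
  have hidx : (A.subgroupOf B).index = 2 := by
    rw [h2, hcard] at h1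
    exact Nat.eq_of_mul_eq_mul_left hApos (by rw [h1, mul_comm])
  have h3 := (Subgroup.mul_mem_iff_of_index_two hidx (a := (⟨a, ha⟩ : B)) (b := ⟨b, hb⟩)).mpr (by
    constructor
    · intro h; exact absurd (Subgroup.mem_subgroupOf.mp h) ha'
    · intro h; exact absurd (Subgroup.mem_subgroupOf.mp h) hb')
  exact Subgroup.mem_subgroupOf.mp h3

/-- A subgroup of index two is normalised. -/
theorem e8_conj_mem [Finite G] (A B : Subgroup G) (hAB : A ≤ B)
    (hcard : Nat.card B = 2 * Nat.card A) {a b : G} (ha : a ∈ A) (hb : b ∈ B) :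
    b * a * b⁻¹ ∈ A := by
  by_cases hbA : b ∈ A
  · exact A.mul_mem (A.mul_mem hbA ha) (A.inv_mem hbA)
  · have h1 : b * a ∉ A := fun h => hbA (by
      have h2 := A.mul_mem h (A.inv_mem ha)
      rwa [mul_inv_cancel_right] at h2)
    have h2 : b⁻¹ ∉ A := fun h => hbA (by simpa using A.inv_mem h)
    exact e8_mul_mem A B hAB hcard (B.mul_mem hb (hAB ha)) (B.inv_mem hb) h1 h2

/-- An element of odd order which moves `y` by a 2-element it centralises fixes `y`. -/
theorem e8_odd_fix (g y : G) (hodd : Odd (orderOf g))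
    (hcomm : g * (y⁻¹ * (g * y * g⁻¹)) * g⁻¹ = y⁻¹ * (g * y * g⁻¹))
    (h2 : ∃ k : ℕ, (y⁻¹ * (g * y * g⁻¹)) ^ 2 ^ k = 1) : g * y * g⁻¹ = y := by
  obtain ⟨a, ha⟩ : ∃ a : G, a = y⁻¹ * (g * y * g⁻¹) := ⟨_, rfl⟩
  rw [← ha] at hcomm h2
  have hy : g * y * g⁻¹ = y * a := by rw [ha]; group
  have hpow : ∀ k : ℕ, g ^ k * y * (g ^ k)⁻¹ = y * a ^ k := by
    intro k
    induction k with
    | zero => simp
    | succ k ih =>
      have h1 : g ^ (k + 1) * y * (g ^ (k + 1))⁻¹ = g * (g ^ k * y * (g ^ k)⁻¹) * g⁻¹ := by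
        rw [pow_succ']; group
      have h3 : g * a ^ k * g⁻¹ = a ^ k := by rw [← conj_pow, hcomm]
      rw [h1, ih]
      calc g * (y * a ^ k) * g⁻¹ = (g * y * g⁻¹) * (g * a ^ k * g⁻¹) := by group
        _ = y * a ^ (k + 1) := by rw [hy, h3, pow_succ', mul_assoc]
  have h4 := hpow (orderOf g)
  rw [pow_orderOf_eq_one, one_mul, inv_one, mul_one] at h4
  have h5 : a ^ orderOf g = 1 := by
    have h6 : y * a ^ orderOf g = y * 1 := by rw [← h4, mul_one]
    exact mul_left_cancel h6
  obtain ⟨k, hk⟩ := h2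
  have h6 : orderOf a ∣ orderOf g := orderOf_dvd_of_pow_eq_one h5
  have h7 : orderOf a ∣ 2 ^ k := orderOf_dvd_of_pow_eq_one hk
  have h8 : Nat.Coprime (orderOf g) (2 ^ k) :=
    Nat.Coprime.pow_right k (Nat.coprime_two_right.mpr hodd)
  have h9 : orderOf a = 1 := by
    have h10 := Nat.dvd_gcd h6 h7
    rw [h8.gcd_eq_one] at h10
    exact Nat.dvd_one.mp h10
  have h10 : a = 1 := orderOf_eq_one_iff.mp h9
  rw [hy, h10, mul_one]

/-- An odd-order element normalising `B` and centralising a subgroup `A` of index two in the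
2-group `B` centralises `B`. -/
theorem e8_chain2 [Finite G] (A B : Subgroup G) (g : G) (hodd : Odd (orderOf g))
    (hA2 : IsPGroup 2 A) (hAB : A ≤ B) (hcard : Nat.card B = 2 * Nat.card A)
    (hgA : ∀ a ∈ A, g * a * g⁻¹ = a) (hgB : ∀ b ∈ B, g * b * g⁻¹ ∈ B) :
    ∀ b ∈ B, g * b * g⁻¹ = b := by
  intro y hy
  by_cases hyA : y ∈ A
  · exact hgA y hyA
  · have h1 : g * y * g⁻¹ ∉ A := by
      intro h
      have h4 : g * (g * y * g⁻¹) * g⁻¹ = g * y * g⁻¹ := hgA _ h
      have h5 : g * (g * y * g⁻¹) = g * y := by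
        calc g * (g * y * g⁻¹) = (g * (g * y * g⁻¹) * g⁻¹) * g := by group
          _ = g * y * g⁻¹ * g := by rw [h4]
          _ = g * y := by group
      have h3 : g * y * g⁻¹ = y := mul_left_cancel h5
      rw [h3] at h
      exact hyA h
    have h2 : y⁻¹ ∉ A := fun h => hyA (by simpa using A.inv_mem h)
    have h3 : y⁻¹ * (g * y * g⁻¹) ∈ A :=
      e8_mul_mem A B hAB hcard (B.inv_mem hy) (hgB y hy) h2 h1
    apply e8_odd_fix g y hodd (hgA _ h3)
    obtain ⟨k, hk⟩ := hA2 ⟨_, h3⟩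
    exact ⟨k, by simpa using congrArg Subtype.val hk⟩

/-- An odd-order element normalising the 2-group `B`, centralising a central subgroup `A` of
index four and fixing one further coset of `A`, centralises `B`. -/
theorem e8_chain4 [Finite G] (A B : Subgroup G) (g : G) (hodd : Odd (orderOf g))
    (hB2 : IsPGroup 2 B) (hAB : A ≤ B) (hcard : Nat.card B = 4 * Nat.card A)
    (hAc : ∀ a ∈ A, ∀ b ∈ B, a * b = b * a)
    (hgA : ∀ a ∈ A, g * a * g⁻¹ = a) (hgB : ∀ b ∈ B, g * b * g⁻¹ ∈ B)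
    (y₀ : G) (hy₀B : y₀ ∈ B) (hy₀A : y₀ ∉ A) (hy₀ : y₀⁻¹ * (g * y₀ * g⁻¹) ∈ A) :
    ∀ b ∈ B, g * b * g⁻¹ = b := by
  let K : Subgroup G :=
    { carrier := {y | y ∈ B ∧ y⁻¹ * (g * y * g⁻¹) ∈ A}
      mul_mem' := by
        intro a b ha hb
        refine ⟨B.mul_mem ha.1 hb.1, ?_⟩
        have h1 : (a * b)⁻¹ * (g * (a * b) * g⁻¹) =
            b⁻¹ * (a⁻¹ * (g * a * g⁻¹)) * (g * b * g⁻¹) := by group
        have h2 := hAc _ ha.2 b⁻¹ (B.inv_mem hb.1)
        rw [h1, ← h2, mul_assoc]
        exact A.mul_mem ha.2 hb.2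
      one_mem' := ⟨B.one_mem, by simp⟩
      inv_mem' := by
        intro a ha
        refine ⟨B.inv_mem ha.1, ?_⟩
        have h1 : (a⁻¹)⁻¹ * (g * a⁻¹ * g⁻¹) = a * (a⁻¹ * (g * a * g⁻¹))⁻¹ * a⁻¹ := by group
        have h2 := hAc _ (A.inv_mem ha.2) a ha.1
        rw [h1, ← h2, mul_inv_cancel_right]
        exact A.inv_mem ha.2 }
  have hKB : K ≤ B := fun y hy => hy.1
  have hAK : A ≤ K := fun a ha =>
    ⟨hAB ha, by rw [hgA a ha, inv_mul_cancel]; exact A.one_mem⟩
  have hKfix : ∀ y ∈ K, g * y * g⁻¹ = y := by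
    intro y hy
    apply e8_odd_fix g y hodd (hgA _ hy.2)
    obtain ⟨k, hk⟩ := hB2 ⟨_, hAB hy.2⟩
    exact ⟨k, by simpa using congrArg Subtype.val hk⟩
  have hy₀K : y₀ ∈ K := ⟨hy₀B, hy₀⟩
  obtain ⟨m, hm⟩ := Subgroup.card_dvd_of_le hAK
  have hApos : 0 < Nat.card A := Nat.card_pos
  have hm4 : m ∣ 4 := by
    have h1 := Subgroup.card_dvd_of_le hKB
    rw [hm, hcard, mul_comm 4] at h1
    exact Nat.dvd_of_mul_dvd_mul_left hApos h1
  have hmle : m ≤ 4 := Nat.le_of_dvd (by norm_num) hm4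
  have hKne : K ≠ A := fun h => hy₀A (h ▸ hy₀K)
  interval_cases m
  · rw [mul_zero] at hm; exact absurd hm Nat.card_pos.ne'
  · exfalso; apply hKne
    exact (Subgroup.eq_of_le_of_card_ge hAK (by rw [hm, mul_one])).symm
  · have hK2 : IsPGroup 2 K := hB2.to_le hKB
    exact e8_chain2 K B g hodd hK2 hKB (by rw [hcard, hm]; ring) hKfix hgB
  · exact absurd hm4 (by norm_num)
  · have hKeq : K = B := Subgroup.eq_of_le_of_card_ge hKB (by rw [hm, hcard, mul_comm])
    intro b hb
    exact hKfix b (hKeq ▸ hb)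

/-- Piece E3: the elementary abelian `8` endgame. -/
theorem e8_endgame [Finite G] (S O E T' U : Subgroup G) (x c : G) (hS : IsPGroup 2 S)
    (hOS : O ≤ S) (hOn : S ≤ Subgroup.normalizer (O : Set G))
    (hCO : S ⊓ Subgroup.centralizer (O : Set G) ≤ O) (hE8 : Nat.card E = 8)
    (hEe : ∀ e ∈ E, e * e = 1) (hCE : S ⊓ Subgroup.centralizer (E : Set G) ≤ E) (hET : E ≤ T')
    (hTS : T' ≤ S) (hxS : x ∈ S)
    (hxT : Subgroup.map (MulEquiv.toMonoidHom (MulAut.conj x)) T' = T')
    (hT16 : Nat.card T' = 16)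
    (hTE : T' = E ⊔ Subgroup.map (MulEquiv.toMonoidHom (MulAut.conj x)) E)
    (hNE : S ⊓ Subgroup.normalizer (E : Set G) ≤ T') (hcE : c ∈ E) (hc1 : c ≠ 1)
    (hcT : ∀ t ∈ T', t * c = c * t) (hCc : S ⊓ Subgroup.centralizer ({c} : Set G) ≤ T')
    (hUS : U ≤ S) (hUn : S ≤ Subgroup.normalizer (U : Set G)) (hU4 : Nat.card U = 4)
    (hUe : ∀ u ∈ U, u * u = 1) (hUO : O ≤ Subgroup.centralizer (U : Set G)) :
    (∀ g ∈ Subgroup.normalizer (O : Set G), Odd (orderOf g) →
      g ∈ Subgroup.centralizer (O : Set G)) ∧ O ≠ S := by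
  classical
  have hp2 : Fact (Nat.Prime 2) := ⟨Nat.prime_two⟩
  obtain ⟨E', hE'def⟩ : ∃ E' : Subgroup G,
      E' = Subgroup.map (MulEquiv.toMonoidHom (MulAut.conj x)) E := ⟨_, rfl⟩
  rw [← hE'def] at hTE
  have hE'mem : ∀ y, y ∈ E' ↔ x⁻¹ * y * x ∈ E := fun y => by
    rw [hE'def]; exact e8_mem_map_conj x y E
  have hE'card : Nat.card E' = 8 := by
    rw [hE'def, ← hE8]
    exact Subgroup.card_map_of_injective (MulEquiv.injective _)
  have hES : E ≤ S := hET.trans hTS
  have hE'T : E' ≤ T' := by rw [hTE]; exact le_sup_right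
  have hE'S : E' ≤ S := hE'T.trans hTS
  have hxinvS : x⁻¹ ∈ S := S.inv_mem hxS
  have hCE_el : ∀ y ∈ S, (∀ a ∈ E, y * a = a * y) → y ∈ E := by
    intro y hy h
    exact hCE ⟨hy, Subgroup.mem_centralizer_iff.mpr (fun a ha => (h a ha).symm)⟩
  have hE'e : ∀ a ∈ E', a * a = 1 := by
    intro a ha
    have h1 := hEe _ ((hE'mem a).mp ha)
    have h2 : x⁻¹ * a * x * (x⁻¹ * a * x) = x⁻¹ * (a * a) * x := by group
    rw [h2] at h1
    have h3 : a * a = x * (x⁻¹ * (a * a) * x) * x⁻¹ := by group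
    rw [h3, h1]; group
  have hEab : ∀ a ∈ E, ∀ b ∈ E, a * b = b * a := fun a ha b hb =>
    e8_comm_of_sq (hEe a ha) (hEe b hb) (hEe _ (E.mul_mem ha hb))
  have hE'ab : ∀ a ∈ E', ∀ b ∈ E', a * b = b * a := fun a ha b hb =>
    e8_comm_of_sq (hE'e a ha) (hE'e b hb) (hE'e _ (E'.mul_mem ha hb))
  have hCE'_el : ∀ y ∈ S, (∀ a ∈ E', y * a = a * y) → y ∈ E' := by
    intro y hy h
    rw [hE'mem]
    apply hCE_el _ (S.mul_mem (S.mul_mem hxinvS hy) hxS)
    intro a ha
    have h1 : x * a * x⁻¹ ∈ E' := by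
      rw [hE'mem]
      have h2 : x⁻¹ * (x * a * x⁻¹) * x = a := by group
      rw [h2]; exact ha
    have h3 := h _ h1
    calc x⁻¹ * y * x * a = x⁻¹ * (y * (x * a * x⁻¹)) * x := by group
      _ = x⁻¹ * ((x * a * x⁻¹) * y) * x := by rw [h3]
      _ = a * (x⁻¹ * y * x) := by group
  have hEne : E ≠ E' := by
    intro h
    rw [← h, sup_idem] at hTE
    rw [hTE, hE8] at hT16
    norm_num at hT16
  have hTE2 : Nat.card T' = 2 * Nat.card E := by rw [hT16, hE8]
  have hTE'2 : Nat.card T' = 2 * Nat.card E' := by rw [hT16, hE'card]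
  obtain ⟨f, hfE', hfE⟩ : ∃ f ∈ E', f ∉ E := by
    by_contra hno
    push Not at hno
    exact hEne (Subgroup.eq_of_le_of_card_ge hno (by rw [hE8, hE'card])).symm
  obtain ⟨e, heE, heE'⟩ : ∃ e ∈ E, e ∉ E' := by
    by_contra hno
    push Not at hno
    exact hEne (Subgroup.eq_of_le_of_card_ge hno (by rw [hE8, hE'card]))
  obtain ⟨D, hDdef⟩ : ∃ D : Subgroup G, D = E ⊓ E' := ⟨_, rfl⟩
  have hDE : D ≤ E := by rw [hDdef]; exact inf_le_left
  have hDE' : D ≤ E' := by rw [hDdef]; exact inf_le_right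
  have hDmem : ∀ y, y ∈ D ↔ y ∈ E ∧ y ∈ E' := fun y => by rw [hDdef]; exact Subgroup.mem_inf
  have hfT : f ∈ T' := hE'T hfE'
  have heT : e ∈ T' := hET heE
  have hff : f * f = 1 := hE'e f hfE'
  have hee : e * e = 1 := hEe e heE
  have hfinv : f⁻¹ = f := inv_eq_of_mul_eq_one_right hff
  have heinv : e⁻¹ = e := inv_eq_of_mul_eq_one_right hee
  have hDcard : Nat.card D = 4 := by
    have h1 : D.relIndex E' = 2 := by
      rw [Subgroup.relIndex_eq_two_iff]
      refine ⟨f, hfE', fun b hb => ?_⟩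
      by_cases hbD : b ∈ D
      · right
        refine ⟨hbD, fun h => hfE ?_⟩
        have h2 : f = b⁻¹ * (b * f) := by group
        rw [h2]; exact hDE (D.mul_mem (D.inv_mem hbD) h)
      · left
        have hbE : b ∉ E := fun h => hbD ((hDmem b).mpr ⟨h, hb⟩)
        exact ⟨(hDmem _).mpr ⟨e8_mul_mem E T' hET hTE2 (hE'T hb) hfT hbE hfE,
          E'.mul_mem hb hfE'⟩, hbD⟩
    have h2 := Subgroup.card_mul_index (D.subgroupOf E')
    have h3 : Nat.card (D.subgroupOf E') = Nat.card D :=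
      Nat.card_congr (Subgroup.subgroupOfEquivOfLe hDE').toEquiv
    rw [h3, hE'card] at h2
    have h4 : (D.subgroupOf E').index = 2 := h1
    rw [h4] at h2
    omega
  have hED2 : Nat.card E = 2 * Nat.card D := by rw [hE8, hDcard]
  have hE'D2 : Nat.card E' = 2 * Nat.card D := by rw [hE'card, hDcard]
  have heD : e ∉ D := fun h => heE' (hDE' h)
  have hfD : f ∉ D := fun h => hfE (hDE h)
  have hdecT : ∀ t ∈ T', t ∉ E → ∃ a ∈ E, t = f * a := by
    intro t ht htE
    refine ⟨f * t, e8_mul_mem E T' hET hTE2 hfT ht hfE htE, ?_⟩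
    rw [← mul_assoc, hff, one_mul]
  have hdecE : ∀ a ∈ E, a ∉ D → ∃ d ∈ D, a = e * d := by
    intro a ha haD
    refine ⟨e * a, e8_mul_mem D E hDE hED2 heE ha heD haD, ?_⟩
    rw [← mul_assoc, hee, one_mul]
  have hDcent : ∀ d ∈ D, ∀ t ∈ T', d * t = t * d := by
    intro d hd t ht
    by_cases htE : t ∈ E
    · exact hEab d (hDE hd) t htE
    · obtain ⟨a, ha, rfl⟩ := hdecT t ht htE
      have h1 := hE'ab d (hDE' hd) f hfE'
      have h2 := hEab d (hDE hd) a ha
      calc d * (f * a) = (d * f) * a := by group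
        _ = f * (d * a) := by rw [h1]; group
        _ = f * a * d := by rw [h2]; group
  have hcD : c ∈ D := by
    rw [hDmem]
    exact ⟨hcE, hCE'_el c (hES hcE) (fun a ha => (hcT a (hE'T ha)).symm)⟩
  have hZT : ∀ y ∈ T', (∀ t ∈ T', y * t = t * y) → y ∈ D := by
    intro y hy h
    rw [hDmem]
    exact ⟨hCE_el y (hTS hy) (fun a ha => h a (hET ha)),
      hCE'_el y (hTS hy) (fun a ha => h a (hE'T ha))⟩
  have hxT'not : x ∉ T' := by
    intro hx
    apply hEne
    symm
    apply Subgroup.eq_of_le_of_card_ge _ (by rw [hE8, hE'card])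
    intro y hy
    have h1 := (hE'mem y).mp hy
    have h2 := e8_conj_mem E T' hET hTE2 h1 hx
    have h3 : x * (x⁻¹ * y * x) * x⁻¹ = y := by group
    rwa [h3] at h2
  obtain ⟨w0, hw0def⟩ : ∃ w0 : G, w0 = f * e * (f * e) := ⟨_, rfl⟩
  have hw0D : w0 ∈ D := by
    rw [hDmem, hw0def]
    constructor
    · have h1 := e8_conj_mem E T' hET hTE2 heE hfT
      rw [hfinv] at h1
      have h2 : f * e * (f * e) = (f * e * f) * e := by group
      rw [h2]; exact E.mul_mem h1 heE
    · have h1 := e8_conj_mem E' T' hE'T hTE'2 hfE' heT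
      rw [heinv] at h1
      have h2 : f * e * (f * e) = f * (e * f * e) := by group
      rw [h2]; exact E'.mul_mem hfE' h1
  have hw0ne : w0 ≠ 1 := by
    intro h
    rw [hw0def] at h
    have h1 : f * e = e * f := e8_comm_of_sq hff hee h
    apply hfE
    apply hCE_el f (hTS hfT)
    intro a ha
    by_cases haD : a ∈ D
    · exact (hDcent a haD f hfT).symm
    · obtain ⟨d, hd, rfl⟩ := hdecE a ha haD
      have h2 := hDcent d hd f hfT
      calc f * (e * d) = (f * e) * d := by group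
        _ = e * (f * d) := by rw [h1]; group
        _ = e * d * f := by rw [← h2]; group
  have hsq : ∀ t ∈ T', t ∈ E ∨ t ∈ E' ∨ (t * t = w0 ∧ ∃ d ∈ D, t = f * (e * d)) := by
    intro t ht
    by_cases htE : t ∈ E
    · exact Or.inl htE
    · obtain ⟨a, ha, rfl⟩ := hdecT t ht htE
      by_cases haD : a ∈ D
      · exact Or.inr (Or.inl (E'.mul_mem hfE' (hDE' haD)))
      · obtain ⟨d, hd, rfl⟩ := hdecE a ha haD
        refine Or.inr (Or.inr ⟨?_, d, hd, rfl⟩)
        have h1 := hDcent d hd f hfT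
        have h2 := hDcent d hd e heT
        have h3 : d * d = 1 := hEe d (hDE hd)
        rw [hw0def]
        calc f * (e * d) * (f * (e * d)) = f * e * (d * f) * e * d := by group
          _ = f * e * f * (d * e) * d := by rw [h1]; group
          _ = f * e * f * e * (d * d) := by rw [h2]; group
          _ = f * e * (f * e) := by rw [h3]; group
  have hF2 : ∀ t ∈ T', t * t = 1 → t ∈ E ∨ t ∈ E' := by
    intro t ht h
    rcases hsq t ht with h1 | h1 | ⟨h1, -⟩
    · exact Or.inl h1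
    · exact Or.inr h1
    · rw [h] at h1; exact absurd h1.symm hw0ne
  have hUne : S ⊓ U ≠ ⊥ := by
    intro h
    have h1 : U ≤ S ⊓ U := le_inf hUS le_rfl
    rw [h] at h1
    have h2 : U = ⊥ := le_bot_iff.mp h1
    rw [h2, Subgroup.card_bot] at hU4
    norm_num at hU4
  obtain ⟨z, hzSU, hzord, hzc⟩ := exists_central_orderOf_eq_of_inf_ne_bot hS hUn hUne
  have hzU : z ∈ U := hzSU.2
  have hzS : z ∈ S := hzSU.1
  have hzD : z ∈ D := by
    rw [hDmem]
    exact ⟨hCE_el z hzS (fun a ha => (hzc a (hES ha)).symm),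
      hCE'_el z hzS (fun a ha => (hzc a (hE'S ha)).symm)⟩
  have hUconj : ∀ s ∈ S, ∀ u ∈ U, s * u * s⁻¹ ∈ U := fun s hs u hu =>
    (Subgroup.mem_normalizer_iff.mp (hUn hs) u).mp hu
  have hOconj : ∀ s ∈ S, ∀ u ∈ O, s * u * s⁻¹ ∈ O := fun s hs u hu =>
    (Subgroup.mem_normalizer_iff.mp (hOn hs) u).mp hu
  by_cases hUE : U ≤ E
  swap
  · exfalso
    obtain ⟨u, huU, huE⟩ := SetLike.not_le_iff_exists.mp hUE
    have hkey : ∀ u ∈ U, u ∉ E → u ∈ E' := by
      intro u huU huE
      have hzpU : Subgroup.zpowers z ≤ U := Subgroup.zpowers_le.mpr hzU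
      have hzpE : Subgroup.zpowers z ≤ E := Subgroup.zpowers_le.mpr (hDE hzD)
      have hzpcard : Nat.card U = 2 * Nat.card (Subgroup.zpowers z) := by
        rw [Nat.card_zpowers, hzord, hU4]
      have huu : u * u = 1 := hUe u huU
      have huinv : u⁻¹ = u := inv_eq_of_mul_eq_one_right huu
      have hconj : ∀ a ∈ E, u⁻¹ * a * u ∈ E := by
        intro a ha
        have h1 : a * u * a⁻¹ ∈ U := hUconj a (hES ha) u huU
        have h2 : a * u * a⁻¹ ∉ Subgroup.zpowers z := by
          intro h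
          apply huE
          have h3 : u = a⁻¹ * (a * u * a⁻¹) * a := by group
          rw [h3]
          exact E.mul_mem (E.mul_mem (E.inv_mem ha) (hzpE h)) ha
        have h4 : u⁻¹ ∉ Subgroup.zpowers z := by
          intro h; rw [huinv] at h; exact huE (hzpE h)
        have h5 := e8_mul_mem (Subgroup.zpowers z) U hzpU hzpcard (U.inv_mem huU) h1 h4 h2
        have h6 : u⁻¹ * a * u = (u⁻¹ * (a * u * a⁻¹)) * a := by group
        rw [h6]; exact E.mul_mem (hzpE h5) ha
      have huN : u ∈ Subgroup.normalizer (E : Set G) := by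
        rw [Subgroup.mem_normalizer_iff]
        intro h
        constructor
        · intro hh
          have h1 := hconj h hh
          rw [huinv] at h1
          rw [huinv]; exact h1
        · intro hh
          have h1 := hconj _ hh
          have h2 : u⁻¹ * (u * h * u⁻¹) * u = h := by group
          rwa [h2] at h1
      have huT : u ∈ T' := hNE ⟨hUS huU, huN⟩
      rcases hF2 u huT huu with h | h
      · exact absurd h huE
      · exact h
    have hUE' : U ≤ E' := by
      intro v hv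
      by_cases hvE : v ∈ E
      · have h1 : v * u ∉ E := fun h => huE (by
          have h2 : u = v⁻¹ * (v * u) := by group
          rw [h2]; exact E.mul_mem (E.inv_mem hvE) h)
        have h3 := hkey (v * u) (U.mul_mem hv huU) h1
        have h4 := hkey u huU huE
        have h5 : v = (v * u) * u⁻¹ := by group
        rw [h5]; exact E'.mul_mem h3 (E'.inv_mem h4)
      · exact hkey v hv hvE
    apply hUE
    intro v hv
    have h1 := hUE' (hUconj x hxS v hv)
    rw [hE'mem] at h1
    have h2 : x⁻¹ * (x * v * x⁻¹) * x = v := by group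
    rwa [h2] at h1
  · have hUE' : U ≤ E' := by
      intro v hv
      rw [hE'mem]
      have h1 := hUconj x⁻¹ hxinvS v hv
      rw [inv_inv] at h1
      exact hUE h1
    have hUD : U = D := by
      apply Subgroup.eq_of_le_of_card_ge
      · intro v hv; exact (hDmem v).mpr ⟨hUE hv, hUE' hv⟩
      · rw [hDcard, hU4]
    have hOT : O ≤ T' := by
      intro y hy
      apply hCc
      refine Subgroup.mem_inf.mpr ⟨hOS hy, Subgroup.mem_centralizer_iff.mpr ?_⟩
      intro h hh
      rw [Set.mem_singleton_iff] at hh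
      rw [hh]
      exact Subgroup.mem_centralizer_iff.mp (hUO hy) c (by rw [hUD]; exact hcD)
    have hDO : D ≤ O := by
      intro d hd
      apply hCO
      refine Subgroup.mem_inf.mpr ⟨hES (hDE hd), Subgroup.mem_centralizer_iff.mpr ?_⟩
      intro h hh
      exact (hDcent d hd h (hOT hh)).symm
    have hOneS : O ≠ S := by
      intro h
      apply hxT'not
      apply hOT
      rw [h]; exact hxS
    refine ⟨?_, hOneS⟩
    intro g hg hodd
    have hgO : ∀ y ∈ O, g * y * g⁻¹ ∈ O := fun y hy =>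
      (Subgroup.mem_normalizer_iff.mp hg y).mp hy
    have hgO' : ∀ y ∈ O, g⁻¹ * y * g ∈ O := by
      intro y hy
      apply (Subgroup.mem_normalizer_iff.mp hg (g⁻¹ * y * g)).mpr
      have h2 : g * (g⁻¹ * y * g) * g⁻¹ = y := by group
      rw [h2]; exact hy
    suffices hfix : ∀ y ∈ O, g * y * g⁻¹ = y by
      rw [Subgroup.mem_centralizer_iff]
      intro h hh
      have h1 := hfix h hh
      calc h * g = (g * h * g⁻¹) * g := by rw [h1]
        _ = g * h := by group
    obtain ⟨m, hm⟩ := Subgroup.card_dvd_of_le hDO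
    rw [hDcard] at hm
    have hm4 : m ∣ 4 := by
      have h1 := Subgroup.card_dvd_of_le hOT
      rw [hm, hT16, show (16 : ℕ) = 4 * 4 from rfl] at h1
      exact Nat.dvd_of_mul_dvd_mul_left (by norm_num) h1
    have hmle : m ≤ 4 := Nat.le_of_dvd (by norm_num) hm4
    have hD2 : IsPGroup 2 D := hS.to_le (hDE.trans hES)
    have hsq' : ∀ t ∈ T', t * t ≠ 1 → t * t = w0 ∧ ∃ d ∈ D, t = f * (e * d) := by
      intro t ht hne
      rcases hsq t ht with h | h | h
      · exact absurd (hEe t h) hne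
      · exact absurd (hE'e t h) hne
      · exact h
    have hstep : (∀ d ∈ D, g * d * g⁻¹ ∈ D) → (∃ y₀ ∈ O, y₀ * y₀ = w0) →
        (∀ d ∈ D, g * d * g⁻¹ = d) ∧ g * w0 * g⁻¹ = w0 := by
      intro hα ⟨y₀, hy₀O, hy₀⟩
      have hβ : g * w0 * g⁻¹ = w0 := by
        have h1 : (g * y₀ * g⁻¹) * (g * y₀ * g⁻¹) = g * w0 * g⁻¹ := by rw [← hy₀]; group
        have h2 : g * w0 * g⁻¹ ≠ 1 := by
          intro h
          apply hw0ne
          have h3 : w0 = g⁻¹ * (g * w0 * g⁻¹) * g := by group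
          rw [h3, h]; group
        have h4 := (hsq' _ (hOT (hgO y₀ hy₀O)) (by rw [h1]; exact h2)).1
        rw [h1] at h4
        exact h4
      refine ⟨?_, hβ⟩
      have hw0sq : w0 * w0 = 1 := hEe w0 (hDE hw0D)
      have hzw : Subgroup.zpowers w0 ≤ D := Subgroup.zpowers_le.mpr hw0D
      have hw0ord : orderOf w0 = 2 := orderOf_eq_prime (by rw [pow_two]; exact hw0sq) hw0ne
      have hcard : Nat.card D = 2 * Nat.card (Subgroup.zpowers w0) := by
        rw [Nat.card_zpowers, hw0ord, hDcard]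
      have hfixw : ∀ a ∈ Subgroup.zpowers w0, g * a * g⁻¹ = a := by
        intro a ha
        obtain ⟨k, rfl⟩ := Subgroup.mem_zpowers_iff.mp ha
        rw [← conj_zpow, hβ]
      exact e8_chain2 (Subgroup.zpowers w0) D g hodd (hD2.to_le hzw) hzw hcard hfixw hα
    interval_cases m
    · rw [mul_zero] at hm; exact absurd hm Nat.card_pos.ne'
    · exfalso
      have hOD : D = O := Subgroup.eq_of_le_of_card_ge hDO (by rw [hm, hDcard])
      have h1 : T' ≤ O := by
        intro t ht
        apply hCO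
        refine Subgroup.mem_inf.mpr ⟨hTS ht, Subgroup.mem_centralizer_iff.mpr ?_⟩
        intro h hh
        rw [← hOD] at hh
        exact hDcent h hh t ht
      have h2 := Subgroup.card_le_of_le h1
      rw [hT16, hm] at h2
      omega
    · have hO8 : Nat.card O = 2 * Nat.card D := by rw [hm, hDcard]
      have hinv : ∀ y ∈ O, y * y = 1 → y ∈ D := by
        intro y hy hyy
        by_contra hyD
        rcases hF2 y (hOT hy) hyy with h | h
        · have hEO : E ≤ O := by
            intro a ha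
            by_cases haD : a ∈ D
            · exact hDO haD
            · have h1 := e8_mul_mem D E hDE hED2 h ha hyD haD
              have h2 : a = y⁻¹ * (y * a) := by group
              rw [h2]; exact O.mul_mem (O.inv_mem hy) (hDO h1)
          have hEO' : E = O := Subgroup.eq_of_le_of_card_ge hEO (by rw [hm, hE8])
          apply hEne
          symm
          apply Subgroup.eq_of_le_of_card_ge _ (by rw [hE8, hE'card])
          intro b hb
          have h1 := (hE'mem b).mp hb
          rw [hEO'] at h1 ⊢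
          have h2 := hOconj x hxS _ h1
          have h3 : x * (x⁻¹ * b * x) * x⁻¹ = b := by group
          rwa [h3] at h2
        · have hEO : E' ≤ O := by
            intro a ha
            by_cases haD : a ∈ D
            · exact hDO haD
            · have h1 := e8_mul_mem D E' hDE' hE'D2 h ha hyD haD
              have h2 : a = y⁻¹ * (y * a) := by group
              rw [h2]; exact O.mul_mem (O.inv_mem hy) (hDO h1)
          have hEO' : E' = O := Subgroup.eq_of_le_of_card_ge hEO (by rw [hm, hE'card])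
          apply hEne
          apply Subgroup.eq_of_le_of_card_ge _ (by rw [hE8, hE'card])
          intro a ha
          have h1 : x * a * x⁻¹ ∈ E' := by
            rw [hE'mem]
            have h2 : x⁻¹ * (x * a * x⁻¹) * x = a := by group
            rw [h2]; exact ha
          rw [hEO'] at h1 ⊢
          have h2 := hOconj x⁻¹ hxinvS _ h1
          rw [inv_inv] at h2
          have h3 : x⁻¹ * (x * a * x⁻¹) * x = a := by group
          rwa [h3] at h2
      have hα : ∀ d ∈ D, g * d * g⁻¹ ∈ D := by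
        intro d hd
        apply hinv _ (hgO d (hDO hd))
        have h1 : d * d = 1 := hEe d (hDE hd)
        have h2 : g * d * g⁻¹ * (g * d * g⁻¹) = g * (d * d) * g⁻¹ := by group
        rw [h2, h1]; group
      obtain ⟨y₀, hy₀O, hy₀D⟩ : ∃ y₀ ∈ O, y₀ ∉ D := by
        by_contra hno
        push Not at hno
        have h1 := Subgroup.card_le_of_le (show O ≤ D from hno)
        rw [hm, hDcard] at h1
        omega
      have hy₀sq : y₀ * y₀ = w0 :=
        (hsq' y₀ (hOT hy₀O) (fun h => hy₀D (hinv y₀ hy₀O h))).1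
      obtain ⟨hfixD, -⟩ := hstep hα ⟨y₀, hy₀O, hy₀sq⟩
      exact e8_chain2 D O g hodd hD2 hDO hO8 hfixD hgO
    · exact absurd hm4 (by norm_num)
    · have hOT' : O = T' := Subgroup.eq_of_le_of_card_ge hOT (by rw [hm, hT16])
      have hα : ∀ d ∈ D, g * d * g⁻¹ ∈ D := by
        intro d hd
        apply hZT _ (hOT (hgO d (hDO hd)))
        intro t ht
        have h1 : g⁻¹ * t * g ∈ T' := by rw [← hOT'] at ht ⊢; exact hgO' t ht
        have h2 := hDcent d hd _ h1
        calc g * d * g⁻¹ * t = g * (d * (g⁻¹ * t * g)) * g⁻¹ := by group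
          _ = g * ((g⁻¹ * t * g) * d) * g⁻¹ := by rw [h2]
          _ = t * (g * d * g⁻¹) := by group
      have hy₀T : f * e ∈ T' := T'.mul_mem hfT heT
      have hy₀O : f * e ∈ O := by rw [hOT']; exact hy₀T
      obtain ⟨hfixD, hβ⟩ := hstep hα ⟨f * e, hy₀O, hw0def.symm⟩
      have hy₀D : f * e ∉ D := by
        intro h
        have h1 := hEe _ (hDE h)
        rw [← hw0def] at h1
        exact hw0ne h1
      have hy₀A : (f * e)⁻¹ * (g * (f * e) * g⁻¹) ∈ D := by
        have h1 : (g * (f * e) * g⁻¹) * (g * (f * e) * g⁻¹) = w0 := by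
          have h2 : (g * (f * e) * g⁻¹) * (g * (f * e) * g⁻¹) =
              g * (f * e * (f * e)) * g⁻¹ := by group
          rw [h2, ← hw0def, hβ]
        obtain ⟨-, d, hd, hd'⟩ := hsq' _ (hOT (hgO _ hy₀O)) (by rw [h1]; exact hw0ne)
        rw [hd']
        have h3 : (f * e)⁻¹ * (f * (e * d)) = d := by group
        rw [h3]; exact hd
      have hres := e8_chain4 D T' g hodd (hS.to_le hTS) (hDE.trans hET)
        (by rw [hT16, hDcard]) hDcent hfixD
        (fun b hb => by rw [← hOT'] at hb ⊢; exact hgO b hb) (f * e) hy₀T hy₀D hy₀A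
      intro y hy
      exact hres y (hOT hy)

end Cfsg.Agent.Helper48
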