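/-
CALL EL (helper43; row S5988), stage CNT, all-characteristic ingredients (helper48):
`el_iso`  : two nondegenerate subspaces of the same even dimension and the same type are isometric
            (ALL characteristics; the odd-characteristic version is `Helper84.OE5993.oe_iso`);
`el_trans_fix` : Witt transitivity inside a nondegenerate subspace `K`, fixing `K^⊥` pointwise
            (ALL characteristics; = `Helper84.OE5993.oe_trans_fix` without `2 ≠ 0`).
-/
import Mathlib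
import Cfsg.Agent.Helper96.OHDefs
import Cfsg.Agent.Helper33.OType
import Cfsg.Agent.Helper43.UniMinus
import Cfsg.Agent.Helper43.OrthPlane
import Cfsg.Agent.Helper84.OEETRANSFIXCore

set_option autoImplicit false

namespace Cfsg.Agent.Helper48.EL

open Module Cfsg Cfsg.Geo
open Cfsg.Agent.Helper96.OH Cfsg.Agent.Helper43 Cfsg.Agent.Helper43.OrthEven
open Cfsg.Agent.Helper33.OType Cfsg.Agent.Helper43.UniMinus

variable {ι : Type} [Fintype ι] [DecidableEq ι] {F : Type*} [Field F] (Q : (ι → F) → F)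

/-- EISO, all characteristics. -/
theorem el_iso [Fintype F] (hQ : IsNondegenerateQuadraticForm Q)
    (W W' : Submodule F (ι → F)) (hW : IsNondegenerateOn (QuadraticMap.polar Q) W)
    (hW' : IsNondegenerateOn (QuadraticMap.polar Q) W')
    (hdim : finrank F W = finrank F W') (hev : Even (finrank F W))
    (hty : IsPlusTypeOn Q W ↔ IsPlusTypeOn Q W') : AreIsometricFor Q W W' := by
  classical
  obtain ⟨k, hk⟩ := hev
  have hd : finrank F W = 2 * k := by omega
  have hd' : finrank F W' = 2 * k := by omega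
  have hnd₁ := polarNondeg_restr Q hQ W hW
  have hnd₂ := polarNondeg_restr Q hQ W' hW'
  have b₁ := plus_iff_hasTS Q hQ W hW hd
  have b₂ := plus_iff_hasTS Q hQ W' hW' hd'
  by_cases hpl : IsPlusTypeOn Q W
  · obtain ⟨Ψ₁, hΨ₁⟩ := exists_plus_of_hasTS' hd (restr Q hQ W) hnd₁ (b₁.mp hpl)
    obtain ⟨Ψ₂, hΨ₂⟩ := exists_plus_of_hasTS' hd' (restr Q hQ W') hnd₂ (b₂.mp (hty.mp hpl))
    refine ⟨Ψ₁.symm.trans Ψ₂, fun w => ?_⟩
    have e1 := hΨ₂ (Ψ₁.symm w)
    have e2 := hΨ₁ (Ψ₁.symm w)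
    rw [LinearEquiv.apply_symm_apply] at e2
    rw [restr_apply] at e1 e2
    rw [LinearEquiv.trans_apply, e1, e2]
  · have hk1 : 1 ≤ k := by
      by_contra hk0
      have hk0' : k = 0 := by omega
      have hWb : W = ⊥ := Submodule.finrank_eq_zero.1 (by rw [hd, hk0'])
      exact hpl (hWb ▸ Cfsg.Agent.Helper33.o_plus_bot Q hQ)
    have hpl' : ¬ IsPlusTypeOn Q W' := fun h => hpl (hty.mpr h)
    obtain ⟨ζ, hζ, Ψ₁, hΨ₁⟩ := exists_minus_of_not_hasTS hk1 hd (restr Q hQ W) hnd₁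
      (fun h => hpl (b₁.mpr h))
    have hac := Cfsg.Agent.S2617.aniso ζ hζ
    obtain ⟨Ψ₂, hΨ₂⟩ := exists_minus_of_not_hasTS' hk1 hd' (restr Q hQ W') hnd₂
      (fun h => hpl' (b₂.mpr h)) 1 ζ hac
    refine ⟨Ψ₁.symm.trans Ψ₂, fun w => ?_⟩
    have e1 := hΨ₂ (Ψ₁.symm w)
    have e2 := hΨ₁ (Ψ₁.symm w)
    rw [LinearEquiv.apply_symm_apply] at e2
    rw [restr_apply] at e1 e2
    rw [LinearEquiv.trans_apply, e1, e2]

/-- ETRANSFIX, all characteristics. -/
theorem el_trans_fix [Fintype F] (hQ : IsNondegenerateQuadraticForm Q)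
    (K W W' : Submodule F (ι → F)) (hK : IsNondegenerateOn (QuadraticMap.polar Q) K)
    (hW : IsNondegenerateOn (QuadraticMap.polar Q) W)
    (hW' : IsNondegenerateOn (QuadraticMap.polar Q) W') (hWK : W ≤ K)
    (hW'K : W' ≤ K) (hdim : finrank F W = finrank F W') (hev : Even (finrank F W))
    (hty : IsPlusTypeOn Q W ↔ IsPlusTypeOn Q W') :
    ∃ g : Module.End F (ι → F), (∀ v, Q (g v) = Q v) ∧ Function.Bijective g ∧ W.map g = W' ∧
      ∀ v, (∀ u ∈ K, QuadraticMap.polar Q u v = 0) → g v = v :=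
  Cfsg.Agent.Helper84.OE5993.oetransfix_core Q hQ K W W' hK hW hW' hWK hW'K
    (el_iso Q hQ W W' hW hW' hdim hev hty)

end Cfsg.Agent.Helper48.EL
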