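import Mathlib
import Cfsg.Agent.Helper48.ES2Iso2

/-!
# Automorphisms of extraspecial 2-groups: lifting isometries, central automorphisms (helper48)

* `exists_mulEquiv_of_graph`, `exists_mulEquiv_of_ext` : isomorphisms from graphs, with control
  of the values.
* `es2_comm_iff_sq` : commutation is determined by the squaring map.
* `es2_lift` : a map between extraspecial 2-groups of the same order which is multiplicative
  modulo the centre and preserves `x² = 1` agrees modulo the centre with an isomorphism.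
* `es2_inner` : an automorphism acting trivially modulo the centre is inner.
-/

set_option autoImplicit false

namespace Cfsg.Agent.Helper48

open Subgroup

universe u v

section Graph

/-- A subgroup of `E × E'` projecting onto both factors, of order at most `|E|` and `|E'|`, is
the graph of an isomorphism. -/
theorem exists_mulEquiv_of_graph {E : Type u} {E' : Type v} [Group E] [Group E'] [Finite E]
    [Finite E'] (Γ : Subgroup (E × E')) (h₁ : Γ.map (MonoidHom.fst E E') = ⊤)
    (h₂ : Γ.map (MonoidHom.snd E E') = ⊤) (hc₁ : Nat.card Γ ≤ Nat.card E)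
    (hc₂ : Nat.card Γ ≤ Nat.card E') :
    ∃ φ : E ≃* E', ∀ x y, (x, y) ∈ Γ → φ x = y := by
  obtain ⟨p₁, hp₁⟩ : ∃ p₁ : Γ →* E, ∀ γ : Γ, p₁ γ = (γ : E × E').1 :=
    ⟨(MonoidHom.fst E E').comp Γ.subtype, fun _ => rfl⟩
  obtain ⟨p₂, hp₂⟩ : ∃ p₂ : Γ →* E', ∀ γ : Γ, p₂ γ = (γ : E × E').2 :=
    ⟨(MonoidHom.snd E E').comp Γ.subtype, fun _ => rfl⟩
  have hs₁ : Function.Surjective p₁ := by
    intro x
    have hx : x ∈ Γ.map (MonoidHom.fst E E') := by rw [h₁]; exact Subgroup.mem_top x
    obtain ⟨γ, hγ, rfl⟩ := hx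
    exact ⟨⟨γ, hγ⟩, hp₁ _⟩
  have hs₂ : Function.Surjective p₂ := by
    intro x
    have hx : x ∈ Γ.map (MonoidHom.snd E E') := by rw [h₂]; exact Subgroup.mem_top x
    obtain ⟨γ, hγ, rfl⟩ := hx
    exact ⟨⟨γ, hγ⟩, hp₂ _⟩
  have hb₁ : Function.Bijective p₁ := by
    rw [Nat.bijective_iff_surjective_and_card]
    exact ⟨hs₁, le_antisymm hc₁ (Nat.card_le_card_of_surjective p₁ hs₁)⟩
  have hb₂ : Function.Bijective p₂ := by
    rw [Nat.bijective_iff_surjective_and_card]
    exact ⟨hs₂, le_antisymm hc₂ (Nat.card_le_card_of_surjective p₂ hs₂)⟩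
  obtain ⟨e₁, he₁⟩ : ∃ e₁ : Γ ≃* E, ∀ γ, e₁ γ = p₁ γ :=
    ⟨MulEquiv.ofBijective p₁ hb₁, fun _ => rfl⟩
  obtain ⟨e₂, he₂⟩ : ∃ e₂ : Γ ≃* E', ∀ γ, e₂ γ = p₂ γ :=
    ⟨MulEquiv.ofBijective p₂ hb₂, fun _ => rfl⟩
  refine ⟨e₁.symm.trans e₂, ?_⟩
  intro x y hxy
  have h1 : e₁ ⟨(x, y), hxy⟩ = x := by rw [he₁, hp₁]
  have h2 : e₁.symm x = ⟨(x, y), hxy⟩ := (MulEquiv.symm_apply_eq e₁).mpr h1.symm
  show e₂ (e₁.symm x) = y
  rw [h2, he₂, hp₂]

/-- Extension of an isomorphism `β : C ≃* C'` to groups generated over `C`, `C'` by two elements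
centralizing them, with matching squares and commutator; the extension maps `t ↦ t'`,
`u ↦ u'`. -/
theorem exists_mulEquiv_of_ext {E : Type u} {E' : Type v} [Group E] [Group E'] [Finite E]
    [Finite E'] (C : Subgroup E) (C' : Subgroup E') (β : C ≃* C') (t u : E) (t' u' : E')
    (htC : ∀ c ∈ C, t * c = c * t) (huC : ∀ c ∈ C, u * c = c * u)
    (htC' : ∀ c ∈ C', t' * c = c * t') (huC' : ∀ c ∈ C', u' * c = c * u')
    (htt : ∃ c : C, t * t = c ∧ t' * t' = β c) (huu : ∃ c : C, u * u = c ∧ u' * u' = β c)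
    (hut : ∃ c : C, u * t = t * u * c ∧ u' * t' = t' * u' * β c)
    (hgen : closure ({t, u} ∪ (C : Set E)) = ⊤)
    (hgen' : closure ({t', u'} ∪ (C' : Set E')) = ⊤)
    (hcard : Nat.card E = 4 * Nat.card C) (hcard' : Nat.card E' = Nat.card E) :
    ∃ φ : E ≃* E', (∀ c : C, φ (c : E) = ((β c : C') : E')) ∧ φ t = t' ∧ φ u = u' := by
  obtain ⟨f, hf⟩ : ∃ f : C →* E × E', ∀ c : C, f c = ((c : E), ((β c : C') : E')) :=
    ⟨MonoidHom.prod C.subtype (C'.subtype.comp β.toMonoidHom), fun c => rfl⟩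
  obtain ⟨Γ₀, hΓ₀⟩ : ∃ Γ₀ : Subgroup (E × E'), Γ₀ = f.range := ⟨_, rfl⟩
  have hmemΓ₀ : ∀ c : C, ((c : E), ((β c : C') : E')) ∈ Γ₀ := by
    intro c; rw [hΓ₀, ← hf]; exact ⟨c, rfl⟩
  have hΓ₀mem : ∀ γ ∈ Γ₀, ∃ c : C, γ = ((c : E), ((β c : C') : E')) := by
    intro γ hγ
    rw [hΓ₀] at hγ
    obtain ⟨c, rfl⟩ := hγ
    exact ⟨c, hf c⟩
  have hΓ₀card : Nat.card Γ₀ ≤ Nat.card C := by
    rw [hΓ₀]
    exact Nat.card_le_card_of_surjective _ f.rangeRestrict_surjective
  have ha : ∀ γ ∈ Γ₀, ((t, t') : E × E') * γ = γ * (t, t') := by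
    intro γ hγ
    obtain ⟨c, rfl⟩ := hΓ₀mem γ hγ
    exact Prod.ext (htC c c.2) (htC' _ (β c).2)
  have hb : ∀ γ ∈ Γ₀, ((u, u') : E × E') * γ = γ * (u, u') := by
    intro γ hγ
    obtain ⟨c, rfl⟩ := hΓ₀mem γ hγ
    exact Prod.ext (huC c c.2) (huC' _ (β c).2)
  have haa : ((t, t') : E × E') * (t, t') ∈ Γ₀ := by
    obtain ⟨c, h1, h2⟩ := htt
    have : ((t, t') : E × E') * (t, t') = ((c : E), ((β c : C') : E')) := Prod.ext h1 h2
    rw [this]; exact hmemΓ₀ c
  have hbb : ((u, u') : E × E') * (u, u') ∈ Γ₀ := by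
    obtain ⟨c, h1, h2⟩ := huu
    have : ((u, u') : E × E') * (u, u') = ((c : E), ((β c : C') : E')) := Prod.ext h1 h2
    rw [this]; exact hmemΓ₀ c
  have hba : ∃ ω ∈ Γ₀, ((u, u') : E × E') * (t, t') = (t, t') * (u, u') * ω := by
    obtain ⟨c, h1, h2⟩ := hut
    exact ⟨_, hmemΓ₀ c, Prod.ext h1 h2⟩
  obtain ⟨Γ, hΓ⟩ : ∃ Γ : Subgroup (E × E'),
      Γ = closure ({((t, t') : E × E'), (u, u')} ∪ (Γ₀ : Set (E × E'))) := ⟨_, rfl⟩
  have hΓcard : Nat.card Γ ≤ Nat.card E := by
    rw [hΓ, hcard]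
    exact (card_closure_le_four_mul Γ₀ _ _ ha hb haa hbb hba).trans
      (Nat.mul_le_mul_left 4 hΓ₀card)
  have haΓ : ((t, t') : E × E') ∈ Γ := by
    rw [hΓ]; exact subset_closure (Or.inl (Set.mem_insert _ _))
  have hbΓ : ((u, u') : E × E') ∈ Γ := by
    rw [hΓ]; exact subset_closure (Or.inl (Set.mem_insert_of_mem _ rfl))
  have hΓ₀Γ : Γ₀ ≤ Γ := by
    rw [hΓ]; exact fun γ hγ => subset_closure (Or.inr hγ)
  have hmap₁ : Γ.map (MonoidHom.fst E E') = ⊤ := by
    rw [eq_top_iff, ← hgen, closure_le]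
    rintro x (hx | hx)
    · rcases hx with rfl | hx
      · exact ⟨_, haΓ, rfl⟩
      · rw [Set.mem_singleton_iff] at hx
        subst hx
        exact ⟨_, hbΓ, rfl⟩
    · exact ⟨_, hΓ₀Γ (hmemΓ₀ ⟨x, hx⟩), rfl⟩
  have hmap₂ : Γ.map (MonoidHom.snd E E') = ⊤ := by
    rw [eq_top_iff, ← hgen', closure_le]
    rintro x (hx | hx)
    · rcases hx with rfl | hx
      · exact ⟨_, haΓ, rfl⟩
      · rw [Set.mem_singleton_iff] at hx
        subst hx
        exact ⟨_, hbΓ, rfl⟩
    · refine ⟨_, hΓ₀Γ (hmemΓ₀ (β.symm ⟨x, hx⟩)), ?_⟩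
      simp
  obtain ⟨φ, hφ⟩ := exists_mulEquiv_of_graph Γ hmap₁ hmap₂ hΓcard (by rw [hcard']; exact hΓcard)
  exact ⟨φ, fun c => hφ _ _ (hΓ₀Γ (hmemΓ₀ c)), hφ _ _ haΓ, hφ _ _ hbΓ⟩

end Graph

section Lift

/-- In an extraspecial 2-group commutation is determined by the squaring map. -/
theorem es2_comm_iff_sq {E : Type*} [Group E] (hc : ∀ x y : E, x * y * x⁻¹ * y⁻¹ ∈ center E)
    (h2 : Nat.card (center E) = 2) (x y : E) :
    x * y = y * x ↔ ((x * y) * (x * y) = 1 ↔ (x * x = 1 ↔ y * y = 1)) := by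
  obtain ⟨z, hz, hz1, hzz, hzall⟩ := es2_exists_z h2
  have hz1' : ¬ (1 : E) = z := fun h => hz1 h.symm
  have key : x * y = y * x ↔ (x * y) * (x * y) = (x * x) * (y * y) := by
    constructor
    · intro h
      calc x * y * (x * y) = x * (y * x) * y := by simp only [mul_assoc]
        _ = x * (x * y) * y := by rw [h]
        _ = x * x * (y * y) := by simp only [mul_assoc]
    · intro h
      have h1 : x * (y * x) * y = x * (x * y) * y := by
        calc x * (y * x) * y = x * y * (x * y) := by simp only [mul_assoc]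
          _ = x * x * (y * y) := h
          _ = x * (x * y) * y := by simp only [mul_assoc]
      exact (mul_left_cancel (mul_right_cancel h1)).symm
  rw [key]
  rcases es2_sq_or hc h2 hzall x with hx | hx <;> rcases es2_sq_or hc h2 hzall y with hy | hy <;>
    rcases es2_sq_or hc h2 hzall (x * y) with hxy | hxy <;> rw [hx, hy, hxy] <;>
    simp [hz1, hz1', hzz]

/-- Central elements of the centralizer of a non-commuting pair. -/
theorem mem_center_cent2_iff {E : Type*} [Group E] (hc : ∀ x y : E, x * y * x⁻¹ * y⁻¹ ∈ center E)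
    (h2 : Nat.card (center E) = 2) (t u : E) (htu : t * u ≠ u * t) (c : cent2 t u) :
    c ∈ center (cent2 t u) ↔ (c : E) ∈ center E := by
  constructor
  · exact coe_mem_center_of_mem_center_cent2 hc h2 t u htu c
  · intro h
    rw [Subgroup.mem_center_iff]
    intro g
    apply Subtype.ext
    exact Subgroup.mem_center_iff.mp h (g : E)

/-- **Lifting lemma.** A map between extraspecial 2-groups of the same order which is
multiplicative modulo the centre, preserves `x² = 1` and is injective modulo the centres agrees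
modulo the centre with an isomorphism. -/
theorem es2_lift (m : ℕ) : ∀ (E : Type u) (E' : Type v) [Group E] [Group E'] [Finite E]
    [Finite E'], (∀ x y : E, x * y * x⁻¹ * y⁻¹ ∈ center E) → Nat.card (center E) = 2 →
    (∀ x y : E', x * y * x⁻¹ * y⁻¹ ∈ center E') → Nat.card (center E') = 2 →
    Nat.card E = 2 ^ (2 * m + 1) → Nat.card E' = 2 ^ (2 * m + 1) →
    ∀ f : E → E', (∀ x y, (f (x * y))⁻¹ * (f x * f y) ∈ center E') →
    (∀ x, f x * f x = 1 ↔ x * x = 1) → (∀ x, f x ∈ center E' → x ∈ center E) →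
    ∃ φ : E ≃* E', ∀ x, (f x)⁻¹ * φ x ∈ center E' := by
  induction m with
  | zero =>
    intro E E' _ _ _ _ hc h2 hc' h2' hcard hcard' f _ _ _
    obtain ⟨φ⟩ := es2_iso 0 E E' hc h2 hc' h2' hcard hcard'
      ⟨fun _ => es2Plus_zero hcard', fun _ => es2Plus_zero hcard⟩
    have htop : center E' = ⊤ := by
      rw [← Subgroup.card_eq_iff_eq_top, h2', hcard']
      norm_num
    refine ⟨φ, fun x => ?_⟩
    rw [htop]
    exact Subgroup.mem_top _
  | succ m ih =>
    intro E E' _ _ _ _ hc h2 hc' h2' hcard hcard' f hmul hsq hker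
    obtain ⟨z, hz, hz1, hzz, hzall⟩ := es2_exists_z h2
    obtain ⟨z', hz', hz1', hzz', hzall'⟩ := es2_exists_z h2'
    -- a non-commuting pair
    have hex : ∃ t u : E, t * u ≠ u * t := by
      by_contra hcon
      push Not at hcon
      have htop : center E = ⊤ := by
        rw [eq_top_iff]
        intro g _
        rw [Subgroup.mem_center_iff]
        intro w
        exact hcon w g
      have h3 : Nat.card (center E) = Nat.card E := by rw [htop, Subgroup.card_top]
      rw [h2, hcard] at h3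
      have h4 : 2 ^ 1 < 2 ^ (2 * (m + 1) + 1) := Nat.pow_lt_pow_right (by norm_num) (by omega)
      omega
    obtain ⟨t, u, htu⟩ := hex
    -- squares of products
    have hfsq2 : ∀ x y, (f x * f y) * (f x * f y) = 1 ↔ (x * y) * (x * y) = 1 := by
      intro x y
      rw [← hsq (x * y)]
      have h3 := hmul x y
      have h4 := center_mul_self h2' ⟨_, h3⟩
      have h5 : (f (x * y))⁻¹ * (f x * f y) * ((f (x * y))⁻¹ * (f x * f y)) = 1 :=
        congrArg Subtype.val h4
      have h6 := Subgroup.mem_center_iff.mp h3 (f (x * y))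
      have h7 : f x * f y * (f x * f y) = f (x * y) * f (x * y) := by
        calc f x * f y * (f x * f y)
            = f (x * y) * ((f (x * y))⁻¹ * (f x * f y)) *
                (f (x * y) * ((f (x * y))⁻¹ * (f x * f y))) := by group
          _ = f (x * y) * ((f (x * y))⁻¹ * (f x * f y)) *
                (((f (x * y))⁻¹ * (f x * f y)) * f (x * y)) := by rw [h6]
          _ = f (x * y) * ((f (x * y))⁻¹ * (f x * f y) * ((f (x * y))⁻¹ * (f x * f y))) *
                f (x * y) := by simp only [mul_assoc]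
          _ = f (x * y) * f (x * y) := by rw [h5, mul_one]
      rw [h7]
    have hcomm : ∀ x y, f x * f y = f y * f x ↔ x * y = y * x := by
      intro x y
      rw [es2_comm_iff_sq hc' h2', es2_comm_iff_sq hc h2, hfsq2, hsq, hsq]
    have htu' : f t * f u ≠ f u * f t := fun h => htu ((hcomm t u).mp h)
    -- the restricted map
    obtain ⟨fC, hfC⟩ : ∃ fC : cent2 t u → cent2 (f t) (f u), ∀ x, ((fC x : cent2 (f t) (f u)) : E') =
        f (x : E) :=
      ⟨fun x => ⟨f x, mem_cent2_iff.mpr ⟨(hcomm _ _).mpr (mem_cent2_iff.mp x.2).1,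
        (hcomm _ _).mpr (mem_cent2_iff.mp x.2).2⟩⟩, fun _ => rfl⟩
    have hcardC := card_cent2 hc h2 t u htu m hcard
    have hcardC' := card_cent2 hc' h2' (f t) (f u) htu' m hcard'
    obtain ⟨β, hβ⟩ := ih (cent2 t u) (cent2 (f t) (f u)) (cent2_comm_mem_center hc t u)
      (card_center_cent2 hc h2 t u htu) (cent2_comm_mem_center hc' (f t) (f u))
      (card_center_cent2 hc' h2' (f t) (f u) htu') hcardC hcardC' fC
      (by
        intro x y
        rw [mem_center_cent2_iff hc' h2' (f t) (f u) htu']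
        show ((fC (x * y) : cent2 (f t) (f u)) : E')⁻¹ * ((fC x : cent2 (f t) (f u)) *
          (fC y : cent2 (f t) (f u))) ∈ center E'
        rw [hfC, hfC, hfC]
        exact hmul x y)
      (by
        intro x
        rw [Subtype.ext_iff, Subtype.ext_iff]
        show ((fC x : cent2 (f t) (f u)) : E') * (fC x : cent2 (f t) (f u)) = 1 ↔
          (x : E) * (x : E) = 1
        rw [hfC]
        exact hsq x)
      (by
        intro x hx
        rw [mem_center_cent2_iff hc' h2' (f t) (f u) htu', hfC] at hx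
        rw [mem_center_cent2_iff hc h2 t u htu]
        exact hker _ hx)
    have hβ' : ∀ x : cent2 t u, (f (x : E))⁻¹ * ((β x : cent2 (f t) (f u)) : E') ∈ center E' := by
      intro x
      have h3 := (mem_center_cent2_iff hc' h2' (f t) (f u) htu' _).mp (hβ x)
      have h4 : (((fC x)⁻¹ * β x : cent2 (f t) (f u)) : E') =
          (f (x : E))⁻¹ * ((β x : cent2 (f t) (f u)) : E') := by
        show ((fC x : cent2 (f t) (f u)) : E')⁻¹ * ((β x : cent2 (f t) (f u)) : E') = _
        rw [hfC]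
      rw [← h4]
      exact h3
    -- the central element in `C`
    obtain ⟨zc, hzc⟩ : ∃ zc : cent2 t u, (zc : E) = z := ⟨⟨z, center_le_cent2 t u hz⟩, rfl⟩
    have hzcc : zc ∈ center (cent2 t u) := by
      rw [mem_center_cent2_iff hc h2 t u htu, hzc]
      exact hz
    have hβz : ((β zc : cent2 (f t) (f u)) : E') = z' := by
      have hβc : β zc ∈ center (cent2 (f t) (f u)) := by
        rw [Subgroup.mem_center_iff]
        intro g
        have h := Subgroup.mem_center_iff.mp hzcc (β.symm g)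
        have := congrArg β h
        rwa [map_mul, map_mul, MulEquiv.apply_symm_apply] at this
      have := (mem_center_cent2_iff hc' h2' (f t) (f u) htu' _).mp hβc
      rcases hzall' _ this with h | h
      · exfalso
        have h1 : β zc = 1 := Subtype.ext h
        have h3 : zc = 1 := by
          rw [← β.symm_apply_apply zc, h1, map_one]
        apply hz1
        rw [← hzc, h3]
        rfl
      · exact h
    have hsq1 : ∀ x : E, x * x ≠ 1 → x * x = z := by
      intro x hx
      rcases es2_sq_or hc h2 hzall x with h | h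
      · exact absurd h hx
      · exact h
    have hsq1' : ∀ x : E', x * x ≠ 1 → x * x = z' := by
      intro x hx
      rcases es2_sq_or hc' h2' hzall' x with h | h
      · exact absurd h hx
      · exact h
    have hsqC : ∀ x : E, ∃ c : cent2 t u, x * x = c ∧ f x * f x = β c := by
      intro x
      by_cases hx : x * x = 1
      · exact ⟨1, by rw [hx]; rfl, by rw [(hsq x).mpr hx, map_one]; rfl⟩
      · refine ⟨zc, by rw [hzc]; exact hsq1 x hx, ?_⟩
        rw [hβz]
        exact hsq1' _ (fun h => hx ((hsq x).mp h))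
    have hut : u * t = t * u * z := by
      rcases es2_comm_or hc hz hzall u t with h | h
      · exact absurd h.symm htu
      · exact h
    have hut' : f u * f t = f t * f u * z' := by
      rcases es2_comm_or hc' hz' hzall' (f u) (f t) with h | h
      · exact absurd h.symm htu'
      · exact h
    have hcard'' : Nat.card E' = Nat.card E := by rw [hcard, hcard']
    have htC : ∀ c ∈ cent2 t u, t * c = c * t := fun c hcm => ((mem_cent2_iff.mp hcm).1).symm
    have huC : ∀ c ∈ cent2 t u, u * c = c * u := fun c hcm => ((mem_cent2_iff.mp hcm).2).symm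
    obtain ⟨φ, hφC, hφt, hφu⟩ := exists_mulEquiv_of_ext (cent2 t u) (cent2 (f t) (f u)) β t u
      (f t) (f u) htC huC
      (fun c hcm => ((mem_cent2_iff.mp hcm).1).symm) (fun c hcm => ((mem_cent2_iff.mp hcm).2).symm)
      (hsqC t) (hsqC u) ⟨zc, by rw [hzc]; exact hut, by rw [hβz]; exact hut'⟩
      (closure_cent2_eq_top hc h2 t u htu) (closure_cent2_eq_top hc' h2' (f t) (f u) htu')
      (card_eq_four_mul_card_cent2 hc h2 t u htu) hcard''
    refine ⟨φ, ?_⟩
    -- congruences modulo the centre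
    obtain ⟨π, hπ⟩ : ∃ π : E' →* E' ⧸ center E', ∀ a b : E', π a = π b ↔ a⁻¹ * b ∈ center E' :=
      ⟨QuotientGroup.mk' (center E'), fun a b => QuotientGroup.eq⟩
    have hπmul : ∀ x y, π (f (x * y)) = π (f x) * π (f y) := by
      intro x y
      rw [← map_mul, hπ]
      exact hmul x y
    have hπC : ∀ γ ∈ cent2 t u, π (f γ) = π (φ γ) := by
      intro γ hγ
      rw [hπ, hφC ⟨γ, hγ⟩]
      exact hβ' ⟨γ, hγ⟩
    intro x
    rw [← hπ]
    have hx : x ∈ closure ({t, u} ∪ (cent2 t u : Set E)) := by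
      rw [closure_cent2_eq_top hc h2 t u htu]
      exact Subgroup.mem_top x
    obtain ⟨c₁, h1, -⟩ := hsqC t
    obtain ⟨c₂, h2c, -⟩ := hsqC u
    obtain ⟨γ, hγ, h | h | h | h⟩ := mem_cosets_of_mem_closure (cent2 t u) t u htC huC
      (by rw [h1]; exact c₁.2) (by rw [h2c]; exact c₂.2) ⟨z, center_le_cent2 t u hz, hut⟩ hx
    · rw [h]
      exact hπC γ hγ
    · rw [h, hπmul, map_mul, map_mul, hπC γ hγ, hφt]
    · rw [h, hπmul, map_mul, map_mul, hπC γ hγ, hφu]
    · rw [h, hπmul, hπmul, map_mul, map_mul, map_mul, map_mul, hπC γ hγ, hφt, hφu]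

end Lift

section Inner

variable {E : Type*} [Group E]

/-- An automorphism of an extraspecial 2-group acting trivially modulo the centre is inner. -/
theorem es2_inner [Finite E] (hc : ∀ x y : E, x * y * x⁻¹ * y⁻¹ ∈ center E)
    (h2 : Nat.card (center E) = 2) (α : MulAut E) (hα : ∀ x, x⁻¹ * α x ∈ center E) :
    ∃ g : E, ∀ x, α x = g * x * g⁻¹ := by
  obtain ⟨lam, hlam⟩ : ∃ lam : E →* center E, ∀ x, ((lam x : center E) : E) = x⁻¹ * α x := by
    refine ⟨MonoidHom.mk' (fun x => ⟨x⁻¹ * α x, hα x⟩) ?_, fun x => rfl⟩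
    intro x y
    apply Subtype.ext
    show (x * y)⁻¹ * α (x * y) = x⁻¹ * α x * (y⁻¹ * α y)
    have h1 := Subgroup.mem_center_iff.mp (hα x) y⁻¹
    rw [map_mul, mul_inv_rev]
    calc y⁻¹ * x⁻¹ * (α x * α y) = y⁻¹ * (x⁻¹ * α x) * α y := by simp only [mul_assoc]
      _ = (x⁻¹ * α x) * y⁻¹ * α y := by rw [h1]
      _ = x⁻¹ * α x * (y⁻¹ * α y) := by simp only [mul_assoc]
  by_cases htriv : ∀ x, lam x = 1
  · refine ⟨1, fun x => ?_⟩
    have h1 := congrArg Subtype.val (htriv x)
    rw [hlam] at h1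
    rw [one_mul, inv_one, mul_one]
    exact (inv_mul_eq_one.mp h1).symm
  push Not at htriv
  obtain ⟨x₀, hx₀⟩ := htriv
  obtain ⟨M, hM⟩ : ∃ M : Subgroup E, M = lam.ker := ⟨_, rfl⟩
  have hsurj : Function.Surjective lam := by
    intro c
    by_cases hc1 : c = 1
    · exact ⟨1, by rw [map_one, hc1]⟩
    · exact ⟨x₀, ((center_cases h2 hx₀ c).resolve_left hc1).symm⟩
  have hidx : M.index = 2 := by
    rw [hM, Subgroup.index_ker, MonoidHom.range_eq_top.mpr hsurj, Subgroup.card_top, h2]
  obtain ⟨z, hz, hz1, hzz, hzall⟩ := es2_exists_z h2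
  have hαc : ∀ c ∈ center E, α c = c := by
    intro c hcz
    have h1 : α c ∈ center E := by
      rw [Subgroup.mem_center_iff]
      intro w
      have h3 := Subgroup.mem_center_iff.mp hcz (α⁻¹ w)
      have h4 := congrArg α h3
      rw [map_mul, map_mul] at h4
      have h5 : α (α⁻¹ w) = w := by
        rw [← MulAut.mul_apply, mul_inv_cancel]
        rfl
      rw [h5] at h4
      exact h4
    rcases hzall c hcz with h | h
    · rw [h, map_one]
    · rcases hzall _ h1 with h3 | h3
      · exfalso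
        apply hz1
        have h4 : α c = α 1 := by rw [h3, map_one]
        rw [← h]
        exact α.injective h4
      · rw [h3, h]
  have hZM : center E ≤ M := by
    intro c hcz
    rw [hM, MonoidHom.mem_ker]
    apply Subtype.ext
    rw [hlam, hαc c hcz, inv_mul_cancel]
    rfl
  have hcardM := Subgroup.card_mul_index M
  rw [hidx] at hcardM
  have hcnt := card_centralizer_mul_card hc h2 M
  have hcz2 : Nat.card {b : M // (b : E) ∈ center E} = 2 := by
    rw [← h2]
    exact Nat.card_congr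
      { toFun := fun b => ⟨(b.1 : E), b.2⟩
        invFun := fun c => ⟨⟨(c : E), hZM c.2⟩, c.2⟩
        left_inv := fun b => rfl
        right_inv := fun c => rfl }
  rw [hcz2, ← hcardM] at hcnt
  have hMpos : 0 < Nat.card M := Nat.card_pos
  have hcard4 : Nat.card (centralizer (M : Set E)) = 4 := by
    have h3 : Nat.card (centralizer (M : Set E)) * Nat.card M = 4 * Nat.card M := by
      rw [hcnt]; ring
    exact Nat.eq_of_mul_eq_mul_right hMpos h3
  obtain ⟨g, hgM, hgZ⟩ := exists_noncentral_of_card h2 (centralizer (M : Set E)) (by omega)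
  have hgM' : ∀ w ∈ M, w * g = g * w := Subgroup.mem_centralizer_iff.mp hgM
  have hμ : ∀ x, commHom hc g x = lam x := by
    intro x
    by_cases hxM : x ∈ M
    · have h1 : lam x = 1 := by
        rw [hM, MonoidHom.mem_ker] at hxM
        exact hxM
      rw [h1, commHom_eq_one_iff]
      exact hgM' x hxM
    · have h1 : lam x ≠ 1 := by
        intro h
        apply hxM
        rw [hM, MonoidHom.mem_ker]
        exact h
      have h3 : commHom hc g x ≠ 1 := by
        intro h
        rw [commHom_eq_one_iff] at h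
        apply hgZ
        rw [Subgroup.mem_center_iff]
        intro w
        by_cases hwM : w ∈ M
        · exact hgM' w hwM
        · have h4 := Subgroup.mul_mem_iff_of_index_two hidx (a := x⁻¹) (b := w)
          have h5 : x⁻¹ * w ∈ M :=
            h4.mpr ⟨fun h' => absurd (M.inv_mem_iff.mp h') hxM, fun h' => absurd h' hwM⟩
          have h6 := hgM' _ h5
          calc w * g = x * (x⁻¹ * w * g) := by group
            _ = x * (g * (x⁻¹ * w)) := by rw [h6]
            _ = (x * g) * (x⁻¹ * w) := by simp only [mul_assoc]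
            _ = (g * x) * (x⁻¹ * w) := by rw [h]
            _ = g * w := by group
      exact ((center_cases h2 h1 (commHom hc g x)).resolve_left h3)
  refine ⟨g, fun x => ?_⟩
  have h1 : x * g * x⁻¹ * g⁻¹ = x⁻¹ * α x := by
    have := congrArg Subtype.val (hμ x)
    rw [hlam, commHom_apply_coe] at this
    exact this
  have h3 : x * g * x⁻¹ * g⁻¹ * (x * g * x⁻¹ * g⁻¹) = 1 :=
    congrArg Subtype.val (center_mul_self h2 ⟨_, hc x g⟩)
  have h4 : x * g * x⁻¹ * g⁻¹ = g * x * g⁻¹ * x⁻¹ := by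
    have h5 := eq_inv_of_mul_eq_one_left h3
    rw [h5]
    group
  have hcen := Subgroup.mem_center_iff.mp (hc g x) x
  calc α x = x * (x⁻¹ * α x) := by group
    _ = x * (g * x * g⁻¹ * x⁻¹) := by rw [← h1, h4]
    _ = (g * x * g⁻¹ * x⁻¹) * x := hcen
    _ = g * x * g⁻¹ := by group

end Inner

end Cfsg.Agent.Helper48
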