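import Mathlib
import Cfsg.Prelude.Def_Classical
import Cfsg.Agent.Helper48.ES2OutA

/-!
# Coordinates on extraspecial 2-groups (helper48)

* `sgn2`, `sq2` : the commutator and squaring maps with values in `ZMod 2`.
* `ES2Coord E Q` : a surjective "homomorphism" `c : E → 𝔽₂^ι` with kernel the centre such that
  `Q (c x) = 0 ↔ x² = 1`.
* `es2Coord_of_frame` : coordinates from a frame.
* `es2Coord_plus`, `es2Coord_minus` : coordinates for the two types.
-/

set_option autoImplicit false

namespace Cfsg.Agent.Helper48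

open Subgroup

universe u

section Sgn

variable {E : Type*} [Group E]

open Classical in
/-- The commutation indicator with values in `ZMod 2`. -/
noncomputable def sgn2 (x y : E) : ZMod 2 := if x * y = y * x then 0 else 1

open Classical in
/-- The squaring indicator with values in `ZMod 2`. -/
noncomputable def sq2 (x : E) : ZMod 2 := if x * x = 1 then 0 else 1

theorem sgn2_eq_zero_iff (x y : E) : sgn2 x y = 0 ↔ x * y = y * x := by
  unfold sgn2
  split_ifs with h
  · exact iff_of_true rfl h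
  · exact iff_of_false (by decide) h

theorem sgn2_eq_one_iff (x y : E) : sgn2 x y = 1 ↔ x * y ≠ y * x := by
  unfold sgn2
  split_ifs with h
  · exact iff_of_false (by decide) (not_not.mpr h)
  · exact iff_of_true rfl h

theorem sq2_eq_zero_iff (x : E) : sq2 x = 0 ↔ x * x = 1 := by
  unfold sq2
  split_ifs with h
  · exact iff_of_true rfl h
  · exact iff_of_false (by decide) h

theorem zmod2_zero_or_one (a : ZMod 2) : a = 0 ∨ a = 1 := by
  revert a
  decide

theorem zmod2_eq_of_iff (a b : ZMod 2) (h : a = 0 ↔ b = 0) : a = b := by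
  revert a b
  decide

theorem zmod2_eq_add_of_iff (a b c : ZMod 2) (h : a = 0 ↔ (b = 0 ↔ c = 0)) : a = b + c := by
  revert a b c
  decide

theorem zmod2_eq_add3_of_iff (a b c d : ZMod 2) (h : d = 0 ↔ (a = 0 ↔ (b = 0 ↔ c = 0))) :
    a = b + c + d := by
  revert a b c d
  decide

theorem sgn2_symm (x y : E) : sgn2 x y = sgn2 y x := by
  apply zmod2_eq_of_iff
  rw [sgn2_eq_zero_iff, sgn2_eq_zero_iff]
  exact eq_comm

theorem sgn2_mul (hc : ∀ x y : E, x * y * x⁻¹ * y⁻¹ ∈ center E) (h2 : Nat.card (center E) = 2)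
    (x y w : E) : sgn2 (x * y) w = sgn2 x w + sgn2 y w := by
  apply zmod2_eq_add_of_iff
  rw [sgn2_eq_zero_iff, sgn2_eq_zero_iff, sgn2_eq_zero_iff, ← commHom_eq_one_iff hc w,
    ← commHom_eq_one_iff hc w, ← commHom_eq_one_iff hc w, map_mul]
  obtain ⟨a, ha⟩ : ∃ a, a = commHom hc w x := ⟨_, rfl⟩
  obtain ⟨b, hb⟩ : ∃ b, b = commHom hc w y := ⟨_, rfl⟩
  rw [← ha, ← hb]
  constructor
  · intro h
    constructor
    · intro h1
      rwa [h1, one_mul] at h
    · intro h1
      rwa [h1, mul_one] at h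
  · intro h
    by_cases h1 : a = 1
    · rw [h1, h.mp h1, one_mul]
    · have h3 : b ≠ 1 := fun hb1 => h1 (h.mpr hb1)
      rcases center_cases h2 h1 b with h4 | h4
      · exact absurd h4 h3
      · rw [h4]
        exact center_mul_self h2 a

theorem sgn2_of_mem_center {x : E} (hx : x ∈ center E) (y : E) : sgn2 x y = 0 := by
  rw [sgn2_eq_zero_iff]
  exact (Subgroup.mem_center_iff.mp hx y).symm

theorem sq2_mul (hc : ∀ x y : E, x * y * x⁻¹ * y⁻¹ ∈ center E) (h2 : Nat.card (center E) = 2)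
    (x y : E) : sq2 (x * y) = sq2 x + sq2 y + sgn2 x y := by
  apply zmod2_eq_add3_of_iff
  rw [sgn2_eq_zero_iff, sq2_eq_zero_iff, sq2_eq_zero_iff, sq2_eq_zero_iff]
  exact es2_comm_iff_sq hc h2 x y

end Sgn

section Coord

/-- Coordinates on an extraspecial 2-group relative to a quadratic form over `𝔽₂`. -/
def ES2Coord (E : Type*) [Group E] {ι : Type*} (Q : (ι → ZMod 2) → ZMod 2) : Prop :=
  ∃ c : E → (ι → ZMod 2), (∀ x y, c (x * y) = c x + c y) ∧ Function.Surjective c ∧
    (∀ x, c x = 0 ↔ x ∈ center E) ∧ (∀ x, Q (c x) = 0 ↔ x * x = 1)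

/-- A frame gives coordinates. -/
theorem es2Coord_of_frame {E : Type*} [Group E] [Finite E]
    (hc : ∀ x y : E, x * y * x⁻¹ * y⁻¹ ∈ center E) (h2 : Nat.card (center E) = 2)
    {ι : Type*} [Fintype ι] [DecidableEq ι] (n : ℕ) (hcard : Nat.card E = 2 ^ (2 * n + 1))
    (hι : Fintype.card ι = 2 * n) (g : ι → E) (σ : ι → ι) (hσ : ∀ k, σ (σ k) = k)
    (hg : ∀ k l, g k * g l = g l * g k ↔ l ≠ σ k)
    (Q : (ι → ZMod 2) → ZMod 2) (hQ0 : Q 0 = 0)
    (hQadd : ∀ v w, Q (v + w) = Q v + Q w + ∑ k, v k * w (σ k))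
    (hQg : ∀ k, Q (Pi.single k 1) = 0 ↔ g k * g k = 1) : ES2Coord E Q := by
  obtain ⟨c, hcdef⟩ : ∃ c : E → (ι → ZMod 2), ∀ x k, c x k = sgn2 x (g (σ k)) :=
    ⟨fun x k => sgn2 x (g (σ k)), fun _ _ => rfl⟩
  have hmul : ∀ x y, c (x * y) = c x + c y := by
    intro x y
    funext k
    rw [Pi.add_apply, hcdef, hcdef, hcdef, sgn2_mul hc h2]
  have hcen : ∀ x ∈ center E, c x = 0 := by
    intro x hx
    funext k
    rw [hcdef, Pi.zero_apply]
    exact sgn2_of_mem_center hx _
  have hone : c 1 = 0 := hcen 1 (Subgroup.one_mem _)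
  have hσinj : ∀ k l, σ k = σ l → k = l := by
    intro k l h
    rw [← hσ k, ← hσ l, h]
  have hsingle : ∀ l, c (g l) = Pi.single l 1 := by
    intro l
    funext k
    rw [hcdef]
    by_cases hkl : k = l
    · subst hkl
      rw [Pi.single_eq_same, sgn2_eq_one_iff]
      intro h
      exact (hg k (σ k)).mp h rfl
    · rw [Pi.single_eq_of_ne hkl, sgn2_eq_zero_iff]
      exact (hg l (σ k)).mpr (fun h => hkl (hσinj k l h))
  have hgen : ∀ H : Submonoid E, (∀ l, g l ∈ H) → ∀ v : ι → ZMod 2, ∃ h ∈ H, c h = v := by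
    intro H hH v
    rw [← Finset.univ_sum_single v]
    refine Finset.sum_induction _ (fun w => ∃ h ∈ H, c h = w) ?_ ?_ ?_
    · rintro a b ⟨h₁, hh₁, rfl⟩ ⟨h₂, hh₂, rfl⟩
      exact ⟨h₁ * h₂, H.mul_mem hh₁ hh₂, hmul _ _⟩
    · exact ⟨1, H.one_mem, hone⟩
    · intro l _
      rcases zmod2_zero_or_one (v l) with h | h
      · rw [h, Pi.single_zero]
        exact ⟨1, H.one_mem, hone⟩
      · rw [h]
        exact ⟨g l, hH l, hsingle l⟩
  have hsurj : Function.Surjective c := by
    intro v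
    obtain ⟨h, -, hh⟩ := hgen ⊤ (fun _ => Submonoid.mem_top _) v
    exact ⟨h, hh⟩
  -- the kernel, by counting
  have hker : ∀ x, c x = 0 ↔ x ∈ center E := by
    obtain ⟨φ, hφ⟩ : ∃ φ : E →* Multiplicative (ι → ZMod 2), ∀ x, φ x = Multiplicative.ofAdd (c x) :=
      ⟨{ toFun := fun x => Multiplicative.ofAdd (c x)
         map_one' := by rw [hone]; rfl
         map_mul' := fun x y => by rw [hmul]; rfl }, fun _ => rfl⟩
    have hφker : ∀ x, x ∈ φ.ker ↔ c x = 0 := by
      intro x
      rw [MonoidHom.mem_ker, hφ]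
      exact Iff.rfl
    have hφsurj : Function.Surjective φ := by
      intro v
      obtain ⟨x, hx⟩ := hsurj (Multiplicative.toAdd v)
      exact ⟨x, by rw [hφ, hx]; rfl⟩
    have hcardV : Nat.card (Multiplicative (ι → ZMod 2)) = 2 ^ (2 * n) := by
      rw [Nat.card_congr (Multiplicative.toAdd : Multiplicative (ι → ZMod 2) ≃ (ι → ZMod 2)),
        Nat.card_fun, Nat.card_zmod, Nat.card_eq_fintype_card, hι]
    have h3 : Nat.card φ.ker * 2 ^ (2 * n) = 2 * 2 ^ (2 * n) := by
      have h4 := Subgroup.card_mul_index φ.ker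
      rw [Subgroup.index_ker, MonoidHom.range_eq_top.mpr hφsurj, Subgroup.card_top, hcardV,
        hcard] at h4
      rw [h4]
      ring
    have h5 : Nat.card φ.ker = 2 := Nat.eq_of_mul_eq_mul_right (by positivity) h3
    have hle : center E ≤ φ.ker := fun x hx => (hφker x).mpr (hcen x hx)
    have heq : center E = φ.ker := Subgroup.eq_of_le_of_card_ge hle (by rw [h5, h2])
    intro x
    rw [← hφker, heq]
  have hfull : ∀ H : Submonoid E, (∀ l, g l ∈ H) → (∀ x ∈ center E, x ∈ H) → ∀ x, x ∈ H := by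
    intro H hH hZ x
    obtain ⟨h, hh, hhx⟩ := hgen H hH (c x)
    have h1 : c h⁻¹ + c h = 0 := by rw [← hmul, inv_mul_cancel, hone]
    have h3 : c (h⁻¹ * x) = 0 := by rw [hmul, ← hhx, h1]
    have h4 := hZ _ ((hker _).mp h3)
    have h5 : x = h * (h⁻¹ * x) := by group
    rw [h5]
    exact H.mul_mem hh h4
  have hpolar : ∀ x y, sgn2 x y = ∑ k, c x k * c y (σ k) := by
    intro x y
    obtain ⟨H, hH⟩ : ∃ H : Submonoid E, ∀ a, a ∈ H ↔ sgn2 a y = ∑ k, c a k * c y (σ k) := by
      refine ⟨{ carrier := {a | sgn2 a y = ∑ k, c a k * c y (σ k)}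
                mul_mem' := ?_
                one_mem' := ?_ }, fun _ => Iff.rfl⟩
      · intro a b ha hb
        show sgn2 (a * b) y = ∑ k, c (a * b) k * c y (σ k)
        rw [sgn2_mul hc h2, hmul, show sgn2 a y = ∑ k, c a k * c y (σ k) from ha,
          show sgn2 b y = ∑ k, c b k * c y (σ k) from hb, ← Finset.sum_add_distrib]
        refine Finset.sum_congr rfl fun k _ => ?_
        rw [Pi.add_apply, add_mul]
      · show sgn2 1 y = ∑ k, c 1 k * c y (σ k)
        rw [hone, sgn2_of_mem_center (Subgroup.one_mem _)]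
        simp
    refine (hH x).mp (hfull H ?_ ?_ x)
    · intro l
      rw [hH, hsingle]
      simp only [Pi.single_apply, ite_mul, one_mul, zero_mul, Finset.sum_ite_eq', Finset.mem_univ,
        if_true]
      rw [hcdef, hσ, sgn2_symm]
    · intro a ha
      rw [hH, hcen a ha, sgn2_of_mem_center ha]
      simp
  have hsq : ∀ x, Q (c x) = sq2 x := by
    obtain ⟨H, hH⟩ : ∃ H : Submonoid E, ∀ a, a ∈ H ↔ Q (c a) = sq2 a := by
      refine ⟨{ carrier := {a | Q (c a) = sq2 a}
                mul_mem' := ?_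
                one_mem' := ?_ }, fun _ => Iff.rfl⟩
      · intro a b ha hb
        show Q (c (a * b)) = sq2 (a * b)
        rw [hmul, hQadd, show Q (c a) = sq2 a from ha, show Q (c b) = sq2 b from hb, ← hpolar,
          sq2_mul hc h2]
      · show Q (c 1) = sq2 1
        rw [hone, hQ0]
        symm
        rw [sq2_eq_zero_iff, one_mul]
    intro x
    refine (hH x).mp (hfull H ?_ ?_ x)
    · intro l
      rw [hH, hsingle]
      apply zmod2_eq_of_iff
      rw [sq2_eq_zero_iff]
      exact hQg l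
    · intro a ha
      rw [hH, hcen a ha, hQ0]
      symm
      rw [sq2_eq_zero_iff]
      exact congrArg Subtype.val (center_mul_self h2 ⟨a, ha⟩)
  exact ⟨c, hmul, hsurj, hker, fun x => by rw [hsq, sq2_eq_zero_iff]⟩

end Coord

section Frames

/-- Adjoining a hyperbolic pair to a frame of its centralizer. -/
theorem frame_cons {E : Type*} [Group E] {n : ℕ} (t u : E) (ht : t * t = 1) (hu : u * u = 1)
    (htu : t * u ≠ u * t) (T' U' : Fin n → cent2 t u) (hT' : ∀ i, T' i * T' i = 1)
    (hU' : ∀ i, U' i * U' i = 1) (hTT' : ∀ i j, T' i * T' j = T' j * T' i)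
    (hUU' : ∀ i j, U' i * U' j = U' j * U' i) (hTU' : ∀ i j, T' i * U' j = U' j * T' i ↔ i ≠ j) :
    ∃ T U : Fin (n + 1) → E, T = Fin.cons t (fun i => (T' i : E)) ∧
      U = Fin.cons u (fun i => (U' i : E)) ∧ (∀ i, T i * T i = 1) ∧ (∀ i, U i * U i = 1) ∧
      (∀ i j, T i * T j = T j * T i) ∧ (∀ i j, U i * U j = U j * U i) ∧
      (∀ i j, T i * U j = U j * T i ↔ i ≠ j) := by
  have hTt : ∀ i, (T' i : E) * t = t * T' i := fun i => (mem_cent2_iff.mp (T' i).2).1
  have hTu : ∀ i, (T' i : E) * u = u * T' i := fun i => (mem_cent2_iff.mp (T' i).2).2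
  have hUt : ∀ i, (U' i : E) * t = t * U' i := fun i => (mem_cent2_iff.mp (U' i).2).1
  have hUu : ∀ i, (U' i : E) * u = u * U' i := fun i => (mem_cent2_iff.mp (U' i).2).2
  refine ⟨Fin.cons t (fun i => (T' i : E)), Fin.cons u (fun i => (U' i : E)), rfl, rfl,
    ?_, ?_, ?_, ?_, ?_⟩
  · intro i
    refine Fin.cases ?_ (fun i => ?_) i
    · rw [Fin.cons_zero]; exact ht
    · rw [Fin.cons_succ]; exact congrArg Subtype.val (hT' i)
  · intro i
    refine Fin.cases ?_ (fun i => ?_) i
    · rw [Fin.cons_zero]; exact hu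
    · rw [Fin.cons_succ]; exact congrArg Subtype.val (hU' i)
  · intro i j
    refine Fin.cases ?_ (fun i => ?_) i <;> refine Fin.cases ?_ (fun j => ?_) j
    · rfl
    · rw [Fin.cons_zero, Fin.cons_succ]; exact (hTt j).symm
    · rw [Fin.cons_zero, Fin.cons_succ]; exact hTt i
    · rw [Fin.cons_succ, Fin.cons_succ]; exact congrArg Subtype.val (hTT' i j)
  · intro i j
    refine Fin.cases ?_ (fun i => ?_) i <;> refine Fin.cases ?_ (fun j => ?_) j
    · rfl
    · rw [Fin.cons_zero, Fin.cons_succ]; exact (hUu j).symm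
    · rw [Fin.cons_zero, Fin.cons_succ]; exact hUu i
    · rw [Fin.cons_succ, Fin.cons_succ]; exact congrArg Subtype.val (hUU' i j)
  · intro i j
    refine Fin.cases ?_ (fun i => ?_) i <;> refine Fin.cases ?_ (fun j => ?_) j
    · rw [Fin.cons_zero, Fin.cons_zero]
      exact iff_of_false htu (fun h => h rfl)
    · rw [Fin.cons_zero, Fin.cons_succ]
      exact iff_of_true (hUt j).symm (Fin.succ_ne_zero j).symm
    · rw [Fin.cons_zero, Fin.cons_succ]
      exact iff_of_true (hTu i) (Fin.succ_ne_zero i)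
    · rw [Fin.cons_succ, Fin.cons_succ]
      constructor
      · intro h hij
        exact (hTU' i j).mp (Subtype.ext h) (Fin.succ_inj.mp hij)
      · intro h
        exact congrArg Subtype.val ((hTU' i j).mpr (fun hij => h (congrArg Fin.succ hij)))

/-- A hyperbolic frame in an extraspecial 2-group of plus type. -/
theorem exists_plus_frame (n : ℕ) : ∀ (E : Type u) [Group E] [Finite E],
    (∀ x y : E, x * y * x⁻¹ * y⁻¹ ∈ center E) → Nat.card (center E) = 2 →
    Nat.card E = 2 ^ (2 * n + 1) → ES2Plus E n →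
    ∃ T U : Fin n → E, (∀ i, T i * T i = 1) ∧ (∀ i, U i * U i = 1) ∧
      (∀ i j, T i * T j = T j * T i) ∧ (∀ i j, U i * U j = U j * U i) ∧
      (∀ i j, T i * U j = U j * T i ↔ i ≠ j) := by
  induction n with
  | zero =>
    intro E _ _ _ _ _ _
    exact ⟨Fin.elim0, Fin.elim0, fun i => i.elim0, fun i => i.elim0, fun i => i.elim0,
      fun i => i.elim0, fun i => i.elim0⟩
  | succ n ih =>
    intro E _ _ hc h2 hcard hP
    obtain ⟨t, u, ht, hu, htu, hP'⟩ := exists_plus_pair hc h2 n hcard hP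
    obtain ⟨T', U', hT', hU', hTT', hUU', hTU'⟩ := ih (cent2 t u) (cent2_comm_mem_center hc t u)
      (card_center_cent2 hc h2 t u htu) (card_cent2 hc h2 t u htu n hcard) hP'
    obtain ⟨T, U, -, -, h⟩ := frame_cons t u ht hu htu T' U' hT' hU' hTT' hUU' hTU'
    exact ⟨T, U, h⟩

/-- A frame in an extraspecial 2-group of minus type: hyperbolic pairs and a quaternion pair. -/
theorem exists_minus_frame (m : ℕ) : ∀ (E : Type u) [Group E] [Finite E],
    (∀ x y : E, x * y * x⁻¹ * y⁻¹ ∈ center E) → Nat.card (center E) = 2 →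
    Nat.card E = 2 ^ (2 * (m + 1) + 1) → ¬ ES2Plus E (m + 1) →
    ∃ T U : Fin m → E, ∃ a b : E, (∀ i, T i * T i = 1) ∧ (∀ i, U i * U i = 1) ∧
      (∀ i j, T i * T j = T j * T i) ∧ (∀ i j, U i * U j = U j * U i) ∧
      (∀ i j, T i * U j = U j * T i ↔ i ≠ j) ∧ a * a ≠ 1 ∧ b * b ≠ 1 ∧ a * b ≠ b * a ∧
      (∀ i, T i * a = a * T i) ∧ (∀ i, T i * b = b * T i) ∧ (∀ i, U i * a = a * U i) ∧
      (∀ i, U i * b = b * U i) := by
  induction m with
  | zero =>
    intro E _ _ hc h2 hcard hP
    obtain ⟨z, hz, hz1, hzz, hzall⟩ := es2_exists_z h2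
    obtain ⟨a, b, ha, hb, hab⟩ := exists_quaternion_pair hc h2 hcard hP hzall
    exact ⟨Fin.elim0, Fin.elim0, a, b, fun i => i.elim0, fun i => i.elim0, fun i => i.elim0,
      fun i => i.elim0, fun i => i.elim0, by rw [ha]; exact hz1, by rw [hb]; exact hz1, hab,
      fun i => i.elim0, fun i => i.elim0, fun i => i.elim0, fun i => i.elim0⟩
  | succ m ih =>
    intro E _ _ hc h2 hcard hP
    obtain ⟨t, u, ht, hu, htu, hP'⟩ := exists_minus_pair hc h2 (m + 1) (by omega) hcard hP
    obtain ⟨T', U', a', b', hT', hU', hTT', hUU', hTU', ha', hb', hab', hTa', hTb', hUa', hUb'⟩ :=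
      ih (cent2 t u) (cent2_comm_mem_center hc t u) (card_center_cent2 hc h2 t u htu)
        (card_cent2 hc h2 t u htu (m + 1) hcard) hP'
    obtain ⟨T, U, hTdef, hUdef, hT, hU, hTT, hUU, hTU⟩ :=
      frame_cons t u ht hu htu T' U' hT' hU' hTT' hUU' hTU'
    have hat : (a' : E) * t = t * a' := (mem_cent2_iff.mp a'.2).1
    have hau : (a' : E) * u = u * a' := (mem_cent2_iff.mp a'.2).2
    have hbt : (b' : E) * t = t * b' := (mem_cent2_iff.mp b'.2).1
    have hbu : (b' : E) * u = u * b' := (mem_cent2_iff.mp b'.2).2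
    refine ⟨T, U, (a' : E), (b' : E), hT, hU, hTT, hUU, hTU, fun h => ha' (Subtype.ext h),
      fun h => hb' (Subtype.ext h), fun h => hab' (Subtype.ext h), ?_, ?_, ?_, ?_⟩
    · intro i
      rw [hTdef]
      refine Fin.cases ?_ (fun i => ?_) i
      · rw [Fin.cons_zero]; exact hat.symm
      · rw [Fin.cons_succ]; exact congrArg Subtype.val (hTa' i)
    · intro i
      rw [hTdef]
      refine Fin.cases ?_ (fun i => ?_) i
      · rw [Fin.cons_zero]; exact hbt.symm
      · rw [Fin.cons_succ]; exact congrArg Subtype.val (hTb' i)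
    · intro i
      rw [hUdef]
      refine Fin.cases ?_ (fun i => ?_) i
      · rw [Fin.cons_zero]; exact hau.symm
      · rw [Fin.cons_succ]; exact congrArg Subtype.val (hUa' i)
    · intro i
      rw [hUdef]
      refine Fin.cases ?_ (fun i => ?_) i
      · rw [Fin.cons_zero]; exact hbu.symm
      · rw [Fin.cons_succ]; exact congrArg Subtype.val (hUb' i)

end Frames

section Types

variable {E : Type u} [Group E] [Finite E]

/-- Coordinates in plus type. -/
theorem es2Coord_plus (hc : ∀ x y : E, x * y * x⁻¹ * y⁻¹ ∈ center E)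
    (h2 : Nat.card (center E) = 2) (n : ℕ) (hcard : Nat.card E = 2 ^ (2 * n + 1))
    (hP : ES2Plus E n) : ES2Coord E (Cfsg.quadFormPlus n (ZMod 2)) := by
  obtain ⟨T, U, hT, hU, hTT, hUU, hTU⟩ := exists_plus_frame n E hc h2 hcard hP
  refine es2Coord_of_frame hc h2 n hcard ?_ (Sum.elim T U) Sum.swap Sum.swap_swap ?_ _ ?_ ?_ ?_
  · rw [Fintype.card_sum, Fintype.card_fin]; ring
  · rintro (i | i) (j | j)
    · simp only [Sum.elim_inl, Sum.swap_inl]
      exact iff_of_true (hTT i j) (by simp)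
    · simp only [Sum.elim_inl, Sum.elim_inr, Sum.swap_inl]
      rw [hTU i j]
      simp [ne_comm]
    · simp only [Sum.elim_inl, Sum.elim_inr, Sum.swap_inr]
      rw [eq_comm, hTU j i]
      simp
    · simp only [Sum.elim_inr, Sum.swap_inr]
      exact iff_of_true (hUU i j) (by simp)
  · simp [Cfsg.quadFormPlus]
  · intro v w
    simp only [Cfsg.quadFormPlus, Fintype.sum_sum_type, Pi.add_apply, Sum.swap_inl, Sum.swap_inr]
    rw [← Finset.sum_add_distrib, ← Finset.sum_add_distrib, ← Finset.sum_add_distrib]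
    refine Finset.sum_congr rfl fun i _ => ?_
    ring
  · rintro (i | i)
    · simp [Cfsg.quadFormPlus, hT]
    · simp [Cfsg.quadFormPlus, hU]

/-- Coordinates in minus type. -/
theorem es2Coord_minus (hc : ∀ x y : E, x * y * x⁻¹ * y⁻¹ ∈ center E)
    (h2 : Nat.card (center E) = 2) (m : ℕ) (hcard : Nat.card E = 2 ^ (2 * (m + 1) + 1))
    (hP : ¬ ES2Plus E (m + 1)) : ES2Coord E (Cfsg.quadFormMinus m (ZMod 2) 1 1) := by
  obtain ⟨T, U, a, b, hT, hU, hTT, hUU, hTU, ha, hb, hab, hTa, hTb, hUa, hUb⟩ :=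
    exists_minus_frame m E hc h2 hcard hP
  have hab' : b * a ≠ a * b := fun h => hab h.symm
  refine es2Coord_of_frame hc h2 (m + 1) hcard ?_ (Sum.elim (Sum.elim T U) ![a, b])
    (Sum.map Sum.swap ![1, 0]) ?_ ?_ _ ?_ ?_ ?_
  · rw [Fintype.card_sum, Fintype.card_sum, Fintype.card_fin, Fintype.card_fin]; ring
  · rintro ((i | i) | i)
    · rfl
    · rfl
    · fin_cases i <;> rfl
  · rintro ((i | i) | i) ((j | j) | j)
    · simp only [Sum.elim_inl, Sum.map_inl, Sum.swap_inl]
      exact iff_of_true (hTT i j) (by simp)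
    · simp only [Sum.elim_inl, Sum.elim_inr, Sum.map_inl, Sum.swap_inl]
      rw [hTU i j]
      simp [ne_comm]
    · simp only [Sum.elim_inl, Sum.elim_inr, Sum.map_inl, Sum.swap_inl]
      refine iff_of_true ?_ (by simp)
      fin_cases j
      · exact hTa i
      · exact hTb i
    · simp only [Sum.elim_inl, Sum.elim_inr, Sum.map_inl, Sum.swap_inr]
      rw [eq_comm, hTU j i]
      simp
    · simp only [Sum.elim_inl, Sum.elim_inr, Sum.map_inl, Sum.swap_inr]
      exact iff_of_true (hUU i j) (by simp)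
    · simp only [Sum.elim_inl, Sum.elim_inr, Sum.map_inl, Sum.swap_inr]
      refine iff_of_true ?_ (by simp)
      fin_cases j
      · exact hUa i
      · exact hUb i
    · simp only [Sum.elim_inl, Sum.elim_inr, Sum.map_inr]
      refine iff_of_true ?_ (by simp)
      fin_cases i
      · exact (hTa j).symm
      · exact (hTb j).symm
    · simp only [Sum.elim_inl, Sum.elim_inr, Sum.map_inr]
      refine iff_of_true ?_ (by simp)
      fin_cases i
      · exact (hUa j).symm
      · exact (hUb j).symm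
    · simp only [Sum.elim_inr, Sum.map_inr]
      fin_cases i <;> fin_cases j
      · exact iff_of_true rfl (by simp)
      · exact iff_of_false hab (by simp)
      · exact iff_of_false hab' (by simp)
      · exact iff_of_true rfl (by simp)
  · simp [Cfsg.quadFormMinus]
  · intro v w
    have h20 : (2 : ZMod 2) = 0 := by decide
    have hsum : ∑ i : Fin m, (v (Sum.inl (Sum.inl i)) + w (Sum.inl (Sum.inl i))) *
        (v (Sum.inl (Sum.inr i)) + w (Sum.inl (Sum.inr i))) =
        (∑ i : Fin m, v (Sum.inl (Sum.inl i)) * v (Sum.inl (Sum.inr i))) +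
        (∑ i : Fin m, w (Sum.inl (Sum.inl i)) * w (Sum.inl (Sum.inr i))) +
        ((∑ i : Fin m, v (Sum.inl (Sum.inl i)) * w (Sum.inl (Sum.inr i))) +
        (∑ i : Fin m, v (Sum.inl (Sum.inr i)) * w (Sum.inl (Sum.inl i)))) := by
      rw [← Finset.sum_add_distrib, ← Finset.sum_add_distrib, ← Finset.sum_add_distrib]
      exact Finset.sum_congr rfl fun i _ => by ring
    simp only [Cfsg.quadFormMinus, Fintype.sum_sum_type, Fin.sum_univ_two, Pi.add_apply,
      Sum.map_inl, Sum.map_inr, Sum.swap_inl, Sum.swap_inr, Matrix.cons_val_zero,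
      Matrix.cons_val_one]
    rw [hsum]
    linear_combination (v (Sum.inr 0) * w (Sum.inr 0) + v (Sum.inr 1) * w (Sum.inr 1)) * h20
  · rintro ((i | i) | i)
    · simp [Cfsg.quadFormMinus, hT]
    · simp [Cfsg.quadFormMinus, hU]
    · fin_cases i
      · simp [Cfsg.quadFormMinus, ha]
      · simp [Cfsg.quadFormMinus, hb]

end Types

end Cfsg.Agent.Helper48
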