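import Mathlib
import Cfsg.Prelude.Def_Classical
import Cfsg.Prelude.Def_KGroupFacts
import Cfsg.Agent.Helper48.ES2OutB

/-!
# Outer automorphisms of extraspecial 2-groups (helper48)

`es2_out_of_coord` : if `E` is an extraspecial 2-group with coordinates relative to a quadratic
form `Q` over `𝔽₂`, then `Out E` is isomorphic to the isometry group of `Q`.
-/

set_option autoImplicit false

namespace Cfsg.Agent.Helper48

open Subgroup
open scoped Matrix

/-- The outer automorphism group of an extraspecial 2-group with coordinates relative to `Q` is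
the isometry group of `Q`. -/
theorem es2_out_of_coord {E : Type*} [Group E] [Finite E]
    (hc : ∀ x y : E, x * y * x⁻¹ * y⁻¹ ∈ center E) (h2 : Nat.card (center E) = 2)
    (m : ℕ) (hcard : Nat.card E = 2 ^ (2 * m + 1))
    {ι : Type} [Fintype ι] [DecidableEq ι] (Q : (ι → ZMod 2) → ZMod 2) (hcoord : ES2Coord E Q) :
    Nonempty (Cfsg.Out E ≃* Cfsg.isometryGroup (ZMod 2) Q) := by
  obtain ⟨c, hmul, hsurj, hker, hsq⟩ := hcoord
  have hone : c 1 = 0 := (hker 1).mpr (Subgroup.one_mem _)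
  have hinv : ∀ a, c a⁻¹ + c a = 0 := fun a => by rw [← hmul, inv_mul_cancel, hone]
  have hcinv : ∀ a b, c (a⁻¹ * b) = 0 ↔ c a = c b := by
    intro a b
    rw [hmul]
    constructor
    · intro h
      have h1 : c a⁻¹ + c b = c a⁻¹ + c a := by rw [h, hinv]
      exact (add_left_cancel h1).symm
    · intro h
      rw [← h, hinv]
  -- automorphisms preserve the centre
  have hαcen : ∀ (α : MulAut E) (x : E), x ∈ center E → α x ∈ center E := by
    intro α x hx
    rw [Subgroup.mem_center_iff]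
    intro w
    have h3 := Subgroup.mem_center_iff.mp hx (α⁻¹ w)
    have h4 := congrArg α h3
    rw [map_mul, map_mul] at h4
    have h5 : α (α⁻¹ w) = w := by
      rw [← MulAut.mul_apply, mul_inv_cancel]
      rfl
    rw [h5] at h4
    exact h4
  have hwd : ∀ (α : MulAut E) (x y : E), c x = c y → c (α x) = c (α y) := by
    intro α x y h
    rw [← hcinv] at h ⊢
    have h1 := hαcen α _ ((hker _).mp h)
    rw [map_mul, map_inv] at h1
    exact (hker _).mpr h1
  obtain ⟨s, hs⟩ : ∃ s : (ι → ZMod 2) → E, ∀ v, c (s v) = v :=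
    ⟨Function.surjInv hsurj, Function.surjInv_eq hsurj⟩
  -- the linear maps
  obtain ⟨L, hL⟩ : ∃ L : MulAut E → ((ι → ZMod 2) →+ (ι → ZMod 2)),
      ∀ α x, L α (c x) = c (α x) := by
    refine ⟨fun α => AddMonoidHom.mk' (fun v => c (α (s v))) ?_, ?_⟩
    · intro v w
      have h1 : c (s (v + w)) = c (s v * s w) := by rw [hmul, hs, hs, hs]
      rw [hwd α _ _ h1, map_mul, hmul]
    · intro α x
      show c (α (s (c x))) = c (α x)
      exact hwd α _ _ (hs (c x))
  obtain ⟨M, hM⟩ : ∃ M : MulAut E → Matrix ι ι (ZMod 2), ∀ α x, M α *ᵥ c x = c (α x) := by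
    refine ⟨fun α => LinearMap.toMatrix' ((L α).toZModLinearMap 2), fun α x => ?_⟩
    rw [← Matrix.toLin'_apply, Matrix.toLin'_toMatrix']
    exact hL α x
  have hMext : ∀ A B : Matrix ι ι (ZMod 2), (∀ x, A *ᵥ c x = B *ᵥ c x) → A = B := by
    intro A B h
    apply Matrix.mulVec_injective
    funext v
    obtain ⟨x, rfl⟩ := hsurj v
    exact h x
  obtain ⟨Φ₀, hΦ₀⟩ : ∃ Φ₀ : MulAut E →* Matrix ι ι (ZMod 2), ∀ α, Φ₀ α = M α := by
    refine ⟨{ toFun := M, map_one' := ?_, map_mul' := ?_ }, fun _ => rfl⟩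
    · apply hMext
      intro x
      rw [hM, Matrix.one_mulVec]
      rfl
    · intro α β
      apply hMext
      intro x
      rw [hM, ← Matrix.mulVec_mulVec, hM, hM]
      rfl
  obtain ⟨Φ₁, hΦ₁⟩ : ∃ Φ₁ : MulAut E →* Matrix.GeneralLinearGroup ι (ZMod 2),
      ∀ α, ((Φ₁ α : Matrix.GeneralLinearGroup ι (ZMod 2)) : Matrix ι ι (ZMod 2)) = M α :=
    ⟨Φ₀.toHomUnits, fun α => by rw [MonoidHom.coe_toHomUnits, hΦ₀]⟩
  have hmem : ∀ g : Matrix.GeneralLinearGroup ι (ZMod 2), g ∈ Cfsg.isometryGroup (ZMod 2) Q ↔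
      ∀ u, Q ((g : Matrix ι ι (ZMod 2)) *ᵥ u) = Q u :=
    fun g => ⟨fun h u => h u u, fun h u _ => h u⟩
  have hΦmem : ∀ α, Φ₁ α ∈ Cfsg.isometryGroup (ZMod 2) Q := by
    intro α
    rw [hmem]
    intro u
    obtain ⟨x, rfl⟩ := hsurj u
    rw [hΦ₁, hM]
    apply zmod2_eq_of_iff
    rw [hsq, hsq, ← map_mul]
    exact map_eq_one_iff α α.injective
  obtain ⟨Φ, hΦ⟩ : ∃ Φ : MulAut E →* Cfsg.isometryGroup (ZMod 2) Q,
      ∀ α, (((Φ α : Cfsg.isometryGroup (ZMod 2) Q) : Matrix.GeneralLinearGroup ι (ZMod 2)) :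
        Matrix ι ι (ZMod 2)) = M α :=
    ⟨Φ₁.codRestrict _ hΦmem, fun α => hΦ₁ α⟩
  have hΦone : ∀ α, Φ α = 1 ↔ M α = 1 := by
    intro α
    constructor
    · intro h
      rw [← hΦ, h]
      rfl
    · intro h
      apply Subtype.ext
      apply Units.ext
      rw [hΦ, h]
      rfl
  have hker_eq : Cfsg.Inn E = Φ.ker := by
    ext α
    rw [MonoidHom.mem_ker, hΦone]
    constructor
    · rintro ⟨g, rfl⟩
      apply hMext
      intro x
      rw [hM, Matrix.one_mulVec, MulAut.conj_apply, hmul, hmul, add_right_comm,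
        add_comm (c g) (c g⁻¹), hinv, zero_add]
    · intro h1
      have h3 : ∀ x, x⁻¹ * α x ∈ center E := by
        intro x
        rw [← hker, hcinv, ← hM, h1, Matrix.one_mulVec]
      obtain ⟨g, hg⟩ := es2_inner hc h2 α h3
      refine ⟨g, ?_⟩
      ext x
      rw [MulAut.conj_apply, hg]
  have hΦsurj : Function.Surjective Φ := by
    intro g
    obtain ⟨A, hA⟩ : ∃ A : Matrix ι ι (ZMod 2),
        A = ((g : Matrix.GeneralLinearGroup ι (ZMod 2)) : Matrix ι ι (ZMod 2)) := ⟨_, rfl⟩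
    obtain ⟨B, hB⟩ : ∃ B : Matrix ι ι (ZMod 2),
        B = (((g : Matrix.GeneralLinearGroup ι (ZMod 2))⁻¹ : Matrix.GeneralLinearGroup ι (ZMod 2)) :
          Matrix ι ι (ZMod 2)) := ⟨_, rfl⟩
    have hBA : B * A = 1 := by rw [hA, hB]; exact Units.inv_mul _
    have hgQ : ∀ u, Q (A *ᵥ u) = Q u := by rw [hA]; exact (hmem _).mp g.2
    obtain ⟨f, hf⟩ : ∃ f : E → E, ∀ x, c (f x) = A *ᵥ c x :=
      ⟨fun x => s (A *ᵥ c x), fun x => hs _⟩
    have hf1 : ∀ x y, (f (x * y))⁻¹ * (f x * f y) ∈ center E := by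
      intro x y
      rw [← hker, hcinv, hmul, hf, hf, hf, hmul, Matrix.mulVec_add]
    have hf2 : ∀ x, f x * f x = 1 ↔ x * x = 1 := by
      intro x
      rw [← hsq, ← hsq, hf, hgQ]
    have hf3 : ∀ x, f x ∈ center E → x ∈ center E := by
      intro x hx
      rw [← hker] at hx ⊢
      rw [hf] at hx
      have h1 := congrArg (fun v => B *ᵥ v) hx
      simp only [Matrix.mulVec_mulVec, hBA, Matrix.one_mulVec, Matrix.mulVec_zero] at h1
      exact h1
    obtain ⟨φ, hφ⟩ := es2_lift m E E hc h2 hc h2 hcard hcard f hf1 hf2 hf3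
    refine ⟨φ, ?_⟩
    apply Subtype.ext
    apply Units.ext
    rw [hΦ, ← hA]
    apply hMext
    intro x
    rw [hM, ← hf]
    exact ((hcinv _ _).mp ((hker _).mpr (hφ x))).symm
  exact ⟨(QuotientGroup.quotientMulEquivOfEq hker_eq).trans
    (QuotientGroup.quotientKerEquivOfSurjective Φ hΦsurj)⟩

end Cfsg.Agent.Helper48
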