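import Mathlib
import Cfsg.Agent.Lead.H581Defs
import Cfsg.Agent.Helper93.H581A6a

/-!
Helper48: PIECE A6c of CALL S4221 (lead), core: the double count of pairs
(involution, quadruple) of type B, with PIECE A3 (`nfix u = f0 α` for the involutions of `G`)
as a hypothesis.
-/

set_option autoImplicit false

namespace Cfsg.Agent.Helper48.H581A6cCore

open Cfsg.Agent.Lead.H581 Equiv

variable {α : Type*} [Fintype α] [DecidableEq α]

/-- ordered quadruples of distinct points correspond to embeddings of `Fin 4` -/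
def dist4Equiv : {q : α × α × α × α // Dist4 q.1 q.2.1 q.2.2.1 q.2.2.2} ≃ (Fin 4 ↪ α) where
  toFun q := ⟨![q.1.1, q.1.2.1, q.1.2.2.1, q.1.2.2.2], by
    obtain ⟨h1, h2, h3, h4, h5, h6⟩ := q.2
    intro i j hij
    fin_cases i <;> fin_cases j <;>
      first
      | rfl
      | (exfalso; simp at hij
         first
         | exact h1 hij | exact h1 hij.symm | exact h2 hij | exact h2 hij.symm
         | exact h3 hij | exact h3 hij.symm | exact h4 hij | exact h4 hij.symm
         | exact h5 hij | exact h5 hij.symm | exact h6 hij | exact h6 hij.symm)⟩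
  invFun x := ⟨(x 0, x 1, x 2, x 3),
    x.injective.ne (by decide), x.injective.ne (by decide), x.injective.ne (by decide),
    x.injective.ne (by decide), x.injective.ne (by decide), x.injective.ne (by decide)⟩
  left_inv q := by
    apply Subtype.ext
    rfl
  right_inv x := by
    ext i
    fin_cases i <;> rfl

omit [DecidableEq α] in
/-- the number of ordered quadruples of distinct points -/
theorem dist4_card [DecidablePred fun q : α × α × α × α => Dist4 q.1 q.2.1 q.2.2.1 q.2.2.2] :
    (Finset.univ.filter (fun q : α × α × α × α => Dist4 q.1 q.2.1 q.2.2.1 q.2.2.2)).card =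
      Fintype.card α * (Fintype.card α - 1) * (Fintype.card α - 2) * (Fintype.card α - 3) := by
  rw [← Fintype.card_subtype, Fintype.card_congr dist4Equiv, Fintype.card_embedding_eq,
    Fintype.card_fin]
  simp only [Nat.descFactorial, Nat.sub_zero, mul_one]
  ring

/-- the incidence relation of the double count -/
def relB (u : Perm α) (q : α × α × α × α) : Prop :=
  u q.1 = q.2.1 ∧ u q.2.2.1 = q.2.2.1 ∧ u q.2.2.2 = q.2.2.2

/-- PIECE A6c with PIECE A3 as a hypothesis -/
theorem count_B_core (G : Subgroup (Perm α)) (h : ℕ) (H : Hyp G h) (a b c d : α)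
    (hd : Dist4 a b c d)
    (hA3 : ∀ u : Perm α, u ∈ G → u * u = 1 → u ≠ 1 → nfix u = f0 α) :
    {u : Perm α | u ∈ G ∧ u * u = 1 ∧ u ≠ 1}.ncard * ((Fintype.card α - f0 α) * (f0 α * (f0 α - 1))) =
      Fintype.card α * (Fintype.card α - 1) * (Fintype.card α - 2) * (Fintype.card α - 3) *
        (invB G a b c d).ncard := by
  classical
  obtain ⟨I, hI⟩ : ∃ I : Finset (Perm α),
      I = Finset.univ.filter (fun u => u ∈ G ∧ u * u = 1 ∧ u ≠ 1) := ⟨_, rfl⟩
  obtain ⟨Q, hQ⟩ : ∃ Q : Finset (α × α × α × α),
      Q = Finset.univ.filter (fun q => Dist4 q.1 q.2.1 q.2.2.1 q.2.2.2) := ⟨_, rfl⟩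
  have hImem : ∀ u, u ∈ I ↔ u ∈ G ∧ u * u = 1 ∧ u ≠ 1 := by
    intro u; rw [hI]; simp
  have hQmem : ∀ q, q ∈ Q ↔ Dist4 q.1 q.2.1 q.2.2.1 q.2.2.2 := by
    intro q; rw [hQ]; simp
  have hIcard : {u : Perm α | u ∈ G ∧ u * u = 1 ∧ u ≠ 1}.ncard = I.card := by
    rw [← Set.ncard_coe_finset]
    congr 1
    ext u
    rw [Finset.mem_coe, hImem]
    rfl
  have hQcard : Q.card =
      Fintype.card α * (Fintype.card α - 1) * (Fintype.card α - 2) * (Fintype.card α - 3) := by
    rw [hQ]; exact dist4_card
  have key := Finset.sum_card_bipartiteAbove_eq_sum_card_bipartiteBelow (s := I) (t := Q)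
    (relB (α := α))
  have hL : ∀ u ∈ I, (Q.bipartiteAbove relB u).card =
      (Fintype.card α - f0 α) * (f0 α * (f0 α - 1)) := by
    intro u hu
    obtain ⟨huG, hu2, hu1⟩ := (hImem u).mp hu
    have hfix : nfix u = f0 α := hA3 u huG hu2 hu1
    have huu : ∀ x, u (u x) = x := by
      intro x
      have h1 := congrArg (fun g : Perm α => g x) hu2
      simpa using h1
    obtain ⟨Fx, hFx⟩ : ∃ Fx : Finset α, Fx = Finset.univ.filter (fun x => u x = x) := ⟨_, rfl⟩
    obtain ⟨M, hM⟩ : ∃ M : Finset α, M = Finset.univ.filter (fun x => ¬ u x = x) := ⟨_, rfl⟩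
    have hFxcard : Fx.card = f0 α := by
      rw [← hfix, hFx]
      unfold nfix
      congr
    have hMcard : M.card = Fintype.card α - f0 α := by
      have h1 := Finset.card_filter_add_card_filter_not (s := (Finset.univ : Finset α))
        (fun x => u x = x)
      rw [← hFx, ← hM, hFxcard, Finset.card_univ] at h1
      omega
    have hbij : (Q.bipartiteAbove relB u).card = (M ×ˢ Fx.offDiag).card := by
      apply Finset.card_nbij' (fun q => (q.1, (q.2.2.1, q.2.2.2)))
        (fun p => (p.1, u p.1, p.2.1, p.2.2))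
      · intro q hq
        rw [Finset.mem_coe, Finset.mem_bipartiteAbove, hQmem] at hq
        obtain ⟨⟨h1, h2, h3, h4, h5, h6⟩, r1, r2, r3⟩ := hq
        rw [Finset.mem_coe, Finset.mem_product, Finset.mem_offDiag, hM, hFx]
        simp only [Finset.mem_filter, Finset.mem_univ, true_and]
        refine ⟨?_, r2, r3, h6⟩
        rw [r1]; exact fun h => h1 h.symm
      · intro p hp
        rw [Finset.mem_coe, Finset.mem_product, Finset.mem_offDiag, hM, hFx] at hp
        simp only [Finset.mem_filter, Finset.mem_univ, true_and] at hp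
        obtain ⟨m1, f1, f2, hne⟩ := hp
        rw [Finset.mem_coe, Finset.mem_bipartiteAbove, hQmem]
        refine ⟨⟨?_, ?_, ?_, ?_, ?_, hne⟩, rfl, f1, f2⟩
        · exact fun h => m1 h.symm
        · intro h; apply m1; rw [h]; exact f1
        · intro h; apply m1; rw [h]; exact f2
        · intro h
          apply m1
          have h' : u p.1 = p.2.1 := h
          have h1 := congrArg u h'
          rw [huu, f1] at h1
          exact h'.trans h1.symm
        · intro h
          apply m1
          have h' : u p.1 = p.2.2 := h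
          have h1 := congrArg u h'
          rw [huu, f2] at h1
          exact h'.trans h1.symm
      · intro q hq
        rw [Finset.mem_coe, Finset.mem_bipartiteAbove] at hq
        obtain ⟨-, r1, -, -⟩ := hq
        show (q.1, u q.1, q.2.2.1, q.2.2.2) = q
        rw [r1]
      · intro p hp
        rfl
    rw [hbij, Finset.card_product, Finset.offDiag_card, hMcard, hFxcard, Nat.mul_sub_one]
  have hR : ∀ q ∈ Q, (I.bipartiteBelow relB q).card = (invB G a b c d).ncard := by
    intro q hq
    have hq' := (hQmem q).mp hq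
    rw [Cfsg.Agent.Helper93.H581A6a.invB_ncard_eq G h H a b c d q.1 q.2.1 q.2.2.1 q.2.2.2 hd hq', ← Set.ncard_coe_finset]
    congr 1
    ext u
    rw [Finset.mem_coe, Finset.mem_bipartiteBelow, hImem]
    constructor
    · rintro ⟨⟨h1, h2, -⟩, r1, r2, r3⟩
      exact ⟨h1, h2, r1, r2, r3⟩
    · rintro ⟨h1, h2, r1, r2, r3⟩
      refine ⟨⟨h1, h2, ?_⟩, r1, r2, r3⟩
      rintro rfl
      exact hq'.1 r1
  rw [Finset.sum_congr rfl hL, Finset.sum_congr rfl hR, Finset.sum_const, Finset.sum_const,
    smul_eq_mul, smul_eq_mul] at key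
  rw [hIcard, ← hQcard]
  exact key

end Cfsg.Agent.Helper48.H581A6cCore
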