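import Mathlib
import Cfsg.Agent.Lead.H581Defs
import Cfsg.Agent.Helper48.H581A6cCore

/-!
Helper48: PIECE A0 of CALL S4221 (lead): Mathlib's 4-fold pretransitivity together with an odd
stabiliser of one embedding `Fin 4 ↪ α` gives the explicit hypothesis `Hyp G h`.
-/

set_option autoImplicit false

namespace Cfsg.Agent.Helper48.H581A0

open Cfsg.Agent.Lead.H581 Equiv

variable {α : Type*} [Fintype α] [DecidableEq α]

/-- PIECE A0 -/
theorem hyp_of_pretransitive (G : Subgroup (Perm α)) (hG : MulAction.IsMultiplyPretransitive G α 4)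
    (x : Fin 4 ↪ α) (hodd : Odd (Nat.card (MulAction.stabilizer G x))) : ∃ h, Hyp G h := by
  have hpre : MulAction.IsPretransitive G (Fin 4 ↪ α) := hG
  have hstab : ∀ y : Fin 4 ↪ α,
      Nat.card (MulAction.stabilizer G y) = Nat.card (MulAction.stabilizer G x) := by
    intro y
    obtain ⟨g, hg⟩ := MulAction.exists_smul_eq G x y
    exact (Nat.card_congr (MulAction.stabilizerEquivStabilizer hg.symm).toEquiv).symm
  refine ⟨Nat.card (MulAction.stabilizer G x), ?_, ?_, hodd⟩
  · intro a b c d a' b' c' d' hd hd'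
    obtain ⟨g, hg⟩ := MulAction.exists_smul_eq G
      (Cfsg.Agent.Helper48.H581A6cCore.dist4Equiv ⟨(a, b, c, d), hd⟩)
      (Cfsg.Agent.Helper48.H581A6cCore.dist4Equiv ⟨(a', b', c', d'), hd'⟩)
    refine ⟨g, g.2, ?_, ?_, ?_, ?_⟩
    · exact congrArg (fun y : Fin 4 ↪ α => y 0) hg
    · exact congrArg (fun y : Fin 4 ↪ α => y 1) hg
    · exact congrArg (fun y : Fin 4 ↪ α => y 2) hg
    · exact congrArg (fun y : Fin 4 ↪ α => y 3) hg
  · intro a b c d hd
    rw [← hstab (Cfsg.Agent.Helper48.H581A6cCore.dist4Equiv ⟨(a, b, c, d), hd⟩)]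
    have hmap : (MulAction.stabilizer G
        (Cfsg.Agent.Helper48.H581A6cCore.dist4Equiv ⟨(a, b, c, d), hd⟩)).map G.subtype =
        stab4 G a b c d := by
      ext g
      rw [Subgroup.mem_map, mem_stab4]
      constructor
      · rintro ⟨k, hk, rfl⟩
        rw [MulAction.mem_stabilizer_iff] at hk
        refine ⟨k.2, ?_, ?_, ?_, ?_⟩
        · exact congrArg (fun y : Fin 4 ↪ α => y 0) hk
        · exact congrArg (fun y : Fin 4 ↪ α => y 1) hk
        · exact congrArg (fun y : Fin 4 ↪ α => y 2) hk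
        · exact congrArg (fun y : Fin 4 ↪ α => y 3) hk
      · rintro ⟨hgG, ha, hb, hc, hd4⟩
        refine ⟨⟨g, hgG⟩, ?_, rfl⟩
        rw [MulAction.mem_stabilizer_iff]
        ext i
        fin_cases i
        · exact ha
        · exact hb
        · exact hc
        · exact hd4
    rw [← hmap]
    exact Subgroup.card_map_of_injective G.subtype_injective

end Cfsg.Agent.Helper48.H581A0
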