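import Mathlib
import Cfsg.Agent.Lead.H581Defs
import Cfsg.Agent.Helper48.H581A6cCore
import Cfsg.Agent.Helper47.H581A3

/-!
Helper48: PIECE A6c of CALL S4221 (lead): the double count of pairs (involution, quadruple)
of type B.
-/

set_option autoImplicit false

namespace Cfsg.Agent.Helper48.H581A6c

open Cfsg.Agent.Lead.H581 Equiv

variable {α : Type*} [Fintype α] [DecidableEq α]

/-- PIECE A6c (uses A3, A6a) -/
theorem count_B (G : Subgroup (Perm α)) (h : ℕ) (H : Hyp G h) (hn : 6 ≤ Fintype.card α) (a b c d : α)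
    (hd : Dist4 a b c d) :
    {u : Perm α | u ∈ G ∧ u * u = 1 ∧ u ≠ 1}.ncard * ((Fintype.card α - f0 α) * (f0 α * (f0 α - 1))) =
      Fintype.card α * (Fintype.card α - 1) * (Fintype.card α - 2) * (Fintype.card α - 3) *
        (invB G a b c d).ncard :=
  Cfsg.Agent.Helper48.H581A6cCore.count_B_core G h H a b c d hd
    (fun u hu hu2 hu1 => Cfsg.Agent.Helper47.H581A3.nfix_inv G h H hn u hu hu2 hu1)

end Cfsg.Agent.Helper48.H581A6c
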