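import Mathlib

set_option autoImplicit false
set_option linter.unusedSectionVars false
set_option linter.style.haveILetI false

/-!
Generic lemmas for Miller's theorem on `(r+1)`-transitive groups of degree `kp + r`:
a Witt-type lemma, elementwise multiple transitivity, and the structure of the orbits of
a `p`-group all of whose non-trivial orbits have length `p`.
-/

namespace Cfsg.Agent.Helper48

open Equiv Equiv.Perm MulAction
open scoped Pointwise

section Generic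

variable {G : Type*} [Group G] [Finite G]

/-- Conjugacy of two "Sylow p-subgroups" of a subgroup `X`, stated inside the ambient group. -/
theorem miller_sylConj (p : ℕ) (hp : p.Prime) (X S S' : Subgroup G) (hS : S ≤ X) (hS' : S' ≤ X)
    (hc : Nat.card S = p ^ (Nat.card X).factorization p) (hc' : Nat.card S' = Nat.card S) :
    ∃ y ∈ X, ∀ s : G, s ∈ S' ↔ y⁻¹ * s * y ∈ S := by
  have hp2 : Fact (Nat.Prime p) := ⟨hp⟩
  have e1 : Nat.card (S.subgroupOf X) = p ^ (Nat.card X).factorization p := by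
    rw [Nat.card_congr (Subgroup.subgroupOfEquivOfLe hS).toEquiv]; exact hc
  have e2 : Nat.card (S'.subgroupOf X) = p ^ (Nat.card X).factorization p := by
    rw [Nat.card_congr (Subgroup.subgroupOfEquivOfLe hS').toEquiv, hc']; exact hc
  obtain ⟨y, hy⟩ := MulAction.exists_smul_eq X (Sylow.ofCard _ e1) (Sylow.ofCard _ e2)
  have hy' : MulAut.conj y • (S.subgroupOf X) = S'.subgroupOf X := by
    have := congrArg (fun P : Sylow p X => (P : Subgroup X)) hy
    simpa [Sylow.coe_subgroup_smul, Sylow.coe_ofCard] using this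
  refine ⟨y, y.2, fun s => ?_⟩
  constructor
  · intro hs
    have hsX : s ∈ X := hS' hs
    have h1 : (⟨s, hsX⟩ : X) ∈ S'.subgroupOf X := by
      rw [Subgroup.mem_subgroupOf]; exact hs
    rw [← hy', Subgroup.mem_pointwise_smul_iff_inv_smul_mem, Subgroup.mem_subgroupOf] at h1
    simpa [MulAut.smul_def, MulAut.conj_inv_apply] using h1
  · intro hs
    have hsX : s ∈ X := by
      have h2 : y⁻¹ * s * y ∈ X := hS hs
      have h3 := X.mul_mem (X.mul_mem y.2 h2) (X.inv_mem y.2)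
      simpa [mul_assoc] using h3
    have h1 : (⟨s, hsX⟩ : X) ∈ S'.subgroupOf X := by
      rw [← hy', Subgroup.mem_pointwise_smul_iff_inv_smul_mem, Subgroup.mem_subgroupOf]
      simpa [MulAut.smul_def, MulAut.conj_inv_apply] using hs
    rw [Subgroup.mem_subgroupOf] at h1
    exact h1

/-- A Witt-type lemma. -/
theorem miller_witt (p : ℕ) (hp : p.Prime) (X S : Subgroup G) (hSX : S ≤ X)
    (hc : Nat.card S = p ^ (Nat.card X).factorization p)
    (g : G) (hg : ∀ s ∈ S, g * s * g⁻¹ ∈ X) :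
    ∃ y ∈ X, y * g ∈ Subgroup.normalizer (S : Set G) := by
  set S' : Subgroup G := S.map (MulAut.conj g).toMonoidHom with hS'
  have hS'X : S' ≤ X := by
    rintro _ ⟨s, hs, rfl⟩
    simpa using hg s hs
  have hcard : Nat.card S' = Nat.card S :=
    Subgroup.card_map_of_injective (MulAut.conj g).injective
  obtain ⟨y, hyX, hy⟩ := miller_sylConj p hp X S S' hSX hS'X hc hcard
  refine ⟨y⁻¹, X.inv_mem hyX, ?_⟩
  rw [Subgroup.mem_normalizer_iff]
  intro n
  have key : y⁻¹ * g * n * (y⁻¹ * g)⁻¹ = y⁻¹ * (g * n * g⁻¹) * y := by group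
  rw [key, ← hy]
  constructor
  · intro hn
    exact ⟨n, hn, by simp⟩
  · rintro ⟨s, hs, hsn⟩
    have : s = n := by
      have h := hsn
      simp only [MulEquiv.coe_toMonoidHom, MulAut.conj_apply] at h
      have h2 : g⁻¹ * (g * s * g⁻¹) * g = g⁻¹ * (g * n * g⁻¹) * g := by rw [h]
      simpa [mul_assoc] using h2
    rw [← this]; exact hs

/-- If `u` and `v` conjugate `g` into its cyclic group, a commutator of `u` and `v`
commutes with `g`. -/
theorem miller_comm_of_conj_zpow (g u v : G)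
    (hu : u * g * u⁻¹ ∈ Subgroup.zpowers g) (hv : v * g * v⁻¹ ∈ Subgroup.zpowers g) :
    (u⁻¹ * v⁻¹ * u * v) * g = g * (u⁻¹ * v⁻¹ * u * v) := by
  obtain ⟨i, hi⟩ := Subgroup.mem_zpowers_iff.mp hu
  obtain ⟨j, hj⟩ := Subgroup.mem_zpowers_iff.mp hv
  have h1 : u * v * g * v⁻¹ * u⁻¹ = g ^ (i * j) := by
    have : u * v * g * v⁻¹ * u⁻¹ = u * (v * g * v⁻¹) * u⁻¹ := by group
    rw [this, ← hj, ← conj_zpow, ← hi, zpow_mul]
  have h2 : v * u * g * u⁻¹ * v⁻¹ = g ^ (j * i) := by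
    have : v * u * g * u⁻¹ * v⁻¹ = v * (u * g * u⁻¹) * v⁻¹ := by group
    rw [this, ← hi, ← conj_zpow, ← hj, zpow_mul]
  have h : u * v * g * v⁻¹ * u⁻¹ = v * u * g * u⁻¹ * v⁻¹ := by rw [h1, h2, mul_comm]
  have e1 : u⁻¹ * v⁻¹ * (u * v * g * v⁻¹ * u⁻¹) * u * v = u⁻¹ * v⁻¹ * u * v * g := by group
  have e2 : u⁻¹ * v⁻¹ * (v * u * g * u⁻¹ * v⁻¹) * u * v = g * (u⁻¹ * v⁻¹ * u * v) := by group
  rw [← e1, h, e2]

end Generic

section Perm

variable {α : Type*} [Fintype α] [DecidableEq α]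

/-- Elementwise form of multiple transitivity. -/
theorem mt_exists_map (G : Subgroup (Perm α)) {m : ℕ}
    (hG : IsMultiplyPretransitive G α m) (hm : m ≤ Fintype.card α)
    (S : Finset α) (hS : S.card ≤ m) (f : α → α) (hf : Set.InjOn f S) :
    ∃ g ∈ G, ∀ x ∈ S, g x = f x := by
  have h1 : IsMultiplyPretransitive G α S.card :=
    isMultiplyPretransitive_of_le (n := m) hS (by rw [Nat.card_eq_fintype_card]; exact hm)
  let e : Fin S.card ↪ α := (S.equivFinOfCardEq rfl).symm.toEmbedding.trans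
    (Function.Embedding.subtype _)
  have he : ∀ i, e i ∈ S := fun i => ((S.equivFinOfCardEq rfl).symm i).2
  let e' : Fin S.card ↪ α := ⟨fun i => f (e i), fun i j hij =>
    e.injective (hf (he i) (he j) hij)⟩
  obtain ⟨g, hg⟩ := h1.exists_smul_eq e e'
  refine ⟨g.1, g.2, fun x hx => ?_⟩
  have := congrArg (fun F : Fin S.card ↪ α => F (S.equivFinOfCardEq rfl ⟨x, hx⟩)) hg
  have h' : g • x = f x := by simpa [e, e'] using this
  exact h'

/-- Pointwise stabiliser of a finset inside `G`. -/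
def fixG (G : Subgroup (Perm α)) (Δ : Finset α) : Subgroup (Perm α) where
  carrier := {g | g ∈ G ∧ ∀ x ∈ Δ, g x = x}
  mul_mem' := by
    rintro a b ⟨ha, ha'⟩ ⟨hb, hb'⟩
    exact ⟨G.mul_mem ha hb, fun x hx => by rw [Perm.mul_apply, hb' x hx, ha' x hx]⟩
  one_mem' := ⟨G.one_mem, fun x _ => rfl⟩
  inv_mem' := by
    rintro a ⟨ha, ha'⟩
    exact ⟨G.inv_mem ha, fun x hx => by rw [Perm.inv_eq_iff_eq]; exact (ha' x hx).symm⟩

theorem mem_fixG (G : Subgroup (Perm α)) (Δ : Finset α) (g : Perm α) :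
    g ∈ fixG G Δ ↔ g ∈ G ∧ ∀ x ∈ Δ, g x = x := Iff.rfl

/-- Witt's lemma for permutation groups: an element of `G` mapping `Δ` into the fixed points
of a Sylow `p`-subgroup `P` of the pointwise stabiliser of `Δ` agrees on `Δ` with an element of
`N_G(P)`. -/
theorem witt_perm (G : Subgroup (Perm α)) {p : ℕ} (hp : p.Prime) (Δ : Finset α)
    (P : Subgroup (Perm α)) (hPH : P ≤ fixG G Δ)
    (hcard : Nat.card P = p ^ (Nat.card (fixG G Δ)).factorization p)
    (g : Perm α) (hg : g ∈ G) (hfix : ∀ x ∈ Δ, ∀ u ∈ P, u (g x) = g x) :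
    ∃ n ∈ G, n ∈ Subgroup.normalizer (P : Set (Perm α)) ∧ ∀ x ∈ Δ, n x = g x := by
  obtain ⟨y, hy, hyn⟩ := miller_witt p hp (fixG G Δ) P hPH hcard g⁻¹ (by
    intro s hs
    refine ⟨G.mul_mem (G.mul_mem (G.inv_mem hg) (hPH hs).1) (by simpa using hg), fun x hx => ?_⟩
    simp only [inv_inv, Perm.mul_apply]
    rw [hfix x hx s hs]
    simp)
  refine ⟨(y * g⁻¹)⁻¹, G.inv_mem (G.mul_mem hy.1 (G.inv_mem hg)), Subgroup.inv_mem _ hyn,
    fun x hx => ?_⟩
  have hyx : y⁻¹ x = x := by rw [Perm.inv_eq_iff_eq]; exact (hy.2 x hx).symm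
  simp only [mul_inv_rev, inv_inv, Perm.mul_apply, hyx]

theorem mem_orbit_subgroup (P : Subgroup (Perm α)) (γ o : α) :
    o ∈ orbit (↥P) γ ↔ ∃ u ∈ P, u γ = o := by
  rw [mem_orbit_iff]
  constructor
  · rintro ⟨u, hu⟩; exact ⟨u.1, u.2, hu⟩
  · rintro ⟨u, hu, h⟩; exact ⟨⟨u, hu⟩, h⟩

/-- A `p`-group acts on an orbit of length `p` as a cyclic group generated by any element
moving a point of the orbit. -/
theorem orbit_cyclic {p : ℕ} (hp : p.Prime) (P : Subgroup (Perm α)) (hP : IsPGroup p P)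
    (γ : α) (hγ : Nat.card (orbit (↥P) γ) = p) (u₁ : Perm α) (hu₁ : u₁ ∈ P) (hmove : u₁ γ ≠ γ) :
    (∀ u ∈ P, ∃ j : ℤ, ∀ o ∈ orbit (↥P) γ, u o = (u₁ ^ j) o) ∧
    (∀ o ∈ orbit (↥P) γ, (u₁ ^ p) o = o) := by
  haveI : Fact p.Prime := ⟨hp⟩
  set S : Subgroup (↥P) := stabilizer (↥P) γ with hS
  have hidx : S.index = p := by rw [hS, index_stabilizer, ← Nat.card_coe_set_eq, hγ]
  obtain ⟨n, hn⟩ := IsPGroup.iff_card.mp hP
  have hn0 : n ≠ 0 := by
    rintro rfl
    have h1 : S.index ∣ Nat.card (↥P) := Subgroup.index_dvd_card S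
    rw [hidx, hn, pow_zero] at h1
    exact hp.one_lt.ne' (Nat.dvd_one.mp h1)
  haveI hnorm : S.Normal := by
    apply Subgroup.normal_of_index_eq_minFac_card
    rw [hidx, hn, hp.pow_minFac hn0]
  have hfixO : ∀ z : ↥P, z ∈ S → ∀ o ∈ orbit (↥P) γ, (z : Perm α) o = o := by
    intro z hz o ho
    obtain ⟨v, rfl⟩ := mem_orbit_iff.mp ho
    have h1 : v⁻¹ * z * v ∈ S := by
      have := hnorm.conj_mem z hz v⁻¹
      simpa using this
    have h2 : (v⁻¹ * z * v) • γ = γ := mem_stabilizer_iff.mp h1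
    have h3 : z • (v • γ) = v • ((v⁻¹ * z * v) • γ) := by
      simp only [← mul_smul]; congr 1; group
    show z • (v • γ) = v • γ
    rw [h3, h2]
  have hcardQ : Nat.card (↥P ⧸ S) = p := by rw [← Subgroup.index_eq_card, hidx]
  have hu₁S : (⟨u₁, hu₁⟩ : ↥P) ∉ S := by
    intro h
    exact hmove (mem_stabilizer_iff.mp h)
  have hne : ((⟨u₁, hu₁⟩ : ↥P) : ↥P ⧸ S) ≠ 1 := by
    rw [Ne, QuotientGroup.eq_one_iff]; exact hu₁S
  have htop := zpowers_eq_top_of_prime_card hcardQ hne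
  constructor
  · intro u hu
    have hmem : ((⟨u, hu⟩ : ↥P) : ↥P ⧸ S) ∈ Subgroup.zpowers ((⟨u₁, hu₁⟩ : ↥P) : ↥P ⧸ S) := by
      rw [htop]; trivial
    obtain ⟨j, hj⟩ := Subgroup.mem_zpowers_iff.mp hmem
    refine ⟨j, fun o ho => ?_⟩
    have h1 : (((⟨u₁, hu₁⟩ : ↥P) ^ j : ↥P) : ↥P ⧸ S) = ((⟨u, hu⟩ : ↥P) : ↥P ⧸ S) := by
      rw [QuotientGroup.mk_zpow]; exact hj
    have h2 : ((⟨u₁, hu₁⟩ : ↥P) ^ j)⁻¹ * ⟨u, hu⟩ ∈ S := QuotientGroup.eq.mp h1
    have h3 := hfixO _ h2 o ho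
    have h4 : ((((⟨u₁, hu₁⟩ : ↥P) ^ j)⁻¹ * ⟨u, hu⟩ : ↥P) : Perm α) = (u₁ ^ j)⁻¹ * u := by
      simp
    rw [h4, Perm.mul_apply, Perm.inv_eq_iff_eq] at h3
    exact h3
  · intro o ho
    have h1 : (((⟨u₁, hu₁⟩ : ↥P) ^ p : ↥P) : ↥P ⧸ S) = 1 := by
      rw [QuotientGroup.mk_pow, ← hcardQ]; exact pow_card_eq_one'
    have h2 : (⟨u₁, hu₁⟩ : ↥P) ^ p ∈ S := (QuotientGroup.eq_one_iff _).mp h1
    have h3 := hfixO _ h2 o ho
    simpa using h3

end Perm

end Cfsg.Agent.Helper48
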