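import Cfsg.Agent.Helper48.MillerA

set_option autoImplicit false
set_option linter.unusedSectionVars false
set_option linter.style.haveILetI false

/-!
Miller's theorem, part B: commutators of elements normalising a `p`-group `P` and fixing an
orbit of `P` act on that orbit as elements of order dividing `p`; orbit lengths of a Sylow
subgroup of a point stabiliser; the permutation actions of the normaliser on the fixed points
and on the set of non-trivial orbits of `P`.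
-/

namespace Cfsg.Agent.Helper48

open Equiv Equiv.Perm MulAction
open scoped Pointwise

variable {α : Type*} [Fintype α] [DecidableEq α]

theorem perm_apply_inv' (u : Perm α) (x : α) : u (u⁻¹ x) = x := by
  rw [← Perm.mul_apply, mul_inv_cancel, Perm.one_apply]

theorem perm_inv_apply' (u : Perm α) (x : α) : u⁻¹ (u x) = x := by
  rw [← Perm.mul_apply, inv_mul_cancel, Perm.one_apply]

theorem natCard_orbit_mul_stabilizer {G X : Type*} [Group G] [MulAction G X] (b : X) :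
    Nat.card (orbit G b) * Nat.card (stabilizer G b) = Nat.card G := by
  rw [← Nat.card_prod, Nat.card_congr (orbitProdStabilizerEquivGroup G b)]

theorem zpow_mem_set (u : Perm α) (O : Set α) (huO : ∀ o ∈ O, u o ∈ O)
    (hu'O : ∀ o ∈ O, u⁻¹ o ∈ O) : ∀ z : ℤ, ∀ o ∈ O, (u ^ z) o ∈ O := by
  intro z
  induction z using Int.induction_on with
  | zero => intro o ho; simpa using ho
  | succ i ih => intro o ho; rw [zpow_add_one, Perm.mul_apply]; exact ih _ (huO o ho)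
  | pred i ih => intro o ho; rw [zpow_sub_one, Perm.mul_apply]; exact ih _ (hu'O o ho)

theorem normalize_zpow (u x : Perm α) (O : Set α)
    (huO : ∀ o ∈ O, u o ∈ O) (hu'O : ∀ o ∈ O, u⁻¹ o ∈ O) (a : ℤ)
    (hx : ∀ o ∈ O, x (u o) = (u ^ a) (x o)) :
    ∀ z : ℤ, ∀ o ∈ O, x ((u ^ z) o) = (u ^ (a * z)) (x o) := by
  intro z
  induction z using Int.induction_on with
  | zero => intro o ho; simp
  | succ i ih =>
    intro o ho
    have h1 := ih _ (huO o ho)
    have h2 := hx o ho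
    have h3 : (u ^ (a * (i : ℤ))) ((u ^ a) (x o)) = (u ^ (a * ((i : ℤ) + 1))) (x o) := by
      rw [← Perm.mul_apply, ← zpow_add]; congr 2; ring
    rw [zpow_add_one, Perm.mul_apply, h1, h2, h3]
  | pred i ih =>
    intro o ho
    have h1 := ih _ (hu'O o ho)
    have h2 := hx _ (hu'O o ho)
    rw [perm_apply_inv'] at h2
    have h3 : (u ^ (a * (-(i : ℤ) - 1))) ((u ^ a) (x (u⁻¹ o))) =
        (u ^ (a * -(i : ℤ))) (x (u⁻¹ o)) := by
      rw [← Perm.mul_apply, ← zpow_add]; congr 2; ring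
    rw [zpow_sub_one, Perm.mul_apply, h1, h2, h3]

/-- If `x` and `y` normalise the action of `u` on an invariant set, their commutator commutes
with `u` there. -/
theorem commute_on_of_normalize (u x y : Perm α) (O : Set α)
    (huO : ∀ o ∈ O, u o ∈ O) (hu'O : ∀ o ∈ O, u⁻¹ o ∈ O)
    (hxO : ∀ o ∈ O, x o ∈ O) (hx'O : ∀ o ∈ O, x⁻¹ o ∈ O)
    (hyO : ∀ o ∈ O, y o ∈ O) (hy'O : ∀ o ∈ O, y⁻¹ o ∈ O)
    (a b : ℤ) (hx : ∀ o ∈ O, x (u o) = (u ^ a) (x o)) (hy : ∀ o ∈ O, y (u o) = (u ^ b) (y o)) :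
    ∀ o ∈ O, (x⁻¹ * y⁻¹ * x * y) (u o) = u ((x⁻¹ * y⁻¹ * x * y) o) := by
  intro o ho
  have hxz := normalize_zpow u x O huO hu'O a hx
  have hyz := normalize_zpow u y O huO hu'O b hy
  obtain ⟨o₁, ho₁⟩ : ∃ o₁, o₁ = (x⁻¹ * y⁻¹ * x * y) o := ⟨_, rfl⟩
  have ho₁O : o₁ ∈ O := by
    rw [ho₁]; simp only [Perm.mul_apply]
    exact hx'O _ (hy'O _ (hxO _ (hyO _ ho)))
  have e1 : y (x o₁) = x (y o) := by rw [ho₁]; simp [Perm.mul_apply]
  have e2 : y (x (u o₁)) = x (y (u o)) := by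
    rw [hx o₁ ho₁O, hyz a _ (hxO _ ho₁O), e1, hy o ho, hxz b _ (hyO _ ho), mul_comm]
  rw [← ho₁]
  have e3 : (x⁻¹ * y⁻¹ * x * y) (u o) = x⁻¹ (y⁻¹ (x (y (u o)))) := by
    simp only [Perm.mul_apply]
  rw [e3, ← e2]
  simp

/-- If `w` commutes with `u` along the `u`-orbit of `γ`, maps `γ` into that orbit, and `u ^ p`
fixes `γ`, then `w ^ p` fixes the orbit pointwise. -/
theorem pow_fix_of_commute_on_orbit (u w : Perm α) (γ : α) {p : ℕ}
    (hw : ∀ i : ℤ, w (u ((u ^ i) γ)) = u (w ((u ^ i) γ)))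
    (hwγ : ∃ j : ℤ, w γ = (u ^ j) γ) (hp : (u ^ p) γ = γ) (i : ℤ) :
    (w ^ p) ((u ^ i) γ) = (u ^ i) γ := by
  obtain ⟨j, hj⟩ := hwγ
  have A : ∀ i : ℤ, w ((u ^ i) γ) = (u ^ (i + j)) γ := by
    intro i
    induction i using Int.induction_on with
    | zero => simp [hj]
    | succ i ih =>
      have h1 := hw i
      have h2 : (u ^ ((i : ℤ) + 1)) γ = u ((u ^ (i : ℤ)) γ) := by
        rw [add_comm, zpow_add, zpow_one, Perm.mul_apply]
      have h3 : (u ^ ((i : ℤ) + 1 + j)) γ = u ((u ^ ((i : ℤ) + j)) γ) := by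
        rw [show (i : ℤ) + 1 + j = 1 + ((i : ℤ) + j) by ring, zpow_add, zpow_one, Perm.mul_apply]
      rw [h2, h1, ih, h3]
    | pred i ih =>
      have h1 := hw (-(i : ℤ) - 1)
      have h2 : u ((u ^ (-(i : ℤ) - 1)) γ) = (u ^ (-(i : ℤ))) γ := by
        rw [← Perm.mul_apply, ← zpow_one_add]; congr 2; ring
      rw [h2, ih] at h1
      have h3 : (u ^ (-(i : ℤ) - 1 + j)) γ = u⁻¹ ((u ^ (-(i : ℤ) + j)) γ) := by
        rw [← Perm.mul_apply, ← zpow_neg_one, ← zpow_add]; congr 2; ring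
      rw [h3, h1]
      simp
  have B : ∀ m : ℕ, ∀ i : ℤ, (w ^ m) ((u ^ i) γ) = (u ^ (i + m * j)) γ := by
    intro m
    induction m with
    | zero => intro i; simp
    | succ m ih =>
      intro i
      rw [pow_succ', Perm.mul_apply, ih, A]
      congr 2; push_cast; ring
  rw [B p i]
  have h1 : (u ^ (i + (p : ℤ) * j)) γ = (u ^ i) (((u ^ p) ^ j) γ) := by
    rw [← Perm.mul_apply, ← zpow_natCast, ← zpow_mul, ← zpow_add]
  rw [h1, Equiv.Perm.zpow_apply_eq_self_of_apply_eq_self hp]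

theorem exists_moving (P : Subgroup (Perm α)) (γ : α) {p : ℕ} (hp : p.Prime)
    (hγ : Nat.card (orbit (↥P) γ) = p) : ∃ u ∈ P, u γ ≠ γ := by
  by_contra h
  push Not at h
  have h1 : orbit (↥P) γ = {γ} := by
    ext o
    rw [mem_orbit_subgroup, Set.mem_singleton_iff]
    constructor
    · rintro ⟨u, hu, rfl⟩; exact h u hu
    · rintro rfl; exact ⟨1, P.one_mem, rfl⟩
  rw [h1] at hγ
  have h2 : Nat.card ↥({γ} : Set α) = 1 := by simp
  rw [h2] at hγ
  exact hp.one_lt.ne hγ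

/-- Commutators of two elements normalising `P` and stabilising an orbit of length `p` act on
it with order dividing `p`. -/
theorem comm_pow_fix_orbit {p : ℕ} (hp : p.Prime) (P : Subgroup (Perm α)) (hP : IsPGroup p P)
    (γ : α) (hγ : Nat.card (orbit (↥P) γ) = p) (x y : Perm α)
    (hxN : x ∈ Subgroup.normalizer (P : Set (Perm α)))
    (hyN : y ∈ Subgroup.normalizer (P : Set (Perm α)))
    (hxO : ∀ o ∈ orbit (↥P) γ, x o ∈ orbit (↥P) γ)
    (hx'O : ∀ o ∈ orbit (↥P) γ, x⁻¹ o ∈ orbit (↥P) γ)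
    (hyO : ∀ o ∈ orbit (↥P) γ, y o ∈ orbit (↥P) γ)
    (hy'O : ∀ o ∈ orbit (↥P) γ, y⁻¹ o ∈ orbit (↥P) γ) :
    ∀ o ∈ orbit (↥P) γ, ((x⁻¹ * y⁻¹ * x * y) ^ p) o = o := by
  obtain ⟨u₁, hu₁, hmove⟩ := exists_moving P γ hp hγ
  obtain ⟨hcyc, hpow⟩ := orbit_cyclic hp P hP γ hγ u₁ hu₁ hmove
  have huO : ∀ o ∈ orbit (↥P) γ, u₁ o ∈ orbit (↥P) γ := fun o ho => by
    obtain ⟨v, hv, rfl⟩ := (mem_orbit_subgroup P γ o).mp ho
    exact (mem_orbit_subgroup P γ _).mpr ⟨u₁ * v, P.mul_mem hu₁ hv, rfl⟩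
  have hu'O : ∀ o ∈ orbit (↥P) γ, u₁⁻¹ o ∈ orbit (↥P) γ := fun o ho => by
    obtain ⟨v, hv, rfl⟩ := (mem_orbit_subgroup P γ o).mp ho
    exact (mem_orbit_subgroup P γ _).mpr ⟨u₁⁻¹ * v, P.mul_mem (P.inv_mem hu₁) hv, rfl⟩
  have hexp : ∀ x : Perm α, x ∈ Subgroup.normalizer (P : Set (Perm α)) →
      (∀ o ∈ orbit (↥P) γ, x o ∈ orbit (↥P) γ) →
      ∃ a : ℤ, ∀ o ∈ orbit (↥P) γ, x (u₁ o) = (u₁ ^ a) (x o) := by
    intro x hxN hxO
    have hc : x * u₁ * x⁻¹ ∈ P := (Subgroup.mem_normalizer_iff.mp hxN u₁).mp hu₁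
    obtain ⟨a, ha⟩ := hcyc _ hc
    refine ⟨a, fun o ho => ?_⟩
    have := ha (x o) (hxO o ho)
    simpa [Perm.mul_apply] using this
  obtain ⟨a, ha⟩ := hexp x hxN hxO
  obtain ⟨b, hb⟩ := hexp y hyN hyO
  have hcomm := commute_on_of_normalize u₁ x y _ huO hu'O hxO hx'O hyO hy'O a b ha hb
  have hwO : ∀ o ∈ orbit (↥P) γ, (x⁻¹ * y⁻¹ * x * y) o ∈ orbit (↥P) γ := fun o ho => by
    simp only [Perm.mul_apply]; exact hx'O _ (hy'O _ (hxO _ (hyO _ ho)))
  have hγO : γ ∈ orbit (↥P) γ := mem_orbit_self γ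
  have hrep : ∀ o ∈ orbit (↥P) γ, ∃ i : ℤ, o = (u₁ ^ i) γ := by
    intro o ho
    obtain ⟨v, hv, rfl⟩ := (mem_orbit_subgroup P γ o).mp ho
    obtain ⟨j, hj⟩ := hcyc v hv
    exact ⟨j, hj γ hγO⟩
  have huz := zpow_mem_set u₁ _ huO hu'O
  intro o ho
  obtain ⟨i, rfl⟩ := hrep o ho
  apply pow_fix_of_commute_on_orbit u₁ _ γ
  · intro i; exact hcomm _ (huz i γ hγO)
  · exact hrep _ (hwO γ hγO)
  · exact hpow γ hγO

/-- An element stabilising an orbit of length `p` and commuting with an element of `P` that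
moves the orbit acts on the orbit with order dividing `p`. -/
theorem commute_pow_fix_orbit {p : ℕ} (hp : p.Prime) (P : Subgroup (Perm α)) (hP : IsPGroup p P)
    (γ : α) (hγ : Nat.card (orbit (↥P) γ) = p) (g : Perm α) (hg : g ∈ P) (hgγ : g γ ≠ γ)
    (w : Perm α) (hwg : w * g = g * w) (hwO : ∀ o ∈ orbit (↥P) γ, w o ∈ orbit (↥P) γ) :
    ∀ o ∈ orbit (↥P) γ, (w ^ p) o = o := by
  obtain ⟨hcyc, hpow⟩ := orbit_cyclic hp P hP γ hγ g hg hgγ
  have hγO : γ ∈ orbit (↥P) γ := mem_orbit_self γ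
  have hrep : ∀ o ∈ orbit (↥P) γ, ∃ i : ℤ, o = (g ^ i) γ := by
    intro o ho
    obtain ⟨v, hv, rfl⟩ := (mem_orbit_subgroup P γ o).mp ho
    obtain ⟨j, hj⟩ := hcyc v hv
    exact ⟨j, hj γ hγO⟩
  intro o ho
  obtain ⟨i, rfl⟩ := hrep o ho
  apply pow_fix_of_commute_on_orbit g w γ
  · intro i
    have := congrArg (fun f : Perm α => f ((g ^ i) γ)) hwg
    simpa [Perm.mul_apply] using this
  · exact hrep _ (hwO γ hγO)
  · exact hpow γ hγO

/-- Orbits of a Sylow `p`-subgroup of the pointwise stabiliser of `Δ`, transitive on the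
`k * p` remaining points with `k < p`, have length `p`. -/
theorem sylow_orbit_card (G : Subgroup (Perm α)) {p k : ℕ} (hp : p.Prime) (Δ : Finset α)
    (hcard : Fintype.card α = k * p + Δ.card) (hk : 1 ≤ k) (hkp : k < p)
    (htrans : ∀ γ γ', γ ∉ Δ → γ' ∉ Δ → ∃ h ∈ fixG G Δ, h γ = γ')
    (P : Subgroup (Perm α)) (hPH : P ≤ fixG G Δ)
    (hPc : Nat.card P = p ^ (Nat.card (fixG G Δ)).factorization p)
    (γ : α) (hγ : γ ∉ Δ) : Nat.card (orbit (↥P) γ) = p := by
  have hP : IsPGroup p P := IsPGroup.of_card hPc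
  have hHorb : orbit (↥(fixG G Δ)) γ = ((Δ : Set α))ᶜ := by
    ext x
    rw [mem_orbit_subgroup, Set.mem_compl_iff, Finset.mem_coe]
    constructor
    · rintro ⟨h, hh, rfl⟩ hx
      have h1 := hh.2 (h γ) hx
      have h2 : h γ = γ := h.injective h1
      exact hγ (h2 ▸ hx)
    · intro hx; exact htrans γ x hγ hx
  have hHcard : Nat.card (orbit (↥(fixG G Δ)) γ) = k * p := by
    rw [hHorb, Nat.card_coe_set_eq]
    have := Set.ncard_add_ncard_compl (Δ : Set α)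
    rw [Set.ncard_coe_finset, Nat.card_eq_fintype_card, hcard] at this
    omega
  have hos := natCard_orbit_mul_stabilizer (G := ↥(fixG G Δ)) γ
  rw [hHcard] at hos
  haveI : Fact p.Prime := ⟨hp⟩
  obtain ⟨b, hb⟩ := hP.card_orbit γ
  have hsub : orbit (↥P) γ ⊆ orbit (↥(fixG G Δ)) γ := by
    intro o ho
    obtain ⟨u, hu, rfl⟩ := (mem_orbit_subgroup P γ o).mp ho
    exact (mem_orbit_subgroup _ γ _).mpr ⟨u, hPH hu, rfl⟩
  have hle : p ^ b ≤ k * p := by
    rw [← hb, ← hHcard, Nat.card_coe_set_eq, Nat.card_coe_set_eq]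
    exact Set.ncard_le_ncard hsub (Set.toFinite _)
  have hb2 : b < 2 := by
    by_contra hb2
    have h1 : p ^ 2 ≤ p ^ b := Nat.pow_le_pow_right hp.pos (by omega)
    have h2 : k * p < p * p := Nat.mul_lt_mul_of_pos_right hkp hp.pos
    nlinarith
  have hb0 : b ≠ 0 := by
    rintro rfl
    rw [pow_zero] at hb
    have hfixγ : ∀ u ∈ P, u γ = γ := by
      intro u hu
      by_contra hne
      have h1 : 1 < (orbit (↥P) γ).ncard := by
        rw [Set.one_lt_ncard (Set.toFinite _)]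
        exact ⟨u γ, (mem_orbit_subgroup P γ _).mpr ⟨u, hu, rfl⟩, γ, mem_orbit_self γ, hne⟩
      rw [← Nat.card_coe_set_eq, hb] at h1
      exact lt_irrefl _ h1
    have hle2 : P.subgroupOf (fixG G Δ) ≤ stabilizer (↥(fixG G Δ)) γ := by
      intro z hz
      rw [mem_stabilizer_iff]
      exact hfixγ z.1 (Subgroup.mem_subgroupOf.mp hz)
    have hdvd : Nat.card P ∣ Nat.card (stabilizer (↥(fixG G Δ)) γ) := by
      rw [← Nat.card_congr (Subgroup.subgroupOfEquivOfLe hPH).toEquiv]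
      exact Subgroup.card_dvd_of_le hle2
    rw [hPc] at hdvd
    have hH0 : Nat.card (fixG G Δ) ≠ 0 := Nat.card_pos.ne'
    have h3 : p ^ ((Nat.card (fixG G Δ)).factorization p + 1) ∣ Nat.card (fixG G Δ) := by
      obtain ⟨c, hc⟩ := hdvd
      refine ⟨k * c, ?_⟩
      generalize (Nat.card (fixG G Δ)).factorization p = e at hc ⊢
      rw [← hos, hc, pow_succ]; ring
    exact Nat.pow_succ_factorization_not_dvd hH0 hp h3
  have hb1 : b = 1 := by omega
  rw [hb, hb1, pow_one]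

/-- For `n` normalising `P`, `n` maps the `P`-orbit of `γ` onto the `P`-orbit of `n γ`. -/
theorem smul_orbit_of_normalizer (L P : Subgroup (Perm α))
    (hL : L ≤ Subgroup.normalizer (P : Set (Perm α))) (n : ↥L) (γ : α) :
    n • (orbit (↥P) γ : Set α) = orbit (↥P) (n.1 γ) := by
  have hn := hL n.2
  ext x
  rw [Set.mem_smul_set_iff_inv_smul_mem, mem_orbit_subgroup, mem_orbit_subgroup]
  have hsm : n⁻¹ • x = n.1⁻¹ x := rfl
  rw [hsm]
  constructor
  · rintro ⟨u, hu, h⟩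
    refine ⟨n.1 * u * n.1⁻¹, (Subgroup.mem_normalizer_iff.mp hn u).mp hu, ?_⟩
    simp only [Perm.mul_apply, perm_inv_apply', h, perm_apply_inv']
  · rintro ⟨u, hu, h⟩
    refine ⟨n.1⁻¹ * u * n.1, ?_, ?_⟩
    · have := (Subgroup.mem_normalizer_iff.mp (Subgroup.inv_mem _ hn) u).mp hu
      simpa using this
    · simp only [Perm.mul_apply, h]

/-- The non-trivial orbits of `P`, acted on by a subgroup `L` of the normaliser of `P`. -/
def movedOrbits (L P : Subgroup (Perm α)) (hL : L ≤ Subgroup.normalizer (P : Set (Perm α))) :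
    SubMulAction (↥L) (Set α) where
  carrier := {O | ∃ γ, (∃ u ∈ P, u γ ≠ γ) ∧ O = orbit (↥P) γ}
  smul_mem' := by
    rintro n O ⟨γ, ⟨u, hu, huγ⟩, rfl⟩
    refine ⟨n.1 γ, ⟨n.1 * u * n.1⁻¹, (Subgroup.mem_normalizer_iff.mp (hL n.2) u).mp hu, ?_⟩,
      smul_orbit_of_normalizer L P hL n γ⟩
    simp only [Perm.mul_apply, perm_inv_apply']
    intro h; exact huγ (n.1.injective h)

/-- The fixed points of `P`, acted on by a subgroup `L` of the normaliser of `P`. -/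
def millerFixSub (L P : Subgroup (Perm α)) (hL : L ≤ Subgroup.normalizer (P : Set (Perm α))) :
    SubMulAction (↥L) α where
  carrier := {x | ∀ u ∈ P, u x = x}
  smul_mem' := by
    rintro n x hx u hu
    have h1 : n.1⁻¹ * u * n.1 ∈ P := by
      have := (Subgroup.mem_normalizer_iff.mp (Subgroup.inv_mem _ (hL n.2)) u).mp hu
      simpa using this
    have h2 := hx _ h1
    simp only [Perm.mul_apply] at h2
    show u (n.1 x) = n.1 x
    have h3 := congrArg n.1 h2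
    rwa [perm_apply_inv'] at h3

/-- The action of `L` on the non-trivial orbits of `P`. -/
noncomputable def orbHom (L P : Subgroup (Perm α))
    (hL : L ≤ Subgroup.normalizer (P : Set (Perm α))) : ↥L →* Perm ↥(movedOrbits L P hL) :=
  MulAction.toPermHom _ _

/-- The action of `L` on the fixed points of `P`. -/
noncomputable def fixHom (L P : Subgroup (Perm α))
    (hL : L ≤ Subgroup.normalizer (P : Set (Perm α))) : ↥L →* Perm ↥(millerFixSub L P hL) :=
  MulAction.toPermHom _ _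

theorem fixHom_apply (L P : Subgroup (Perm α))
    (hL : L ≤ Subgroup.normalizer (P : Set (Perm α))) (n : ↥L) (a : ↥(millerFixSub L P hL)) :
    ((fixHom L P hL n a : ↥(millerFixSub L P hL)) : α) = n.1 a.1 := rfl

theorem orbHom_apply (L P : Subgroup (Perm α))
    (hL : L ≤ Subgroup.normalizer (P : Set (Perm α))) (n : ↥L) (O : ↥(movedOrbits L P hL)) :
    ((orbHom L P hL n O : ↥(movedOrbits L P hL)) : Set α) = n • (O : Set α) := rfl

theorem orbHom_fix_mem (L P : Subgroup (Perm α))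
    (hL : L ≤ Subgroup.normalizer (P : Set (Perm α))) (n : ↥L) (O : ↥(movedOrbits L P hL))
    (h : orbHom L P hL n O = O) : ∀ o ∈ (O : Set α), n.1 o ∈ (O : Set α) := by
  intro o ho
  have h1 : n • (O : Set α) = O := by rw [← orbHom_apply, h]
  rw [← h1]
  exact Set.smul_mem_smul_set ho

theorem orbHom_fix_mem_inv (L P : Subgroup (Perm α))
    (hL : L ≤ Subgroup.normalizer (P : Set (Perm α))) (n : ↥L) (O : ↥(movedOrbits L P hL))
    (h : orbHom L P hL n O = O) : ∀ o ∈ (O : Set α), n.1⁻¹ o ∈ (O : Set α) := by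
  have h1 : orbHom L P hL n⁻¹ O = O := by
    rw [map_inv, Perm.inv_eq_iff_eq]; exact h.symm
  exact orbHom_fix_mem L P hL n⁻¹ O h1

/-- The number of non-trivial orbits times `p` is the number of moved points. -/
theorem card_movedOrbits (L P : Subgroup (Perm α))
    (hL : L ≤ Subgroup.normalizer (P : Set (Perm α))) {p : ℕ} (hp : p.Prime) (Δ : Finset α)
    (hfix : ∀ u ∈ P, ∀ x ∈ Δ, u x = x)
    (horb : ∀ γ, γ ∉ Δ → Nat.card (orbit (↥P) γ) = p) :
    Nat.card ↥(movedOrbits L P hL) * p = Fintype.card α - Δ.card := by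
  classical
  have hmoved : ∀ γ, (∃ u ∈ P, u γ ≠ γ) ↔ γ ∉ Δ := fun γ =>
    ⟨fun ⟨u, hu, h⟩ hγ => h (hfix u hu γ hγ), fun hγ => exists_moving P γ hp (horb γ hγ)⟩
  have hnotin : ∀ γ₀, γ₀ ∉ Δ → ∀ o ∈ orbit (↥P) γ₀, o ∉ Δ := by
    intro γ₀ hγ₀ o ho hoΔ
    obtain ⟨u, hu, rfl⟩ := (mem_orbit_subgroup P γ₀ o).mp ho
    have h1 := hfix u⁻¹ (P.inv_mem hu) _ hoΔ
    rw [perm_inv_apply'] at h1
    exact hγ₀ (h1 ▸ hoΔ)
  let φ : {γ // γ ∉ Δ} → ↥(movedOrbits L P hL) := fun γ =>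
    ⟨orbit (↥P) γ.1, γ.1, (hmoved _).mpr γ.2, rfl⟩
  have hfib : ∀ O : ↥(movedOrbits L P hL), Nat.card {x // φ x = O} = p := by
    rintro ⟨O, γ₀, hγ₀, rfl⟩
    have hγ₀' := (hmoved _).mp hγ₀
    rw [← horb γ₀ hγ₀']
    apply Nat.card_congr
    refine
      { toFun := fun x => ⟨x.1.1, ?_⟩
        invFun := fun o => ⟨⟨o.1, hnotin γ₀ hγ₀' o.1 o.2⟩, ?_⟩
        left_inv := fun x => rfl
        right_inv := fun o => rfl }
    · have h1 : orbit (↥P) x.1.1 = orbit (↥P) γ₀ := congrArg Subtype.val x.2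
      have h2 := mem_orbit_self (M := ↥P) x.1.1
      rwa [h1] at h2
    · apply Subtype.ext
      show orbit (↥P) o.1 = orbit (↥P) γ₀
      exact orbit_eq_iff.mpr o.2
  have h1 := Nat.card_congr (Equiv.sigmaFiberEquiv φ)
  haveI : Fintype ↥(movedOrbits L P hL) := Fintype.ofFinite _
  rw [Nat.card_sigma] at h1
  simp only [hfib, Finset.sum_const, Finset.card_univ, smul_eq_mul] at h1
  rw [Nat.card_eq_fintype_card, h1, Nat.card_eq_fintype_card, Fintype.card_subtype_compl,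
    Fintype.card_coe]

end Cfsg.Agent.Helper48
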