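import Cfsg.Agent.Helper48.MillerB

set_option autoImplicit false
set_option linter.unusedSectionVars false
set_option linter.unusedVariables false
set_option linter.style.haveILetI false

/-!
Miller's theorem, part C: general lemmas (Sylow subgroups as subgroups of the ambient group,
`p`-cycles in `P`, normal subgroups of symmetric groups, the finishing lemma, and the abstract
cores of the three main cases).
-/

namespace Cfsg.Agent.Helper48

open Equiv Equiv.Perm MulAction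
open scoped Pointwise

section General

/-- A Sylow `p`-subgroup of a subgroup, as a subgroup of the ambient group. -/
theorem exists_sylow_sub {G : Type*} [Group G] [Finite G] (p : ℕ) (hp : p.Prime)
    (H : Subgroup G) :
    ∃ P : Subgroup G, P ≤ H ∧ Nat.card P = p ^ (Nat.card H).factorization p := by
  haveI : Fact p.Prime := ⟨hp⟩
  obtain ⟨S⟩ : Nonempty (Sylow p H) := inferInstance
  refine ⟨(S : Subgroup H).map H.subtype, Subgroup.map_subtype_le _, ?_⟩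
  rw [Subgroup.card_map_of_injective H.subtype_injective]
  exact S.card_eq_multiplicity

theorem eq_of_natCard_two {T : Type*} (h : Nat.card T = 2) (A B C : T) (hAB : A ≠ B)
    (hAC : A ≠ C) : B = C := by
  classical
  haveI : Finite T := Nat.finite_of_card_ne_zero (by omega)
  haveI : Fintype T := Fintype.ofFinite T
  by_contra hBC
  have h3 : ({A, B, C} : Finset T).card = 3 :=
    Finset.card_eq_three.mpr ⟨A, B, C, hAB, hAC, hBC, rfl⟩
  have := Finset.card_le_univ ({A, B, C} : Finset T)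
  rw [h3, ← Nat.card_eq_fintype_card, h] at this
  omega

theorem perm_cube_eq_one_of_sign {γ : Type*} [Fintype γ] [DecidableEq γ]
    (h3 : Fintype.card γ ≤ 3) (σ : Perm γ) (hσ : sign σ = 1) : σ ^ 3 = 1 := by
  rcases Nat.lt_or_ge (Fintype.card γ) 2 with h | h
  · haveI : Subsingleton γ := Fintype.card_le_one_iff_subsingleton.mp (by omega)
    exact Subsingleton.elim _ _
  · haveI : Nontrivial γ := Fintype.one_lt_card_iff_nontrivial.mp (by omega)
    have h1 := two_mul_card_alternatingGroup (α := γ)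
    rw [Fintype.card_perm] at h1
    have h2 : Fintype.card (alternatingGroup γ) ∣ 3 := by
      have hc : Fintype.card γ = 2 ∨ Fintype.card γ = 3 := by omega
      rcases hc with hc | hc
      · rw [hc, Nat.factorial_two] at h1
        have : Fintype.card (alternatingGroup γ) = 1 := by omega
        rw [this]; norm_num
      · rw [hc, show Nat.factorial 3 = 6 from rfl] at h1
        have : Fintype.card (alternatingGroup γ) = 3 := by omega
        rw [this]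
    have h4 : (⟨σ, mem_alternatingGroup.mpr hσ⟩ : alternatingGroup γ) ^ 3 = 1 := by
      obtain ⟨c, hc⟩ := h2
      rw [hc, pow_mul, pow_card_eq_one, one_pow]
    exact congrArg Subtype.val h4

theorem perm_eq_one_of_sign_card_le_two {γ : Type*} [Fintype γ] [DecidableEq γ]
    (h2 : Fintype.card γ ≤ 2) (σ : Perm γ) (hσ : sign σ = 1) : σ = 1 := by
  have h3 := perm_cube_eq_one_of_sign (by omega) σ hσ
  have h4 : σ ^ 2 = 1 := by
    have h5 : Fintype.card (Perm γ) ∣ 2 := by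
      rw [Fintype.card_perm]
      have hc : Fintype.card γ = 0 ∨ Fintype.card γ = 1 ∨ Fintype.card γ = 2 := by omega
      rcases hc with hc | hc | hc <;> rw [hc] <;> decide
    obtain ⟨c, hc⟩ := h5
    rw [hc, pow_mul, pow_card_eq_one, one_pow]
  have h5 : σ ^ 3 = σ ^ 2 * σ := pow_succ σ 2
  rw [h3, h4, one_mul] at h5
  exact h5.symm

theorem perm_cube_fixes_point {γ : Type*} [Fintype γ] [DecidableEq γ]
    (h3 : Fintype.card γ = 3) (σ : Perm γ) : ∃ O : γ, (σ ^ 3) O = O := by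
  have h1 : (σ ^ 2) ^ 3 = 1 :=
    perm_cube_eq_one_of_sign h3.le _ (by rw [map_pow]; exact Int.units_sq _)
  have h2 : (σ ^ 3) ^ 2 ^ 1 = 1 := by
    rw [pow_one, ← pow_mul, show 3 * 2 = 2 * 3 by norm_num, pow_mul]; exact h1
  haveI : Fact (Nat.Prime 2) := ⟨Nat.prime_two⟩
  exact Equiv.Perm.exists_fixed_point_of_prime (p := 2) (n := 1) (by rw [h3]; norm_num) h2

theorem pow_apply_of_swap_pair {β : Type*} (θ : Perm β) (a b : β) (h1 : θ a = b)
    (h2 : θ b = a) {m : ℕ} (hm : Odd m) : (θ ^ m) a = b := by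
  obtain ⟨j, rfl⟩ := hm
  have h3 : (θ ^ 2) b = b := by rw [pow_two, Perm.mul_apply, h2, h1]
  rw [pow_succ, Perm.mul_apply, h1, pow_mul]
  exact Equiv.Perm.pow_apply_eq_self_of_apply_eq_self h3 j

theorem pow_apply_ne_of_three {β : Type*} (θ : Perm β) (a b c : β) (hab : a ≠ b)
    (hac : a ≠ c) (h1 : θ a = c) (h2 : θ c = b) (h3 : θ b = a) {m : ℕ} (hm : ¬ 3 ∣ m) :
    (θ ^ m) a ≠ a := by
  have h33 : (θ ^ 3) a = a := by
    rw [pow_succ, pow_two, Perm.mul_apply, Perm.mul_apply, h1, h2, h3]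
  have hq : ∀ q : ℕ, (θ ^ (3 * q)) a = a := fun q => by
    rw [pow_mul]; exact Equiv.Perm.pow_apply_eq_self_of_apply_eq_self h33 q
  have hm' : m = m % 3 + 3 * (m / 3) := by omega
  rw [hm', pow_add, Perm.mul_apply, hq]
  have : m % 3 = 1 ∨ m % 3 = 2 := by omega
  rcases this with h | h
  · rw [h, pow_one, h1]; exact hac.symm
  · rw [h, pow_two, Perm.mul_apply, h1, h2]; exact hab.symm

/-- A non-trivial normal subgroup of a symmetric group of degree at least `5` contains the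
alternating group. -/
theorem alternatingGroup_le_of_normal_ne_bot {β : Type*} [Fintype β] [DecidableEq β]
    (h5 : 5 ≤ Fintype.card β) (N : Subgroup (Perm β)) (hN : N.Normal) (hne : N ≠ ⊥) :
    alternatingGroup β ≤ N := by
  obtain ⟨m, hmN, hm1⟩ : ∃ m ∈ N, m ≠ 1 := by
    by_contra h; push Not at h
    exact hne ((Subgroup.eq_bot_iff_forall _).mpr h)
  obtain ⟨b, hb⟩ : ∃ b, m b ≠ b := by
    by_contra h; push Not at h; exact hm1 (Perm.ext h)
  obtain ⟨c, hcb, hcb'⟩ : ∃ c, c ≠ b ∧ c ≠ m b := by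
    by_contra h; push Not at h
    have h1 : (Finset.univ : Finset β) ⊆ {b, m b} := fun c _ => by
      by_cases hc : c = b
      · simp [hc]
      · simp [h c hc]
    have h3 := Finset.card_le_card h1
    have h2 : ({b, m b} : Finset β).card ≤ 2 := Finset.card_le_two
    rw [Finset.card_univ] at h3; omega
  obtain ⟨τ, hτ⟩ : ∃ τ : Perm β, τ = swap b c := ⟨_, rfl⟩
  obtain ⟨z, hz⟩ : ∃ z : Perm β, z = τ * m * τ⁻¹ * m⁻¹ := ⟨_, rfl⟩
  have hzN : z ∈ N := by rw [hz]; exact N.mul_mem (hN.conj_mem m hmN τ) (N.inv_mem hmN)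
  have hzA : z ∈ alternatingGroup β := by
    rw [mem_alternatingGroup, hz, map_mul, map_mul, map_mul, map_inv, map_inv, mul_assoc,
      ← mul_inv, mul_inv_cancel]
  have hz1 : z ≠ 1 := by
    intro h
    have h1 : τ * m = m * τ := by
      have h0 : τ * m * τ⁻¹ * m⁻¹ * m * τ = 1 * m * τ := by rw [← hz, h]
      simpa [mul_assoc] using h0
    have h2 := congrArg (fun f : Perm β => f b) h1
    simp only [Perm.mul_apply] at h2
    rw [hτ, swap_apply_left, swap_apply_of_ne_of_ne hb (Ne.symm hcb')] at h2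
    exact hcb (m.injective h2).symm
  haveI := alternatingGroup.isSimpleGroup (α := β) (by rw [Nat.card_eq_fintype_card]; exact h5)
  have hnorm : (N.subgroupOf (alternatingGroup β)).Normal := inferInstance
  rcases hnorm.eq_bot_or_eq_top with h | h
  · exfalso
    have h1 : (⟨z, hzA⟩ : alternatingGroup β) ∈ N.subgroupOf (alternatingGroup β) :=
      Subgroup.mem_subgroupOf.mpr hzN
    rw [h, Subgroup.mem_bot] at h1
    exact hz1 (congrArg Subtype.val h1)
  · exact Subgroup.subgroupOf_eq_top.mp h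

end General

section Cores

variable {Λ β γ : Type*} [Group Λ] [Fintype β] [DecidableEq β] [Fintype γ] [DecidableEq γ]

theorem viaEmb_apply {m : ℕ} (e : Fin m ↪ β) (σ : Perm (Fin m)) (i : Fin m) :
    Equiv.Perm.viaEmbeddingHom e σ (e i) = e (σ i) := by
  rw [Equiv.Perm.viaEmbeddingHom_apply, Equiv.Perm.viaEmbedding_apply]

/-- Abstract core of the case `r ≥ 5`. -/
theorem miller_coreB (ρ : Λ →* Perm β) (ψ : Λ →* Perm γ) (hρ : Function.Surjective ρ)
    (h5 : 5 ≤ Fintype.card β) (hlt : Fintype.card γ < Fintype.card β) :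
    ∃ (x y : Λ) (a b : β), ψ x = 1 ∧ ψ y = 1 ∧ a ≠ b ∧
      ρ (x⁻¹ * y⁻¹ * x * y) a = b ∧ ρ (x⁻¹ * y⁻¹ * x * y) b = a := by
  obtain ⟨K, hK⟩ : ∃ K : Subgroup Λ, K = ψ.ker := ⟨_, rfl⟩
  have hKn : (K.map ρ).Normal := by
    rw [hK]; exact Subgroup.Normal.map (MonoidHom.normal_ker ψ) ρ hρ
  have hne : K.map ρ ≠ ⊥ := by
    intro h
    have h1 : (K.map ρ).index ∣ K.index := Subgroup.index_map_dvd K hρ
    rw [h, Subgroup.index_bot, hK, Subgroup.index_ker, Nat.card_eq_fintype_card,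
      Fintype.card_perm] at h1
    have h2 : Nat.card ψ.range ∣ Nat.card (Perm γ) := Subgroup.card_subgroup_dvd_card _
    rw [Nat.card_eq_fintype_card (α := Perm γ), Fintype.card_perm] at h2
    have h3 := Nat.le_of_dvd (Nat.factorial_pos _) (h1.trans h2)
    have h4 : (Fintype.card γ).factorial ≤ (Fintype.card β - 1).factorial :=
      Nat.factorial_le (by omega)
    have h6 := Nat.mul_factorial_pred (n := Fintype.card β) (by omega)
    have h7 := Nat.factorial_pos (Fintype.card β - 1)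
    nlinarith
  have hAlt := alternatingGroup_le_of_normal_ne_bot h5 (K.map ρ) hKn hne
  obtain ⟨e⟩ := Function.Embedding.nonempty_of_card_le (α := Fin 4) (β := β)
    (by rw [Fintype.card_fin]; omega)
  have hmem : ∀ σ : Perm (Fin 4), sign σ = 1 → ∃ x : Λ, ψ x = 1 ∧
      ρ x = Equiv.Perm.viaEmbeddingHom e σ := by
    intro σ hσ
    have h1 : Equiv.Perm.viaEmbeddingHom e σ ∈ alternatingGroup β := by
      rw [mem_alternatingGroup, Equiv.Perm.viaEmbeddingHom_apply]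
      unfold Equiv.Perm.viaEmbedding
      rw [sign_extendDomain]
      exact hσ
    obtain ⟨x, hx, hxρ⟩ := Subgroup.mem_map.mp (hAlt h1)
    rw [hK] at hx
    exact ⟨x, MonoidHom.mem_ker.mp hx, hxρ⟩
  obtain ⟨x, hx, hxρ⟩ := hmem (swap 1 0 * swap 1 2) (by decide)
  obtain ⟨y, hy, hyρ⟩ := hmem (swap 1 0 * swap 1 3) (by decide)
  have hw : ρ (x⁻¹ * y⁻¹ * x * y) = Equiv.Perm.viaEmbeddingHom e
      ((swap 1 0 * swap 1 2)⁻¹ * (swap 1 0 * swap 1 3)⁻¹ * (swap 1 0 * swap 1 2) *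
        (swap 1 0 * swap 1 3)) := by
    simp only [map_mul, map_inv, hxρ, hyρ]
  have e0 : ((swap 1 0 * swap 1 2)⁻¹ * (swap 1 0 * swap 1 3)⁻¹ * (swap 1 0 * swap 1 2) *
        (swap 1 0 * swap 1 3) : Perm (Fin 4)) 0 = 1 := by decide +kernel
  have e1 : ((swap 1 0 * swap 1 2)⁻¹ * (swap 1 0 * swap 1 3)⁻¹ * (swap 1 0 * swap 1 2) *
        (swap 1 0 * swap 1 3) : Perm (Fin 4)) 1 = 0 := by decide +kernel
  refine ⟨x, y, e 0, e 1, hx, hy, e.injective.ne (by decide), ?_, ?_⟩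
  · rw [hw, viaEmb_apply, e0]
  · rw [hw, viaEmb_apply, e1]

/-- Abstract core of the case `r = 4`. -/
theorem miller_coreC4 (ρ : Λ →* Perm β) (ψ : Λ →* Perm γ) (hρ : Function.Surjective ρ)
    (h4 : 4 ≤ Fintype.card β) (h3 : Fintype.card γ ≤ 3) :
    ∃ (t k₀ : Λ) (a c : β), ψ k₀ = 1 ∧ a ≠ c ∧
      ρ (t⁻¹ * k₀⁻¹ * t * k₀) a = c ∧ ρ (t⁻¹ * k₀⁻¹ * t * k₀) c = a ∧
      (Fintype.card γ = 3 → ∃ O : γ, ψ t O = O) := by
  obtain ⟨e⟩ := Function.Embedding.nonempty_of_card_le (α := Fin 4) (β := β)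
    (by rw [Fintype.card_fin]; omega)
  obtain ⟨x₁, hx₁⟩ := hρ (Equiv.Perm.viaEmbeddingHom e (swap 0 1 * swap 2 3))
  obtain ⟨n, hn⟩ := hρ (Equiv.Perm.viaEmbeddingHom e (swap 1 2))
  obtain ⟨t₀, ht₀⟩ := hρ (Equiv.Perm.viaEmbeddingHom e (swap 0 2))
  have hfix : Fintype.card γ = 3 → ∃ O : γ, ψ (t₀ ^ 3) O = O := fun h => by
    rw [map_pow]; exact perm_cube_fixes_point h _
  by_cases hs : sign (ψ x₁) = 1
  · have hw : ρ ((t₀ ^ 3)⁻¹ * (x₁ ^ 3)⁻¹ * t₀ ^ 3 * x₁ ^ 3) = Equiv.Perm.viaEmbeddingHom e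
        (((swap 0 2) ^ 3)⁻¹ * ((swap 0 1 * swap 2 3) ^ 3)⁻¹ * (swap 0 2) ^ 3 *
          (swap 0 1 * swap 2 3) ^ 3) := by
      simp only [map_mul, map_inv, map_pow, hx₁, ht₀]
    have e0 : ((((swap 0 2) ^ 3)⁻¹ * ((swap 0 1 * swap 2 3) ^ 3)⁻¹ * (swap 0 2) ^ 3 *
          (swap 0 1 * swap 2 3) ^ 3 : Perm (Fin 4))) 0 = 2 := by decide +kernel
    have e2 : ((((swap 0 2) ^ 3)⁻¹ * ((swap 0 1 * swap 2 3) ^ 3)⁻¹ * (swap 0 2) ^ 3 *
          (swap 0 1 * swap 2 3) ^ 3 : Perm (Fin 4))) 2 = 0 := by decide +kernel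
    refine ⟨t₀ ^ 3, x₁ ^ 3, e 0, e 2, ?_, e.injective.ne (by decide), ?_, ?_, hfix⟩
    · rw [map_pow]; exact perm_cube_eq_one_of_sign h3 _ hs
    · rw [hw, viaEmb_apply, e0]
    · rw [hw, viaEmb_apply, e2]
  · have hs' : sign (ψ x₁) = -1 := (Int.units_eq_one_or _).resolve_left hs
    have hw : ρ ((t₀ ^ 3)⁻¹ * ((x₁ * (n * x₁ * n⁻¹)) ^ 3)⁻¹ * t₀ ^ 3 *
        (x₁ * (n * x₁ * n⁻¹)) ^ 3) = Equiv.Perm.viaEmbeddingHom e
        (((swap 0 2) ^ 3)⁻¹ * (((swap 0 1 * swap 2 3) * (swap 1 2 * (swap 0 1 * swap 2 3) *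
          (swap 1 2)⁻¹)) ^ 3)⁻¹ * (swap 0 2) ^ 3 *
          ((swap 0 1 * swap 2 3) * (swap 1 2 * (swap 0 1 * swap 2 3) * (swap 1 2)⁻¹)) ^ 3) := by
      simp only [map_mul, map_inv, map_pow, hx₁, ht₀, hn]
    have e0 : ((((swap 0 2) ^ 3)⁻¹ * (((swap 0 1 * swap 2 3) * (swap 1 2 *
          (swap 0 1 * swap 2 3) * (swap 1 2)⁻¹)) ^ 3)⁻¹ * (swap 0 2) ^ 3 *
          ((swap 0 1 * swap 2 3) * (swap 1 2 * (swap 0 1 * swap 2 3) * (swap 1 2)⁻¹)) ^ 3 :
          Perm (Fin 4))) 0 = 2 := by decide +kernel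
    have e2 : ((((swap 0 2) ^ 3)⁻¹ * (((swap 0 1 * swap 2 3) * (swap 1 2 *
          (swap 0 1 * swap 2 3) * (swap 1 2)⁻¹)) ^ 3)⁻¹ * (swap 0 2) ^ 3 *
          ((swap 0 1 * swap 2 3) * (swap 1 2 * (swap 0 1 * swap 2 3) * (swap 1 2)⁻¹)) ^ 3 :
          Perm (Fin 4))) 2 = 0 := by decide +kernel
    have key : ∀ s t : ℤˣ, s * (t * s * t⁻¹) = s * s := fun s t => by
      rw [mul_comm t s, mul_assoc, mul_inv_cancel, mul_one]
    refine ⟨t₀ ^ 3, (x₁ * (n * x₁ * n⁻¹)) ^ 3, e 0, e 2, ?_, e.injective.ne (by decide),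
      ?_, ?_, hfix⟩
    · rw [map_pow]
      apply perm_cube_eq_one_of_sign h3
      simp only [map_mul, map_inv]
      rw [key, Int.units_mul_self]
    · rw [hw, viaEmb_apply, e0]
    · rw [hw, viaEmb_apply, e2]

/-- Abstract core of the case `r = 3`, `k = 2`. -/
theorem miller_coreC3 (ρ : Λ →* Perm β) (ψ : Λ →* Perm γ) (hρ : Function.Surjective ρ)
    (h3 : 3 ≤ Fintype.card β) (h2 : Fintype.card γ ≤ 2) :
    ∃ (x y : Λ) (a b c : β), a ≠ b ∧ a ≠ c ∧ ψ (x⁻¹ * y⁻¹ * x * y) = 1 ∧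
      ρ (x⁻¹ * y⁻¹ * x * y) a = c ∧ ρ (x⁻¹ * y⁻¹ * x * y) c = b ∧
      ρ (x⁻¹ * y⁻¹ * x * y) b = a := by
  obtain ⟨e⟩ := Function.Embedding.nonempty_of_card_le (α := Fin 3) (β := β)
    (by rw [Fintype.card_fin]; omega)
  obtain ⟨x, hx⟩ := hρ (Equiv.Perm.viaEmbeddingHom e (swap 0 1))
  obtain ⟨y, hy⟩ := hρ (Equiv.Perm.viaEmbeddingHom e (swap 1 2))
  have hw : ρ (x⁻¹ * y⁻¹ * x * y) = Equiv.Perm.viaEmbeddingHom e
      ((swap 0 1)⁻¹ * (swap 1 2)⁻¹ * swap 0 1 * swap 1 2) := by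
    simp only [map_mul, map_inv, hx, hy]
  have e0 : ((swap 0 1)⁻¹ * (swap 1 2)⁻¹ * swap 0 1 * swap 1 2 : Perm (Fin 3)) 0 = 2 := by
    decide +kernel
  have e2 : ((swap 0 1)⁻¹ * (swap 1 2)⁻¹ * swap 0 1 * swap 1 2 : Perm (Fin 3)) 2 = 1 := by
    decide +kernel
  have e1 : ((swap 0 1)⁻¹ * (swap 1 2)⁻¹ * swap 0 1 * swap 1 2 : Perm (Fin 3)) 1 = 0 := by
    decide +kernel
  have key : ∀ s t : ℤˣ, s⁻¹ * t⁻¹ * s * t = 1 := fun s t => by
    rw [mul_assoc, ← mul_inv, inv_mul_cancel]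
  refine ⟨x, y, e 0, e 1, e 2, e.injective.ne (by decide), e.injective.ne (by decide), ?_,
    ?_, ?_, ?_⟩
  · apply perm_eq_one_of_sign_card_le_two h2
    simp only [map_mul, map_inv]
    exact key _ _
  · rw [hw, viaEmb_apply, e0]
  · rw [hw, viaEmb_apply, e2]
  · rw [hw, viaEmb_apply, e1]

end Cores

end Cfsg.Agent.Helper48
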