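import Cfsg.Agent.Helper48.MillerC

set_option autoImplicit false
set_option linter.unusedSectionVars false
set_option linter.unusedVariables false
set_option linter.style.haveILetI false

/-!
Miller's theorem, part D: permutation-group lemmas (transitivity of pointwise stabilisers,
`p`-cycles, the finishing lemma, surjectivity of the action of the normaliser on the fixed
points).
-/

namespace Cfsg.Agent.Helper48

open Equiv Equiv.Perm MulAction
open scoped Pointwise

variable {α : Type*} [Fintype α] [DecidableEq α]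

theorem fixG_trans (G : Subgroup (Perm α)) (Δ : Finset α)
    (hG : IsMultiplyPretransitive G α (Δ.card + 1)) (hn : Δ.card + 1 ≤ Fintype.card α)
    (γ γ' : α) (hγ : γ ∉ Δ) (hγ' : γ' ∉ Δ) : ∃ h ∈ fixG G Δ, h γ = γ' := by
  obtain ⟨g, hg, hgS⟩ := mt_exists_map G hG hn (insert γ Δ)
    (by rw [Finset.card_insert_of_notMem hγ])
    (fun x => if x = γ then γ' else x) (by
      intro x hx y hy hxy
      simp only [Finset.coe_insert, Set.mem_insert_iff, Finset.mem_coe] at hx hy
      by_cases hxγ : x = γ <;> by_cases hyγ : y = γ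
      · rw [hxγ, hyγ]
      · exfalso
        simp only [if_pos hxγ, if_neg hyγ] at hxy
        rcases hy with hy | hy
        · exact hyγ hy
        · exact hγ' (hxy ▸ hy)
      · exfalso
        simp only [if_neg hxγ, if_pos hyγ] at hxy
        rcases hx with hx | hx
        · exact hxγ hx
        · exact hγ' (hxy ▸ hx)
      · simpa only [if_neg hxγ, if_neg hyγ] using hxy)
  refine ⟨g, ⟨hg, fun x hx => ?_⟩, ?_⟩
  · have h1 := hgS x (Finset.mem_insert_of_mem hx)
    rw [h1, if_neg]; rintro rfl; exact hγ hx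
  · have h1 := hgS γ (Finset.mem_insert_self _ _)
    rw [h1, if_pos rfl]

/-- An element of `P` whose moved points all lie in a single orbit of length `p` is a
`p`-cycle. -/
theorem pcycle_of_support_in_orbit {p : ℕ} (hp : p.Prime) (P : Subgroup (Perm α))
    (hP : IsPGroup p P) (γ : α) (hγ : Nat.card (orbit (↥P) γ) = p) (u : Perm α) (hu : u ∈ P)
    (hne : u ≠ 1) (hsupp : ∀ x, u x ≠ x → x ∈ orbit (↥P) γ) :
    u.IsCycle ∧ u.support.card = p := by
  obtain ⟨x, hx⟩ : ∃ x, u x ≠ x := by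
    by_contra h; push Not at h; exact hne (Perm.ext h)
  have hxO := hsupp x hx
  have hOx : orbit (↥P) x = orbit (↥P) γ := orbit_eq_iff.mpr hxO
  have hγx : Nat.card (orbit (↥P) x) = p := by rw [hOx]; exact hγ
  obtain ⟨_, hpow⟩ := orbit_cyclic hp P hP x hγx u hu hx
  have hup : u ^ p = 1 := by
    ext y
    by_cases hy : u y = y
    · rw [Perm.one_apply]; exact Equiv.Perm.pow_apply_eq_self_of_apply_eq_self hy p
    · rw [Perm.one_apply]; exact hpow y (hOx ▸ hsupp y hy)
  haveI : Fact p.Prime := ⟨hp⟩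
  have hord : orderOf u = p := orderOf_eq_prime hup hne
  have hcard_le : u.support.card ≤ p := by
    have h1 : (u.support : Set α) ⊆ orbit (↥P) γ := fun y hy => hsupp y (by simpa using hy)
    have h2 := Set.ncard_le_ncard h1 (Set.toFinite _)
    rw [Set.ncard_coe_finset, ← Nat.card_coe_set_eq, hγ] at h2
    exact h2
  have hcyc : u.IsCycle := isCycle_of_prime_order (by rw [hord]; exact hp)
    (by rw [hord]; have := hp.pos; omega)
  exact ⟨hcyc, by rw [← hcyc.orderOf, hord]⟩

theorem perm_conj_swap (h : Perm α) (x y : α) : h * swap x y * h⁻¹ = swap (h x) (h y) := by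
  rw [Equiv.mul_swap_eq_swap_mul, mul_inv_cancel_right]

theorem swap_comm_of_disjoint {x y z w : α} (hzx : z ≠ x) (hzy : z ≠ y) (hwx : w ≠ x)
    (hwy : w ≠ y) : swap x y * swap z w = swap z w * swap x y := by
  rw [Equiv.mul_swap_eq_swap_mul, swap_apply_of_ne_of_ne hzx hzy,
    swap_apply_of_ne_of_ne hwx hwy]

/-- The finishing lemma: a multiply transitive group containing a non-identity element
supported on a small set contains the alternating group. -/
theorem miller_finish (G : Subgroup (Perm α)) {m : ℕ} (hG : IsMultiplyPretransitive G α m)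
    (hm4 : 4 ≤ m) (hmn : m ≤ Fintype.card α) (h5 : 5 ≤ Fintype.card α)
    (Δ : Finset α) (hΔ : Δ.card ≤ m) (hΔ3 : 3 ≤ Δ.card)
    (y₀ : Perm α) (hy₀ : y₀ ∈ G) (hsupp : ∀ x, x ∉ Δ → y₀ x = x) (hne : y₀ ≠ 1) :
    alternatingGroup α ≤ G := by
  have hprim : IsPreprimitive G α := isPreprimitive_of_is_two_pretransitive
    (isMultiplyPretransitive_of_le (n := m) (by omega)
      (by rw [Nat.card_eq_fintype_card]; exact hmn))
  obtain ⟨a, ha⟩ : ∃ a, y₀ a ≠ a := by
    by_contra h; push Not at h; exact hne (Perm.ext h)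
  have haΔ : a ∈ Δ := by by_contra h; exact ha (hsupp a h)
  have hpres : ∀ x ∈ Δ, y₀ x ∈ Δ := by
    intro x hx
    by_contra h
    have h1 := hsupp _ h
    have h2 := y₀.injective h1
    rw [h2] at h
    exact h hx
  obtain ⟨b, hb⟩ : ∃ b, b = y₀ a := ⟨_, rfl⟩
  have hbΔ : b ∈ Δ := hb ▸ hpres a haΔ
  have hba : b ≠ a := hb ▸ ha
  obtain ⟨c, hcΔ, hca, hcb⟩ : ∃ c ∈ Δ, c ≠ a ∧ c ≠ b := by
    by_contra h; push Not at h
    have h1 : Δ ⊆ {a, b} := fun c hc => by
      by_cases hca : c = a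
      · simp [hca]
      · simp [h c hc hca]
    have h3 := Finset.card_le_card h1
    have h2 : ({a, b} : Finset α).card ≤ 2 := Finset.card_le_two
    omega
  obtain ⟨n, hnG, hn⟩ := mt_exists_map G hG hmn Δ hΔ (swap b c) ((swap b c).injective.injOn)
  have hτΔ : ∀ x ∈ Δ, swap b c x ∈ Δ := by
    intro x hx
    by_cases hxb : x = b
    · rw [hxb, swap_apply_left]; exact hcΔ
    · by_cases hxc : x = c
      · rw [hxc, swap_apply_right]; exact hbΔ
      · rw [swap_apply_of_ne_of_ne hxb hxc]; exact hx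
  have hconj : n * y₀ * n⁻¹ = swap b c * y₀ * (swap b c)⁻¹ := by
    ext x
    simp only [Perm.mul_apply, swap_inv]
    by_cases hx : x ∈ Δ
    · have h1 : n⁻¹ x = swap b c x := by
        rw [Perm.inv_eq_iff_eq, hn _ (hτΔ x hx), swap_apply_self]
      rw [h1, hn _ (hpres _ (hτΔ x hx))]
    · have h1 : n⁻¹ x ∉ Δ := by
        intro h
        have h2 := hn _ h
        rw [perm_apply_inv'] at h2
        exact hx (h2 ▸ hτΔ _ h)
      have h3 : swap b c x = x :=
        swap_apply_of_ne_of_ne (by rintro rfl; exact hx hbΔ) (by rintro rfl; exact hx hcΔ)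
      rw [hsupp _ h1, perm_apply_inv', h3, hsupp _ hx, h3]
  obtain ⟨b', hb'⟩ : ∃ b', b' = y₀ b := ⟨_, rfl⟩
  obtain ⟨c', hc'⟩ : ∃ c', c' = y₀ c := ⟨_, rfl⟩
  have hzG : swap b c * swap b' c' ∈ G := by
    have h1 : n * y₀ * n⁻¹ * y₀⁻¹ ∈ G :=
      G.mul_mem (G.mul_mem (G.mul_mem hnG hy₀) (G.inv_mem hnG)) (G.inv_mem hy₀)
    have h2 : n * y₀ * n⁻¹ * y₀⁻¹ = swap b c * swap b' c' := by
      rw [hconj, swap_inv, mul_assoc, mul_assoc, ← mul_assoc y₀, perm_conj_swap, hb', hc']
    rwa [h2] at h1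
  have hb'b : b' ≠ b := by
    rw [hb']; intro h
    rw [hb] at h
    exact ha (y₀.injective h)
  have hc'b : c' ≠ b := by
    rw [hc', hb]; intro h; exact hca (y₀.injective h)
  have hc'b' : c' ≠ b' := by
    rw [hc', hb']; intro h; exact hcb (y₀.injective h)
  have h3 : ∃ z ∈ G, IsThreeCycle z := by
    by_cases h1 : c' = c
    · refine ⟨_, hzG, ?_⟩
      rw [h1, swap_comm b c, swap_comm b' c]
      exact isThreeCycle_swap_mul_swap_same hcb (by rw [← h1]; exact hc'b') (Ne.symm hb'b)
    · by_cases h2 : b' = c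
      · refine ⟨_, hzG, ?_⟩
        rw [h2, swap_comm b c]
        exact isThreeCycle_swap_mul_swap_same hcb (Ne.symm h1) (Ne.symm hc'b)
      · obtain ⟨e, he⟩ : ∃ e, e ∉ ({b, c, b', c'} : Finset α) := by
          by_contra h; push Not at h
          have h4 : (Finset.univ : Finset α) ⊆ {b, c, b', c'} := fun x _ => h x
          have h5' := Finset.card_le_card h4
          have h6 : ({b, c, b', c'} : Finset α).card ≤ 4 := Finset.card_le_four
          rw [Finset.card_univ] at h5'; omega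
        simp only [Finset.mem_insert, Finset.mem_singleton, not_or] at he
        obtain ⟨heb, hec, heb', hec'⟩ := he
        obtain ⟨h, hhG, hh⟩ := mt_exists_map G hG hmn {b, c, b', c'}
          (le_trans Finset.card_le_four hm4) (swap c' e) ((swap c' e).injective.injOn)
        have hhb : h b = b := by
          rw [hh b (by simp), swap_apply_of_ne_of_ne (Ne.symm hc'b) (Ne.symm heb)]
        have hhc : h c = c := by
          rw [hh c (by simp), swap_apply_of_ne_of_ne (Ne.symm h1) (Ne.symm hec)]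
        have hhb' : h b' = b' := by
          rw [hh b' (by simp), swap_apply_of_ne_of_ne (Ne.symm hc'b') (Ne.symm heb')]
        have hhc' : h c' = e := by rw [hh c' (by simp), swap_apply_left]
        have hz2 : h * (swap b c * swap b' c') * h⁻¹ = swap b c * swap b' e := by
          have h0 : h * (swap b c * swap b' c') * h⁻¹ =
              (h * swap b c * h⁻¹) * (h * swap b' c' * h⁻¹) := by group
          rw [h0, perm_conj_swap, perm_conj_swap, hhb, hhc, hhb', hhc']
        have hcomm : swap b c * swap b' c' = swap b' c' * swap b c :=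
          swap_comm_of_disjoint hb'b h2 hc'b h1
        have hprod : (swap b c * swap b' c') * (swap b c * swap b' e) =
            swap b' c' * swap b' e := by
          rw [hcomm, mul_assoc, ← mul_assoc (swap b c), swap_mul_self, one_mul]
        refine ⟨(swap b c * swap b' c') * (swap b c * swap b' e),
          G.mul_mem hzG (hz2 ▸ G.mul_mem (G.mul_mem hhG hzG) (G.inv_mem hhG)), ?_⟩
        rw [hprod]
        exact isThreeCycle_swap_mul_swap_same (Ne.symm hc'b') (Ne.symm heb') (Ne.symm hec')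
  obtain ⟨z, hzG', hz3⟩ := h3
  exact alternatingGroup_le_of_isPreprimitive_of_isThreeCycle_mem hprim hz3 hzG'

/-- An element of `P` fixing a point of an orbit of length `p` fixes the orbit pointwise. -/
theorem fix_orbit_of_fix_point {p : ℕ} (hp : p.Prime) (P : Subgroup (Perm α))
    (hP : IsPGroup p P) (γ : α) (hγ : Nat.card (orbit (↥P) γ) = p) (u : Perm α) (hu : u ∈ P)
    (huγ : u γ = γ) : ∀ o ∈ orbit (↥P) γ, u o = o := by
  obtain ⟨u₁, hu₁, hmove⟩ := exists_moving P γ hp hγ
  obtain ⟨hcyc, _⟩ := orbit_cyclic hp P hP γ hγ u₁ hu₁ hmove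
  have hγO : γ ∈ orbit (↥P) γ := mem_orbit_self γ
  obtain ⟨j, hj⟩ := hcyc u hu
  intro o ho
  obtain ⟨v, hv, rfl⟩ := (mem_orbit_subgroup P γ o).mp ho
  obtain ⟨i, hi⟩ := hcyc v hv
  have h1 := hj _ ho
  have h2 := hi γ hγO
  have h3 := hj γ hγO
  rw [huγ] at h3
  rw [h1, h2, ← Perm.mul_apply, ← zpow_add, add_comm, zpow_add, Perm.mul_apply, ← h3]

/-- The subgroup `N_G(P)`. -/
def millerL (G P : Subgroup (Perm α)) : Subgroup (Perm α) :=
  G ⊓ Subgroup.normalizer (P : Set (Perm α))

theorem millerL_le (G P : Subgroup (Perm α)) :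
    millerL G P ≤ Subgroup.normalizer (P : Set (Perm α)) := inf_le_right

theorem millerL_le_left (G P : Subgroup (Perm α)) : millerL G P ≤ G := inf_le_left

/-- The action of `N_G(P)` on the fixed points of `P` is the full symmetric group. -/
theorem fixHom_surjective (G : Subgroup (Perm α)) {p m : ℕ} (hp : p.Prime) (Δ : Finset α)
    (hG : IsMultiplyPretransitive G α m) (hm : m ≤ Fintype.card α) (hΔm : Δ.card ≤ m)
    (P : Subgroup (Perm α)) (hPH : P ≤ fixG G Δ)
    (hPc : Nat.card P = p ^ (Nat.card (fixG G Δ)).factorization p)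
    (hfix : ∀ x, (∀ u ∈ P, u x = x) ↔ x ∈ Δ) :
    Function.Surjective (fixHom (millerL G P) P (millerL_le G P)) := by
  classical
  intro σ
  have hmem : ∀ x, x ∈ Δ → x ∈ millerFixSub (millerL G P) P (millerL_le G P) :=
    fun x hx => (hfix x).mpr hx
  let f : α → α := fun x =>
    if h : x ∈ millerFixSub (millerL G P) P (millerL_le G P) then
      ((σ ⟨x, h⟩ : millerFixSub (millerL G P) P (millerL_le G P)) : α) else x
  have hfΔ : ∀ x (hx : x ∈ Δ), f x = σ ⟨x, hmem x hx⟩ := fun x hx => dif_pos (hmem x hx)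
  have hinj : Set.InjOn f Δ := by
    intro x hx y hy hxy
    rw [hfΔ x hx, hfΔ y hy] at hxy
    have h1 := σ.injective (Subtype.ext hxy)
    exact congrArg Subtype.val h1
  obtain ⟨g, hgG, hg⟩ := mt_exists_map G hG hm Δ hΔm f hinj
  obtain ⟨n, hnG, hnN, hn⟩ := witt_perm G hp Δ P hPH hPc g hgG (by
    intro x hx u hu
    rw [hg x hx, hfΔ x hx]
    exact (σ ⟨x, hmem x hx⟩).2 u hu)
  refine ⟨⟨n, hnG, hnN⟩, ?_⟩
  ext a
  rw [fixHom_apply]
  have haΔ : a.1 ∈ Δ := (hfix _).mp a.2
  show n a.1 = _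
  rw [hn _ haΔ, hg _ haΔ, hfΔ _ haΔ]

theorem orbHom_one_mem (L P : Subgroup (Perm α))
    (hL : L ≤ Subgroup.normalizer (P : Set (Perm α))) (n : ↥L) (h : orbHom L P hL n = 1)
    (γ : α) (hγ : ∃ u ∈ P, u γ ≠ γ) :
    (∀ o ∈ orbit (↥P) γ, n.1 o ∈ orbit (↥P) γ) ∧
      (∀ o ∈ orbit (↥P) γ, n.1⁻¹ o ∈ orbit (↥P) γ) := by
  have h1 : orbHom L P hL n (⟨orbit (↥P) γ, γ, hγ, rfl⟩ : ↥(movedOrbits L P hL)) =
      ⟨orbit (↥P) γ, γ, hγ, rfl⟩ := by rw [h]; rfl
  exact ⟨orbHom_fix_mem L P hL n _ h1, orbHom_fix_mem_inv L P hL n _ h1⟩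

end Cfsg.Agent.Helper48
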