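import Cfsg.Agent.Helper48.MillerD

set_option autoImplicit false
set_option linter.unusedSectionVars false
set_option linter.unusedVariables false
set_option linter.style.haveILetI false

/-!
Miller's theorem, part E: the common setup (`Δ` a set of `r` points, `P` a Sylow `p`-subgroup
of the pointwise stabiliser of `Δ`) and the cases `r ≥ 5`, `r = 4` and `r = 3, p ≠ 3`.
-/

namespace Cfsg.Agent.Helper48

open Equiv Equiv.Perm MulAction
open scoped Pointwise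

variable {α : Type*} [Fintype α] [DecidableEq α]

/-- The common setup of the proof of Miller's theorem. -/
structure MillerSetup (G : Subgroup (Perm α)) (p k : ℕ) (Δ : Finset α)
    (P : Subgroup (Perm α)) : Prop where
  hp : p.Prime
  hn : Fintype.card α = k * p + Δ.card
  hk : 1 ≤ k
  hpk : k < p
  hr3 : 3 ≤ Δ.card
  hG : IsMultiplyPretransitive G α (Δ.card + 1)
  hPH : P ≤ fixG G Δ
  hPc : Nat.card P = p ^ (Nat.card (fixG G Δ)).factorization p

namespace MillerSetup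

variable {G : Subgroup (Perm α)} {p k : ℕ} {Δ : Finset α} {P : Subgroup (Perm α)}

theorem isPGroup (S : MillerSetup G p k Δ P) : IsPGroup p P := IsPGroup.of_card S.hPc

theorem card_lt (S : MillerSetup G p k Δ P) : Δ.card + 1 ≤ Fintype.card α := by
  have h1 := S.hn
  have h2 : 1 ≤ k * p := Nat.mul_pos S.hk S.hp.pos
  omega

theorem orb (S : MillerSetup G p k Δ P) (γ : α) (hγ : γ ∉ Δ) :
    Nat.card (orbit (↥P) γ) = p :=
  sylow_orbit_card G S.hp Δ S.hn S.hk S.hpk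
    (fun γ γ' h h' => fixG_trans G Δ S.hG S.card_lt γ γ' h h') P S.hPH S.hPc γ hγ

theorem fixΔ (S : MillerSetup G p k Δ P) : ∀ u ∈ P, ∀ x ∈ Δ, u x = x :=
  fun u hu x hx => (S.hPH hu).2 x hx

theorem moved (S : MillerSetup G p k Δ P) (γ : α) (hγ : γ ∉ Δ) : ∃ u ∈ P, u γ ≠ γ :=
  exists_moving P γ S.hp (S.orb γ hγ)

theorem fix_iff (S : MillerSetup G p k Δ P) (x : α) : (∀ u ∈ P, u x = x) ↔ x ∈ Δ := by
  constructor
  · intro h
    by_contra hx
    obtain ⟨u, hu, hux⟩ := S.moved x hx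
    exact hux (h u hu)
  · intro hx u hu; exact S.fixΔ u hu x hx

theorem not_mem_of_moved (S : MillerSetup G p k Δ P) (u : Perm α) (hu : u ∈ P) (γ : α)
    (h : u γ ≠ γ) : γ ∉ Δ := fun hγ => h (S.fixΔ u hu γ hγ)

theorem rho_surj (S : MillerSetup G p k Δ P) :
    Function.Surjective (fixHom (millerL G P) P (millerL_le G P)) :=
  fixHom_surjective G S.hp Δ S.hG S.card_lt (Nat.le_succ _) P S.hPH S.hPc S.fix_iff

theorem card_orbs (S : MillerSetup G p k Δ P) :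
    Nat.card ↥(movedOrbits (millerL G P) P (millerL_le G P)) = k := by
  have h1 := card_movedOrbits (millerL G P) P (millerL_le G P) S.hp Δ S.fixΔ S.orb
  have h2 : Fintype.card α - Δ.card = k * p := by have := S.hn; omega
  rw [h2] at h1
  exact Nat.eq_of_mul_eq_mul_right S.hp.pos h1

theorem card_fix (S : MillerSetup G p k Δ P) :
    Nat.card ↥(millerFixSub (millerL G P) P (millerL_le G P)) = Δ.card := by
  have h1 : ((millerFixSub (millerL G P) P (millerL_le G P) : Set α)) = (Δ : Set α) := by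
    ext x
    exact S.fix_iff x
  show Nat.card ↥((millerFixSub (millerL G P) P (millerL_le G P) : Set α)) = _
  rw [h1, Nat.card_coe_set_eq, Set.ncard_coe_finset]

/-- Points in pairwise distinct orbits: at most `k` of them. -/
theorem two_orbits (S : MillerSetup G p k Δ P) (γ₁ γ₂ : α) (h₁ : γ₁ ∉ Δ) (h₂ : γ₂ ∉ Δ)
    (h12 : γ₂ ∉ orbit (↥P) γ₁) : 2 ≤ k := by
  classical
  rw [← S.card_orbs]
  haveI : Fintype ↥(movedOrbits (millerL G P) P (millerL_le G P)) := Fintype.ofFinite _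
  rw [Nat.card_eq_fintype_card]
  have hA : ∀ γ (h : γ ∉ Δ), ∃ A : ↥(movedOrbits (millerL G P) P (millerL_le G P)),
      (A : Set α) = orbit (↥P) γ := fun γ h => ⟨⟨orbit (↥P) γ, γ, S.moved γ h, rfl⟩, rfl⟩
  obtain ⟨A₁, hA₁⟩ := hA γ₁ h₁
  obtain ⟨A₂, hA₂⟩ := hA γ₂ h₂
  have hne : A₁ ≠ A₂ := by
    intro h
    apply h12
    rw [← hA₁, h, hA₂]; exact mem_orbit_self γ₂
  have h2 : ({A₁, A₂} : Finset _).card = 2 := Finset.card_pair hne
  rw [← h2]; exact Finset.card_le_univ _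

theorem three_orbits (S : MillerSetup G p k Δ P) (γ₁ γ₂ γ₃ : α) (h₁ : γ₁ ∉ Δ) (h₂ : γ₂ ∉ Δ)
    (h₃ : γ₃ ∉ Δ) (h12 : γ₂ ∉ orbit (↥P) γ₁) (h13 : γ₃ ∉ orbit (↥P) γ₁)
    (h23 : γ₃ ∉ orbit (↥P) γ₂) : 3 ≤ k := by
  classical
  rw [← S.card_orbs]
  haveI : Fintype ↥(movedOrbits (millerL G P) P (millerL_le G P)) := Fintype.ofFinite _
  rw [Nat.card_eq_fintype_card]
  have hA : ∀ γ (h : γ ∉ Δ), ∃ A : ↥(movedOrbits (millerL G P) P (millerL_le G P)),
      (A : Set α) = orbit (↥P) γ := fun γ h => ⟨⟨orbit (↥P) γ, γ, S.moved γ h, rfl⟩, rfl⟩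
  obtain ⟨A₁, hA₁⟩ := hA γ₁ h₁
  obtain ⟨A₂, hA₂⟩ := hA γ₂ h₂
  obtain ⟨A₃, hA₃⟩ := hA γ₃ h₃
  have hne12 : A₁ ≠ A₂ := by
    intro h; apply h12; rw [← hA₁, h, hA₂]; exact mem_orbit_self γ₂
  have hne13 : A₁ ≠ A₃ := by
    intro h; apply h13; rw [← hA₁, h, hA₃]; exact mem_orbit_self γ₃
  have hne23 : A₂ ≠ A₃ := by
    intro h; apply h23; rw [← hA₂, h, hA₃]; exact mem_orbit_self γ₃
  have h2 : ({A₁, A₂, A₃} : Finset _).card = 3 :=
    Finset.card_eq_three.mpr ⟨A₁, A₂, A₃, hne12, hne13, hne23, rfl⟩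
  rw [← h2]; exact Finset.card_le_univ _

theorem four_orbits (S : MillerSetup G p k Δ P) (γ₁ γ₂ γ₃ γ₄ : α) (h₁ : γ₁ ∉ Δ) (h₂ : γ₂ ∉ Δ)
    (h₃ : γ₃ ∉ Δ) (h₄ : γ₄ ∉ Δ) (h12 : γ₂ ∉ orbit (↥P) γ₁) (h13 : γ₃ ∉ orbit (↥P) γ₁)
    (h14 : γ₄ ∉ orbit (↥P) γ₁) (h23 : γ₃ ∉ orbit (↥P) γ₂) (h24 : γ₄ ∉ orbit (↥P) γ₂)
    (h34 : γ₄ ∉ orbit (↥P) γ₃) : 4 ≤ k := by
  classical
  rw [← S.card_orbs]
  haveI : Fintype ↥(movedOrbits (millerL G P) P (millerL_le G P)) := Fintype.ofFinite _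
  rw [Nat.card_eq_fintype_card]
  have hA : ∀ γ (h : γ ∉ Δ), ∃ A : ↥(movedOrbits (millerL G P) P (millerL_le G P)),
      (A : Set α) = orbit (↥P) γ := fun γ h => ⟨⟨orbit (↥P) γ, γ, S.moved γ h, rfl⟩, rfl⟩
  obtain ⟨A₁, hA₁⟩ := hA γ₁ h₁
  obtain ⟨A₂, hA₂⟩ := hA γ₂ h₂
  obtain ⟨A₃, hA₃⟩ := hA γ₃ h₃
  obtain ⟨A₄, hA₄⟩ := hA γ₄ h₄
  have hne12 : A₁ ≠ A₂ := by
    intro h; apply h12; rw [← hA₁, h, hA₂]; exact mem_orbit_self γ₂
  have hne13 : A₁ ≠ A₃ := by
    intro h; apply h13; rw [← hA₁, h, hA₃]; exact mem_orbit_self γ₃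
  have hne14 : A₁ ≠ A₄ := by
    intro h; apply h14; rw [← hA₁, h, hA₄]; exact mem_orbit_self γ₄
  have hne23 : A₂ ≠ A₃ := by
    intro h; apply h23; rw [← hA₂, h, hA₃]; exact mem_orbit_self γ₃
  have hne24 : A₂ ≠ A₄ := by
    intro h; apply h24; rw [← hA₂, h, hA₄]; exact mem_orbit_self γ₄
  have hne34 : A₃ ≠ A₄ := by
    intro h; apply h34; rw [← hA₃, h, hA₄]; exact mem_orbit_self γ₄
  have h2 : ({A₁, A₂, A₃, A₄} : Finset _).card = 4 := by
    rw [Finset.card_insert_of_notMem, Finset.card_insert_of_notMem, Finset.card_pair hne34]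
    · simp [hne23, hne24]
    · simp [hne12, hne13, hne14]
  rw [← h2]; exact Finset.card_le_univ _

/-- `γ' ∉ orbit γ` is symmetric. -/
theorem not_mem_orbit_symm (P : Subgroup (Perm α)) {γ γ' : α} (h : γ' ∉ orbit (↥P) γ) :
    γ ∉ orbit (↥P) γ' := fun h' => h (by
      have := orbit_eq_iff.mpr h'
      rw [this]; exact mem_orbit_self γ')

/-- The final step: from an element of `N_G(P)` whose `p`-th power fixes all points outside
`Δ` but not all points of `Δ`. -/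
theorem final (S : MillerSetup G p k Δ P) (w : ↥(millerL G P)) (q : ℕ)
    (hΓ : ∀ γ, γ ∉ Δ → (w.1 ^ q) γ = γ)
    (a : ↥(millerFixSub (millerL G P) P (millerL_le G P)))
    (ha : (fixHom (millerL G P) P (millerL_le G P) w ^ q) a ≠ a) :
    alternatingGroup α ≤ G := by
  have h5 : 5 ≤ Fintype.card α := by
    have h1 := S.hn
    have h2 : 2 ≤ k * p := by
      have := S.hp.two_le
      have := S.hk
      nlinarith
    have := S.hr3
    omega
  refine miller_finish G S.hG (by have := S.hr3; omega) S.card_lt h5 Δ (Nat.le_succ _) S.hr3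
    (w.1 ^ q) (G.pow_mem (millerL_le_left G P w.2) q) hΓ ?_
  intro h1
  apply ha
  apply Subtype.ext
  rw [← map_pow, fixHom_apply]
  show (w.1 ^ q) a.1 = a.1
  rw [h1]; rfl

/-- Elements of `N_G(P)` acting trivially on the set of orbits: the `p`-th power of their
commutator fixes all points outside `Δ`. -/
theorem comm_ker_pow_fix (S : MillerSetup G p k Δ P) (x y : ↥(millerL G P))
    (hx : orbHom (millerL G P) P (millerL_le G P) x = 1)
    (hy : orbHom (millerL G P) P (millerL_le G P) y = 1) :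
    ∀ γ, γ ∉ Δ → ((x⁻¹ * y⁻¹ * x * y : ↥(millerL G P)).1 ^ p) γ = γ := by
  intro γ hγ
  have hmv := S.moved γ hγ
  obtain ⟨hx1, hx2⟩ := orbHom_one_mem _ P (millerL_le G P) x hx γ hmv
  obtain ⟨hy1, hy2⟩ := orbHom_one_mem _ P (millerL_le G P) y hy γ hmv
  exact comm_pow_fix_orbit S.hp P S.isPGroup γ (S.orb γ hγ) x.1 y.1 (millerL_le G P x.2)
    (millerL_le G P y.2) hx1 hx2 hy1 hy2 γ (mem_orbit_self γ)

/-- The case `r ≥ 5` (with `p` odd). -/
theorem caseB (S : MillerSetup G p k Δ P) (hodd : Odd p) (hkr : k < Δ.card)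
    (h5 : 5 ≤ Δ.card) : alternatingGroup α ≤ G := by
  classical
  haveI : Fintype ↥(millerFixSub (millerL G P) P (millerL_le G P)) := Fintype.ofFinite _
  haveI : Fintype ↥(movedOrbits (millerL G P) P (millerL_le G P)) := Fintype.ofFinite _
  have hc1 : Fintype.card ↥(millerFixSub (millerL G P) P (millerL_le G P)) = Δ.card := by
    rw [← Nat.card_eq_fintype_card]; exact S.card_fix
  have hc2 : Fintype.card ↥(movedOrbits (millerL G P) P (millerL_le G P)) = k := by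
    rw [← Nat.card_eq_fintype_card]; exact S.card_orbs
  obtain ⟨x, y, a, b, hx, hy, hab, h1, h2⟩ :=
    miller_coreB (fixHom (millerL G P) P (millerL_le G P))
      (orbHom (millerL G P) P (millerL_le G P)) S.rho_surj (by rw [hc1]; exact h5)
      (by rw [hc1, hc2]; exact hkr)
  refine S.final (x⁻¹ * y⁻¹ * x * y) p (S.comm_ker_pow_fix x y hx hy) a ?_
  rw [pow_apply_of_swap_pair _ a b h1 h2 hodd]
  exact hab.symm

/-- If `P` acts semiregularly outside `Δ`, then `P` is cyclic and the `p`-th power of a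
commutator of two elements of `N_G(P)` that acts trivially on the orbits fixes all points
outside `Δ`. -/
theorem semireg_pow_fix (S : MillerSetup G p k Δ P)
    (hsr : ∀ u ∈ P, u ≠ 1 → ∀ γ, γ ∉ Δ → u γ ≠ γ) (t k₀ : ↥(millerL G P))
    (hψ : orbHom (millerL G P) P (millerL_le G P) (t⁻¹ * k₀⁻¹ * t * k₀) = 1) :
    ∀ γ, γ ∉ Δ → ((t⁻¹ * k₀⁻¹ * t * k₀ : ↥(millerL G P)).1 ^ p) γ = γ := by
  intro γ hγ
  obtain ⟨g, hg, hgγ⟩ := S.moved γ hγ
  have hP := S.isPGroup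
  obtain ⟨hcyc, _⟩ := orbit_cyclic S.hp P hP γ (S.orb γ hγ) g hg hgγ
  have hPz : ∀ u ∈ P, u ∈ Subgroup.zpowers g := by
    intro u hu
    obtain ⟨j, hj⟩ := hcyc u hu
    have h1 : (g ^ j)⁻¹ * u ∈ P := P.mul_mem (P.inv_mem (P.zpow_mem hg j)) hu
    have h2 : ((g ^ j)⁻¹ * u) γ = γ := by
      rw [Perm.mul_apply, hj γ (mem_orbit_self γ), perm_inv_apply']
    have h3 : (g ^ j)⁻¹ * u = 1 := by
      by_contra hne
      exact hsr _ h1 hne γ hγ h2
    have h4 : u = g ^ j := by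
      have := congrArg (fun z => g ^ j * z) h3
      simpa using this
    rw [h4]; exact Subgroup.zpow_mem_zpowers g j
  have hconj : ∀ n : ↥(millerL G P), n.1 * g * n.1⁻¹ ∈ Subgroup.zpowers g := fun n =>
    hPz _ ((Subgroup.mem_normalizer_iff.mp (millerL_le G P n.2) g).mp hg)
  have hcomm := miller_comm_of_conj_zpow g t.1 k₀.1 (hconj t) (hconj k₀)
  obtain ⟨hw1, _⟩ := orbHom_one_mem _ P (millerL_le G P) _ hψ γ ⟨g, hg, hgγ⟩
  exact commute_pow_fix_orbit S.hp P hP γ (S.orb γ hγ) g hg hgγ _ hcomm hw1 γ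
    (mem_orbit_self γ)

end MillerSetup

end Cfsg.Agent.Helper48
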