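import Cfsg.Agent.Helper48.MillerE

set_option autoImplicit false
set_option linter.unusedSectionVars false
set_option linter.unusedVariables false
set_option linter.style.haveILetI false

/-!
Miller's theorem, part F: the cases `r = 4` and `r = 3, p ≠ 3`, and the assembly of all cases
except degree `9`.
-/

namespace Cfsg.Agent.Helper48

open Equiv Equiv.Perm MulAction
open scoped Pointwise

variable {α : Type*} [Fintype α] [DecidableEq α]

namespace MillerSetup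

variable {G : Subgroup (Perm α)} {p k : ℕ} {Δ : Finset α} {P : Subgroup (Perm α)}

theorem hnc_of_no_cycle (S : MillerSetup G p k Δ P)
    (hno : ¬ ∃ g ∈ P, g.IsCycle ∧ g.support.card = p) :
    ∀ u ∈ P, u ≠ 1 → ∀ γ, u γ ≠ γ → ∃ γ', u γ' ≠ γ' ∧ γ' ∉ orbit (↥P) γ := by
  intro u hu hu1 γ hγ
  by_contra h
  push Not at h
  exact hno ⟨u, hu, pcycle_of_support_in_orbit S.hp P S.isPGroup γ
    (S.orb γ (S.not_mem_of_moved u hu γ hγ)) u hu hu1 h⟩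

theorem k_ge_two (S : MillerSetup G p k Δ P)
    (hnc : ∀ u ∈ P, u ≠ 1 → ∀ γ, u γ ≠ γ → ∃ γ', u γ' ≠ γ' ∧ γ' ∉ orbit (↥P) γ) : 2 ≤ k := by
  obtain ⟨γ, hγ⟩ : ∃ γ, γ ∉ Δ := by
    by_contra h; push Not at h
    have h1 : Fintype.card α ≤ Δ.card := by
      rw [← Finset.card_univ]; exact Finset.card_le_card (fun x _ => h x)
    have := S.card_lt; omega
  obtain ⟨u, hu, huγ⟩ := S.moved γ hγ
  have hu1 : u ≠ 1 := by rintro rfl; exact huγ rfl
  obtain ⟨γ', hγ', hγγ'⟩ := hnc u hu hu1 γ huγ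
  exact S.two_orbits γ γ' hγ (S.not_mem_of_moved u hu γ' hγ') hγγ'

theorem three_le_of_fix (S : MillerSetup G p k Δ P)
    (hnc : ∀ u ∈ P, u ≠ 1 → ∀ γ, u γ ≠ γ → ∃ γ', u γ' ≠ γ' ∧ γ' ∉ orbit (↥P) γ)
    (u : Perm α) (hu : u ∈ P) (hu1 : u ≠ 1) (γ : α) (hγ : γ ∉ Δ) (hfix : u γ = γ) : 3 ≤ k := by
  obtain ⟨x, hx⟩ : ∃ x, u x ≠ x := by
    by_contra h; push Not at h; exact hu1 (Perm.ext h)
  obtain ⟨x', hx', hxx'⟩ := hnc u hu hu1 x hx
  have hf := fix_orbit_of_fix_point S.hp P S.isPGroup γ (S.orb γ hγ) u hu hfix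
  exact S.three_orbits γ x x' hγ (S.not_mem_of_moved u hu x hx) (S.not_mem_of_moved u hu x' hx')
    (fun h => hx (hf x h)) (fun h => hx' (hf x' h)) hxx'

theorem semireg_of_k2 (S : MillerSetup G p k Δ P) (hk2 : k = 2)
    (hnc : ∀ u ∈ P, u ≠ 1 → ∀ γ, u γ ≠ γ → ∃ γ', u γ' ≠ γ' ∧ γ' ∉ orbit (↥P) γ) :
    ∀ u ∈ P, u ≠ 1 → ∀ γ, γ ∉ Δ → u γ ≠ γ := by
  intro u hu hu1 γ hγ hfix
  have := S.three_le_of_fix hnc u hu hu1 γ hγ hfix
  omega

/-- The non-semiregular case with three orbits. -/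
theorem c2_pow_fix (S : MillerSetup G p k Δ P) (hk3 : k = 3)
    (hnc : ∀ u ∈ P, u ≠ 1 → ∀ γ, u γ ≠ γ → ∃ γ', u γ' ≠ γ' ∧ γ' ∉ orbit (↥P) γ)
    (u₀ : Perm α) (hu₀ : u₀ ∈ P) (hu₀1 : u₀ ≠ 1) (γ₀ : α) (hγ₀ : γ₀ ∉ Δ) (hu₀γ₀ : u₀ γ₀ = γ₀)
    (t k₀ : ↥(millerL G P)) (hk₀ : orbHom (millerL G P) P (millerL_le G P) k₀ = 1)
    (O : ↥(movedOrbits (millerL G P) P (millerL_le G P)))
    (htO : orbHom (millerL G P) P (millerL_le G P) t O = O) :
    ∀ γ, γ ∉ Δ → ((t⁻¹ * k₀⁻¹ * t * k₀ : ↥(millerL G P)).1 ^ p) γ = γ := by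
  have hP := S.isPGroup
  have hQ : ∀ v ∈ P, ∀ γA γB, γA ∉ Δ → γB ∉ Δ → γB ∉ orbit (↥P) γA → v γA = γA →
      v γB = γB → v = 1 := by
    intro v hv γA γB hA hB hAB hvA hvB
    by_contra hv1
    obtain ⟨x, hx⟩ : ∃ x, v x ≠ x := by
      by_contra h; push Not at h; exact hv1 (Perm.ext h)
    obtain ⟨x', hx', hxx'⟩ := hnc v hv hv1 x hx
    have hxΔ := S.not_mem_of_moved v hv x hx
    have hx'Δ := S.not_mem_of_moved v hv x' hx'
    have hfA := fix_orbit_of_fix_point S.hp P hP γA (S.orb γA hA) v hv hvA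
    have hfB := fix_orbit_of_fix_point S.hp P hP γB (S.orb γB hB) v hv hvB
    have h4 := S.four_orbits γA γB x x' hA hB hxΔ hx'Δ hAB (fun h => hx (hfA x h))
      (fun h => hx' (hfA x' h)) (fun h => hx (hfB x h)) (fun h => hx' (hfB x' h)) hxx'
    omega
  obtain ⟨Os, γs, hγsmv, hOs⟩ := O
  subst hOs
  have hγsΔ : γs ∉ Δ := by
    obtain ⟨u, hu, h⟩ := hγsmv; exact S.not_mem_of_moved u hu γs h
  have hcount : ∀ γ, γ ∉ Δ → p * Nat.card (stabilizer (↥P) γ) = Nat.card P := by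
    intro γ hγ
    rw [← S.orb γ hγ]; exact natCard_orbit_mul_stabilizer γ
  have hnt : Nontrivial (stabilizer (↥P) γ₀) := by
    refine ⟨⟨⟨⟨u₀, hu₀⟩, hu₀γ₀⟩, 1, ?_⟩⟩
    intro h
    apply hu₀1
    have h1 := congrArg (fun z : stabilizer (↥P) γ₀ => ((z : ↥P) : Perm α)) h
    simpa using h1
  have hc0 : 1 < Nat.card (stabilizer (↥P) γ₀) := Finite.one_lt_card_iff_nontrivial.mpr hnt
  have hcs : 1 < Nat.card (stabilizer (↥P) γs) := by
    have h1 := hcount γ₀ hγ₀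
    have h2 := hcount γs hγsΔ
    have h3 : Nat.card (stabilizer (↥P) γs) = Nat.card (stabilizer (↥P) γ₀) :=
      Nat.eq_of_mul_eq_mul_left S.hp.pos (h2.trans h1.symm)
    rw [h3]; exact hc0
  haveI : Nontrivial (stabilizer (↥P) γs) := Finite.one_lt_card_iff_nontrivial.mp hcs
  obtain ⟨gs', hgs'⟩ := exists_ne (1 : stabilizer (↥P) γs)
  obtain ⟨gs, hgsdef⟩ : ∃ gs : Perm α, gs = ((gs' : ↥P) : Perm α) := ⟨_, rfl⟩
  have hgsP : gs ∈ P := hgsdef ▸ (gs' : ↥P).2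
  have hgsγs : gs γs = γs := by rw [hgsdef]; exact gs'.2
  have hgs1 : gs ≠ 1 := by
    intro h
    apply hgs'
    apply Subtype.ext; apply Subtype.ext
    rw [← hgsdef, h]; rfl
  have hgsfix := fix_orbit_of_fix_point S.hp P hP γs (S.orb γs hγsΔ) gs hgsP hgsγs
  have hgsmove : ∀ γ, γ ∉ Δ → γ ∉ orbit (↥P) γs → gs γ ≠ γ := by
    intro γ hγ hγO h
    exact hgs1 (hQ gs hgsP γs γ hγsΔ hγ hγO hgsγs h)
  obtain ⟨γ₁, hγ₁⟩ : ∃ x, gs x ≠ x := by
    by_contra h; push Not at h; exact hgs1 (Perm.ext h)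
  have hγ₁Δ := S.not_mem_of_moved gs hgsP γ₁ hγ₁
  have hγ₁O : γ₁ ∉ orbit (↥P) γs := fun h => hγ₁ (hgsfix γ₁ h)
  obtain ⟨hcyc, _⟩ := orbit_cyclic S.hp P hP γ₁ (S.orb γ₁ hγ₁Δ) gs hgsP hγ₁
  have hZ : ∀ u ∈ P, u γs = γs → u ∈ Subgroup.zpowers gs := by
    intro u hu huγs
    obtain ⟨j, hj⟩ := hcyc u hu
    have h1 : (gs ^ j)⁻¹ * u ∈ P := P.mul_mem (P.inv_mem (P.zpow_mem hgsP j)) hu
    have h2 : ((gs ^ j)⁻¹ * u) γ₁ = γ₁ := by
      rw [Perm.mul_apply, hj γ₁ (mem_orbit_self γ₁), perm_inv_apply']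
    have h2' : ((gs ^ j)⁻¹ * u) γs = γs := by
      rw [Perm.mul_apply, huγs, Perm.inv_eq_iff_eq]
      exact (Equiv.Perm.zpow_apply_eq_self_of_apply_eq_self hgsγs j).symm
    have h3 : (gs ^ j)⁻¹ * u = 1 := hQ _ h1 γs γ₁ hγsΔ hγ₁Δ hγ₁O h2' h2
    have h4 : u = gs ^ j := by
      have := congrArg (fun z => gs ^ j * z) h3
      simpa using this
    rw [h4]; exact Subgroup.zpow_mem_zpowers gs j
  have hconj : ∀ n : ↥(millerL G P), (∀ o ∈ orbit (↥P) γs, n.1⁻¹ o ∈ orbit (↥P) γs) →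
      n.1 * gs * n.1⁻¹ ∈ Subgroup.zpowers gs := by
    intro n hn
    apply hZ _ ((Subgroup.mem_normalizer_iff.mp (millerL_le G P n.2) gs).mp hgsP)
    rw [Perm.mul_apply, Perm.mul_apply, hgsfix _ (hn γs (mem_orbit_self γs)), perm_apply_inv']
  have ht1 := orbHom_fix_mem _ P (millerL_le G P) t _ htO
  have ht2 := orbHom_fix_mem_inv _ P (millerL_le G P) t _ htO
  obtain ⟨hk1, hk2⟩ := orbHom_one_mem _ P (millerL_le G P) k₀ hk₀ γs hγsmv
  have hcomm := miller_comm_of_conj_zpow gs t.1 k₀.1 (hconj t ht2) (hconj k₀ hk2)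
  have hψ : orbHom (millerL G P) P (millerL_le G P) (t⁻¹ * k₀⁻¹ * t * k₀) = 1 := by
    simp only [map_mul, map_inv, hk₀]; group
  intro γ hγ
  by_cases hγO : γ ∈ orbit (↥P) γs
  · exact comm_pow_fix_orbit S.hp P hP γs (S.orb γs hγsΔ) t.1 k₀.1 (millerL_le G P t.2)
      (millerL_le G P k₀.2) ht1 ht2 hk1 hk2 γ hγO
  · obtain ⟨hw1, _⟩ := orbHom_one_mem _ P (millerL_le G P) _ hψ γ (S.moved γ hγ)
    exact commute_pow_fix_orbit S.hp P hP γ (S.orb γ hγ) gs hgsP (hgsmove γ hγ hγO) _ hcomm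
      hw1 γ (mem_orbit_self γ)

/-- The case `r = 4`. -/
theorem caseC4 (S : MillerSetup G p k Δ P) (hodd : Odd p) (hr4 : Δ.card = 4) (hk3 : k ≤ 3)
    (hnc : ∀ u ∈ P, u ≠ 1 → ∀ γ, u γ ≠ γ → ∃ γ', u γ' ≠ γ' ∧ γ' ∉ orbit (↥P) γ) :
    alternatingGroup α ≤ G := by
  classical
  haveI : Fintype ↥(millerFixSub (millerL G P) P (millerL_le G P)) := Fintype.ofFinite _
  haveI : Fintype ↥(movedOrbits (millerL G P) P (millerL_le G P)) := Fintype.ofFinite _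
  have hc1 : Fintype.card ↥(millerFixSub (millerL G P) P (millerL_le G P)) = Δ.card := by
    rw [← Nat.card_eq_fintype_card]; exact S.card_fix
  have hc2 : Fintype.card ↥(movedOrbits (millerL G P) P (millerL_le G P)) = k := by
    rw [← Nat.card_eq_fintype_card]; exact S.card_orbs
  obtain ⟨t, k₀, a, c, hk₀, hac, h1, h2, hfix⟩ :=
    miller_coreC4 (fixHom (millerL G P) P (millerL_le G P))
      (orbHom (millerL G P) P (millerL_le G P)) S.rho_surj (by rw [hc1, hr4])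
      (by rw [hc2]; exact hk3)
  have hψ : orbHom (millerL G P) P (millerL_le G P) (t⁻¹ * k₀⁻¹ * t * k₀) = 1 := by
    simp only [map_mul, map_inv, hk₀]; group
  have hΓ : ∀ γ, γ ∉ Δ → ((t⁻¹ * k₀⁻¹ * t * k₀ : ↥(millerL G P)).1 ^ p) γ = γ := by
    by_cases hsr : ∀ u ∈ P, u ≠ 1 → ∀ γ, γ ∉ Δ → u γ ≠ γ
    · exact S.semireg_pow_fix hsr t k₀ hψ
    · push Not at hsr
      obtain ⟨u₀, hu₀, hu₀1, γ₀, hγ₀, hu₀γ₀⟩ := hsr
      have hk3' : k = 3 := by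
        have := S.three_le_of_fix hnc u₀ hu₀ hu₀1 γ₀ hγ₀ hu₀γ₀
        omega
      obtain ⟨O, hO⟩ := hfix (by rw [hc2, hk3'])
      exact S.c2_pow_fix hk3' hnc u₀ hu₀ hu₀1 γ₀ hγ₀ hu₀γ₀ t k₀ hk₀ O hO
  refine S.final _ p hΓ a ?_
  rw [pow_apply_of_swap_pair _ a c h1 h2 hodd]
  exact hac.symm

/-- The case `r = 3`, `k = 2`, `p ≠ 3`. -/
theorem caseC3 (S : MillerSetup G p k Δ P) (hp3 : p ≠ 3) (hk2 : k = 2)
    (hnc : ∀ u ∈ P, u ≠ 1 → ∀ γ, u γ ≠ γ → ∃ γ', u γ' ≠ γ' ∧ γ' ∉ orbit (↥P) γ) :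
    alternatingGroup α ≤ G := by
  classical
  haveI : Fintype ↥(millerFixSub (millerL G P) P (millerL_le G P)) := Fintype.ofFinite _
  haveI : Fintype ↥(movedOrbits (millerL G P) P (millerL_le G P)) := Fintype.ofFinite _
  have hc1 : Fintype.card ↥(millerFixSub (millerL G P) P (millerL_le G P)) = Δ.card := by
    rw [← Nat.card_eq_fintype_card]; exact S.card_fix
  have hc2 : Fintype.card ↥(movedOrbits (millerL G P) P (millerL_le G P)) = k := by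
    rw [← Nat.card_eq_fintype_card]; exact S.card_orbs
  obtain ⟨x, y, a, b, c, hab, hac, hψ, h1, h2, h3⟩ :=
    miller_coreC3 (fixHom (millerL G P) P (millerL_le G P))
      (orbHom (millerL G P) P (millerL_le G P)) S.rho_surj (by rw [hc1]; exact S.hr3)
      (by rw [hc2, hk2])
  have hsr := S.semireg_of_k2 hk2 hnc
  refine S.final _ p (S.semireg_pow_fix hsr x y hψ) a ?_
  exact pow_apply_ne_of_three _ a b c hab hac h1 h2 h3 (by
    intro h; exact hp3 ((Nat.prime_dvd_prime_iff_eq Nat.prime_three S.hp).mp h).symm)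

end MillerSetup

/-- Miller's theorem, modulo Jordan's theorem on `p`-cycles and the case of degree `9`. -/
theorem miller_main_aux (G : Subgroup (Perm α)) {k p r : ℕ} (hp : p.Prime)
    (hn : Fintype.card α = k * p + r) (hk : 1 ≤ k) (hpk : k < p) (hrk : k < r)
    (hex : ¬ (k = 1 ∧ r = 2)) (hG : IsMultiplyPretransitive G α (r + 1))
    (hJ : ∀ g ∈ G, g.IsCycle → g.support.card = p → alternatingGroup α ≤ G)
    (h9 : k = 2 → p = 3 → r = 3 → alternatingGroup α ≤ G) : alternatingGroup α ≤ G := by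
  have hr3 : 3 ≤ r := by omega
  obtain ⟨Δ, -, rfl⟩ := Finset.exists_subset_card_eq (s := (Finset.univ : Finset α)) (n := r)
    (by rw [Finset.card_univ, hn]; omega)
  obtain ⟨P, hPH, hPc⟩ := exists_sylow_sub p hp (fixG G Δ)
  have S : MillerSetup G p k Δ P := ⟨hp, hn, hk, hpk, hr3, hG, hPH, hPc⟩
  by_cases hcyc : ∃ g ∈ P, g.IsCycle ∧ g.support.card = p
  · obtain ⟨g, hg, hgc, hgs⟩ := hcyc
    exact hJ g (hPH hg).1 hgc hgs
  · have hnc := S.hnc_of_no_cycle hcyc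
    have hk2 := S.k_ge_two hnc
    have hodd : Odd p := hp.odd_of_ne_two (by omega)
    rcases Nat.lt_or_ge Δ.card 5 with h5 | h5
    · rcases Nat.lt_or_ge Δ.card 4 with h4 | h4
      · have hr : Δ.card = 3 := by omega
        have hk2' : k = 2 := by omega
        by_cases hp3 : p = 3
        · exact h9 hk2' hp3 hr
        · exact S.caseC3 hp3 hk2' hnc
      · exact S.caseC4 hodd (by omega) (by omega) hnc
    · exact S.caseB hodd hrk h5

end Cfsg.Agent.Helper48
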