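import Cfsg.Agent.Helper48.MillerF

set_option autoImplicit false
set_option linter.unusedSectionVars false
set_option linter.unusedVariables false
set_option linter.style.haveILetI false

/-!
Miller's theorem, part G: a `4`-transitive group of degree `9` contains the alternating group
(modulo Jordan's theorem for `5`-cycles).
-/

namespace Cfsg.Agent.Helper48

open Equiv Equiv.Perm MulAction
open scoped Pointwise

variable {α : Type*} [Fintype α] [DecidableEq α]

theorem support_card_of_prime_order (σ : Perm α) {q : ℕ} (hq : q.Prime) (hσ : orderOf σ = q) :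
    ∃ n, σ.support.card = (n + 1) * q := by
  obtain ⟨n, hn⟩ := cycleType_prime_order (σ := σ) (by rw [hσ]; exact hq)
  refine ⟨n, ?_⟩
  rw [← sum_cycleType, hn, Multiset.sum_replicate, hσ, smul_eq_mul]

theorem five_cycle_of_dvd (G : Subgroup (Perm α)) (h9 : Fintype.card α = 9)
    (h5 : 5 ∣ Nat.card G) : ∃ g ∈ G, g.IsCycle ∧ g.support.card = 5 := by
  haveI : Fact (Nat.Prime 5) := ⟨Nat.prime_five⟩
  obtain ⟨x, hx⟩ := exists_prime_orderOf_dvd_card' (G := ↥G) 5 h5
  have hx' : orderOf (x : Perm α) = 5 := by rw [Subgroup.orderOf_coe]; exact hx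
  obtain ⟨n, hn⟩ := support_card_of_prime_order (x : Perm α) Nat.prime_five hx'
  have hle : (x : Perm α).support.card ≤ 9 := by rw [← h9]; exact Finset.card_le_univ _
  have hn0 : (x : Perm α).support.card = 5 := by omega
  exact ⟨x, x.2, isCycle_of_prime_order (by rw [hx']; exact Nat.prime_five)
    (by rw [hx', hn0]; norm_num), hn0⟩

theorem three_cycle_of_order_three (u : Perm α) (hu : orderOf u = 3)
    (hs : u.support.card ≤ 5) : u.IsThreeCycle := by
  obtain ⟨n, hn⟩ := support_card_of_prime_order u Nat.prime_three hu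
  exact card_support_eq_three_iff.mp (by omega)

theorem support_card_le_of_fix (u : Perm α) (Λ : Finset α) (h : ∀ x ∈ Λ, u x = x) :
    u.support.card + Λ.card ≤ Fintype.card α := by
  have hdisj : Disjoint u.support Λ := by
    rw [Finset.disjoint_left]; intro x hx hxΛ; exact (Perm.mem_support.mp hx) (h x hxΛ)
  rw [← Finset.card_union_of_disjoint hdisj]; exact Finset.card_le_univ _

theorem card_fixG_insert (G : Subgroup (Perm α)) (Δ₀ : Finset α) (c : α) (hc : c ∉ Δ₀)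
    (hG : IsMultiplyPretransitive G α (Δ₀.card + 1)) (hn : Δ₀.card + 1 ≤ Fintype.card α) :
    Nat.card (fixG G Δ₀) = (Fintype.card α - Δ₀.card) * Nat.card (fixG G (insert c Δ₀)) := by
  have hHorb : orbit (↥(fixG G Δ₀)) c = ((Δ₀ : Set α))ᶜ := by
    ext x
    rw [mem_orbit_subgroup, Set.mem_compl_iff, Finset.mem_coe]
    constructor
    · rintro ⟨h, hh, rfl⟩ hx
      have h1 := hh.2 (h c) hx
      have h2 : h c = c := h.injective h1
      exact hc (h2 ▸ hx)
    · intro hx; exact fixG_trans G Δ₀ hG hn c x hc hx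
  have hHcard : Nat.card (orbit (↥(fixG G Δ₀)) c) = Fintype.card α - Δ₀.card := by
    rw [hHorb, Nat.card_coe_set_eq]
    have := Set.ncard_add_ncard_compl (Δ₀ : Set α)
    rw [Set.ncard_coe_finset, Nat.card_eq_fintype_card] at this
    omega
  have hstab : stabilizer (↥(fixG G Δ₀)) c =
      (fixG G (insert c Δ₀)).subgroupOf (fixG G Δ₀) := by
    ext z
    rw [mem_stabilizer_iff, Subgroup.mem_subgroupOf, mem_fixG]
    constructor
    · intro h
      refine ⟨z.2.1, fun x hx => ?_⟩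
      rw [Finset.mem_insert] at hx
      rcases hx with rfl | hx
      · exact h
      · exact z.2.2 x hx
    · intro h; exact h.2 c (Finset.mem_insert_self _ _)
  have hle : fixG G (insert c Δ₀) ≤ fixG G Δ₀ :=
    fun u hu => ⟨hu.1, fun x hx => hu.2 x (Finset.mem_insert_of_mem hx)⟩
  have hos := natCard_orbit_mul_stabilizer (G := ↥(fixG G Δ₀)) c
  rw [hHcard, hstab, Nat.card_congr (Subgroup.subgroupOfEquivOfLe hle).toEquiv] at hos
  exact hos.symm

/-- Pointwise stabilisers of `4`-subsets of the fixed points of `Q = G_(Λ)` coincide with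
`Q`. -/
theorem fixG_eq_of_subset_fix (G : Subgroup (Perm α)) (hG : IsMultiplyPretransitive G α 4)
    (h4n : 4 ≤ Fintype.card α) (Λ : Finset α) (hΛ : Λ.card = 4) (F : Finset α)
    (hF : ∀ x, x ∈ F ↔ ∀ u ∈ fixG G Λ, u x = x) (Λ' : Finset α) (hΛ' : Λ' ⊆ F)
    (hc : Λ'.card = 4) : fixG G Λ' = fixG G Λ := by
  classical
  have hle : fixG G Λ ≤ fixG G Λ' := fun u hu => ⟨hu.1, fun x hx => (hF x).mp (hΛ' hx) u hu⟩
  obtain ⟨e⟩ : Nonempty (Λ ≃ Λ') := ⟨Finset.equivOfCardEq (hΛ.trans hc.symm)⟩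
  obtain ⟨f, hf⟩ : ∃ f : α → α, ∀ x (h : x ∈ Λ), f x = e ⟨x, h⟩ :=
    ⟨fun x => if h : x ∈ Λ then (e ⟨x, h⟩ : α) else x, fun x h => dif_pos h⟩
  have hinj : Set.InjOn f Λ := by
    intro x hx y hy hxy
    rw [hf x hx, hf y hy] at hxy
    have h1 := e.injective (Subtype.ext hxy)
    exact congrArg Subtype.val h1
  obtain ⟨g, hgG, hg⟩ := mt_exists_map G hG h4n Λ hΛ.le f hinj
  have hgΛ : ∀ x ∈ Λ, g x ∈ Λ' := fun x hx => by rw [hg x hx, hf x hx]; exact (e ⟨x, hx⟩).2
  have hmem : ∀ v : fixG G Λ', g⁻¹ * v.1 * g ∈ fixG G Λ := fun v =>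
    ⟨G.mul_mem (G.mul_mem (G.inv_mem hgG) v.2.1) hgG, fun x hx => by
      rw [Perm.mul_apply, Perm.mul_apply, v.2.2 _ (hgΛ x hx), perm_inv_apply']⟩
  have hcard : Nat.card (fixG G Λ') ≤ Nat.card (fixG G Λ) := by
    apply Nat.card_le_card_of_injective (fun v : fixG G Λ' => (⟨g⁻¹ * v.1 * g, hmem v⟩ :
      fixG G Λ))
    intro v w hvw
    have h1 : g⁻¹ * v.1 * g = g⁻¹ * w.1 * g := congrArg Subtype.val hvw
    apply Subtype.ext
    have h2 : g * (g⁻¹ * v.1 * g) * g⁻¹ = g * (g⁻¹ * w.1 * g) * g⁻¹ := by rw [h1]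
    simpa [mul_assoc] using h2
  exact (Subgroup.eq_of_le_of_card_ge hle hcard).symm

theorem maps_fix_of_maps_subset (G : Subgroup (Perm α)) (hG : IsMultiplyPretransitive G α 4)
    (h4n : 4 ≤ Fintype.card α) (Λ : Finset α) (hΛ : Λ.card = 4) (F : Finset α)
    (hF : ∀ x, x ∈ F ↔ ∀ u ∈ fixG G Λ, u x = x) (Λ' : Finset α) (hΛ' : Λ' ⊆ F)
    (hc : Λ'.card = 4) (g : Perm α) (hg : g ∈ G) (hgΛ : ∀ x ∈ Λ', g x ∈ F) :
    ∀ x ∈ F, g x ∈ F := by
  have hQ' := fixG_eq_of_subset_fix G hG h4n Λ hΛ F hF Λ' hΛ' hc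
  intro x hx
  rw [hF]
  intro u hu
  have h1 : g⁻¹ * u * g ∈ fixG G Λ' :=
    ⟨G.mul_mem (G.mul_mem (G.inv_mem hg) hu.1) hg, fun y hy => by
      rw [Perm.mul_apply, Perm.mul_apply, (hF _).mp (hgΛ y hy) u hu, perm_inv_apply']⟩
  rw [hQ'] at h1
  have h2 := (hF x).mp hx _ h1
  rw [Perm.mul_apply, Perm.mul_apply] at h2
  have h3 := congrArg g h2
  rwa [perm_apply_inv'] at h3

/-- If `Q = G_(Λ)` has `5`, `6` or `7` fixed points then `5` divides `|G|`. -/
theorem nine_five_dvd (G : Subgroup (Perm α)) (hG : IsMultiplyPretransitive G α 4)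
    (h4n : 4 ≤ Fintype.card α) (Λ : Finset α) (hΛ : Λ.card = 4) (F : Finset α)
    (hF : ∀ x, x ∈ F ↔ ∀ u ∈ fixG G Λ, u x = x) (hf5 : 5 ≤ F.card) (hf7 : F.card ≤ 7) :
    5 ∣ Nat.card G := by
  classical
  obtain ⟨E, hEF, hEc⟩ := Finset.exists_subset_card_eq hf5
  obtain ⟨D₂, hD₂⟩ : ∃ D₂ : Finset α, D₂ = F \ E := ⟨_, rfl⟩
  have hD₂c : D₂.card ≤ 2 := by rw [hD₂, Finset.card_sdiff_of_subset hEF]; omega
  have hD₂F : D₂ ⊆ F := by rw [hD₂]; exact Finset.sdiff_subset
  obtain ⟨e₀, he₀⟩ : ∃ e₀, e₀ ∈ E := Finset.card_pos.mp (by omega)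
  obtain ⟨M, hM⟩ : ∃ M : Subgroup (Perm α), M = fixG G D₂ ⊓ stabilizer (Perm α) F :=
    ⟨_, rfl⟩
  have horb : orbit (↥M) e₀ = (E : Set α) := by
    ext x
    rw [mem_orbit_subgroup, Finset.mem_coe]
    constructor
    · rintro ⟨m, hm, rfl⟩
      rw [hM] at hm
      have h1 : m e₀ ∈ F := (mem_stabilizer_finset'.mp hm.2) (hEF he₀)
      by_contra hne
      have h2 : m e₀ ∈ D₂ := by rw [hD₂]; exact Finset.mem_sdiff.mpr ⟨h1, hne⟩
      have h3 := hm.1.2 _ h2
      have h4 := m.injective h3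
      rw [h4] at hne; exact hne he₀
    · intro hx
      obtain ⟨Λ', h1, h2, h3⟩ := Finset.exists_subsuperset_card_eq (s := insert e₀ D₂)
        (t := F) (n := 4) (Finset.insert_subset (hEF he₀) hD₂F)
        (le_trans (Finset.card_insert_le _ _) (by omega)) (by omega)
      obtain ⟨g, hgG, hg⟩ := mt_exists_map G hG h4n Λ' h3.le (swap e₀ x)
        ((swap e₀ x).injective.injOn)
      have hgF : ∀ y ∈ Λ', g y ∈ F := fun y hy => by
        rw [hg y hy]
        by_cases hy1 : y = e₀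
        · rw [hy1, swap_apply_left]; exact hEF hx
        · by_cases hy2 : y = x
          · rw [hy2, swap_apply_right]; exact hEF he₀
          · rw [swap_apply_of_ne_of_ne hy1 hy2]; exact h2 hy
      have hgFF := maps_fix_of_maps_subset G hG h4n Λ hΛ F hF Λ' h2 h3 g hgG hgF
      refine ⟨g, ?_, ?_⟩
      · rw [hM]
        refine ⟨⟨hgG, fun y hy => ?_⟩, mem_stabilizer_finset'.mpr (fun y hy => hgFF y hy)⟩
        rw [hg y (h1 (Finset.mem_insert_of_mem hy))]
        have hyE : y ∉ E := by rw [hD₂] at hy; exact (Finset.mem_sdiff.mp hy).2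
        exact swap_apply_of_ne_of_ne (by rintro rfl; exact hyE he₀)
          (by rintro rfl; exact hyE hx)
      · rw [hg e₀ (h1 (Finset.mem_insert_self _ _)), swap_apply_left]
  have h5 : Nat.card (orbit (↥M) e₀) = 5 := by
    rw [horb, Nat.card_coe_set_eq, Set.ncard_coe_finset, hEc]
  have h6 := natCard_orbit_mul_stabilizer (G := ↥M) e₀
  rw [h5] at h6
  have h7 : Nat.card M ∣ Nat.card G :=
    Subgroup.card_dvd_of_le (fun z hz => by rw [hM] at hz; exact hz.1.1)
  exact (Dvd.intro _ h6).trans h7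

end Cfsg.Agent.Helper48
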