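import Cfsg.Agent.Helper48.MillerG

set_option autoImplicit false
set_option linter.unusedSectionVars false
set_option linter.unusedVariables false
set_option linter.style.haveILetI false

/-!
Miller's theorem, part H: there is no sharply `4`-transitive group of degree `9`, and the
degree `9` case of Miller's theorem.
-/

namespace Cfsg.Agent.Helper48

open Equiv Equiv.Perm MulAction
open scoped Pointwise

variable {α : Type*} [Fintype α] [DecidableEq α]

/-- A `4`-transitive group of degree `9` in which some `4`-point stabiliser is trivial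
contains a transposition. -/
theorem nine_sharp (G : Subgroup (Perm α)) (h9 : Fintype.card α = 9)
    (hG : IsMultiplyPretransitive G α 4) (a b c d : α) (hab : a ≠ b) (hac : a ≠ c)
    (had : a ≠ d) (hbc : b ≠ c) (hbd : b ≠ d) (hcd : c ≠ d)
    (hQ : ∀ u ∈ fixG G (insert d (insert c {a, b})), u = 1) : alternatingGroup α ≤ G := by
  classical
  have hG3 : IsMultiplyPretransitive G α 3 := isMultiplyPretransitive_of_le (n := 4)
    (by norm_num) (by rw [Nat.card_eq_fintype_card, h9]; norm_num)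
  have hG2 : IsMultiplyPretransitive G α 2 := isMultiplyPretransitive_of_le (n := 4)
    (by norm_num) (by rw [Nat.card_eq_fintype_card, h9]; norm_num)
  have hprim : IsPreprimitive G α := isPreprimitive_of_is_two_pretransitive hG2
  have h7p : Nat.Prime 7 := by norm_num
  haveI : Fact (Nat.Prime 7) := ⟨h7p⟩
  have hQ1 : Nat.card (fixG G (insert d (insert c {a, b}))) = 1 :=
    Subgroup.card_eq_one.mpr ((Subgroup.eq_bot_iff_forall _).mpr hQ)
  have hcab : c ∉ ({a, b} : Finset α) := by simp [hac.symm, hbc.symm]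
  have hdcab : d ∉ insert c ({a, b} : Finset α) := by simp [had.symm, hbd.symm, hcd.symm]
  have hc2 : ({a, b} : Finset α).card = 2 := Finset.card_pair hab
  have hc3 : (insert c ({a, b} : Finset α)).card = 3 := by
    rw [Finset.card_insert_of_notMem hcab, hc2]
  have hT3 := card_fixG_insert G {a, b} c hcab (by rw [hc2]; exact hG3)
    (by rw [hc2, h9]; norm_num)
  have hT4 := card_fixG_insert G (insert c {a, b}) d hdcab (by rw [hc3]; exact hG)
    (by rw [hc3, h9]; norm_num)
  have hT : Nat.card (fixG G {a, b}) = 42 := by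
    rw [hT3, hT4, hQ1, h9, hc2, hc3]
  have hfac : (42 : ℕ).factorization 7 = 1 := by
    rw [show (42 : ℕ) = 7 * 6 by norm_num, Nat.factorization_mul (by norm_num) (by norm_num)]
    simp [Nat.Prime.factorization_self h7p,
      Nat.factorization_eq_zero_of_not_dvd (by norm_num : ¬ 7 ∣ 6)]
  obtain ⟨S, hST, hSc⟩ := exists_sylow_sub 7 h7p (fixG G {a, b})
  have hSc7 : Nat.card S = 7 := by rw [hSc, hT, hfac, pow_one]
  have hSfix : ∀ u ∈ S, u a = a ∧ u b = b :=
    fun u hu => ⟨(hST hu).2 a (by simp), (hST hu).2 b (by simp)⟩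
  have hord : ∀ u ∈ S, u ≠ 1 → orderOf u = 7 := by
    intro u hu hu1
    have h1 : orderOf u ∣ 7 := hSc7 ▸ Subgroup.orderOf_dvd_natCard S hu
    rcases (Nat.dvd_prime h7p).mp h1 with h | h
    · exact absurd (orderOf_eq_one_iff.mp h) hu1
    · exact h
  have hc7 : (Finset.univ \ ({a, b} : Finset α)).card = 7 := by
    rw [Finset.card_sdiff_of_subset (Finset.subset_univ _), Finset.card_univ, h9, hc2]
  have hsupp : ∀ u ∈ S, u ≠ 1 → u.support = Finset.univ \ {a, b} := by
    intro u hu hu1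
    obtain ⟨n, hn⟩ := support_card_of_prime_order u h7p (hord u hu hu1)
    have hsub : u.support ⊆ Finset.univ \ {a, b} := by
      intro y hy
      rw [Finset.mem_sdiff]; refine ⟨Finset.mem_univ _, ?_⟩
      rw [Finset.mem_insert, Finset.mem_singleton]
      rintro (rfl | rfl)
      · exact (Perm.mem_support.mp hy) (hSfix u hu).1
      · exact (Perm.mem_support.mp hy) (hSfix u hu).2
    exact Finset.eq_of_subset_of_card_le hsub (by rw [hc7, hn]; nlinarith)
  have hSmove : ∀ u ∈ S, u ≠ 1 → ∀ x, x ≠ a → x ≠ b → u x ≠ x := by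
    intro u hu hu1 x hxa hxb
    have h1 : x ∈ u.support := by rw [hsupp u hu hu1]; simp [hxa, hxb]
    exact Perm.mem_support.mp h1
  obtain ⟨s, hsS, hs1⟩ : ∃ s ∈ S, s ≠ 1 := by
    by_contra h; push Not at h
    have h1 : S = ⊥ := (Subgroup.eq_bot_iff_forall _).mpr h
    rw [h1] at hSc7; simp at hSc7
  have hso : orderOf s = 7 := hord s hsS hs1
  have hscard : s.support.card = 7 := by rw [hsupp s hsS hs1, hc7]
  have hscyc : s.IsCycle := isCycle_of_prime_order (by rw [hso]; exact h7p)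
    (by rw [hso, hscard]; norm_num)
  have hSz : ∀ u ∈ S, u ∈ Subgroup.zpowers s := by
    have h1 : Subgroup.zpowers s ≤ S := by rw [Subgroup.zpowers_le]; exact hsS
    have h2 : Subgroup.zpowers s = S :=
      Subgroup.eq_of_le_of_card_ge h1 (by rw [Nat.card_zpowers, hso, hSc7])
    intro u hu; rw [h2]; exact hu
  have hnorm : ∀ t ∈ fixG G {a, b}, ∀ x ∈ S, t * x * t⁻¹ ∈ S := by
    obtain ⟨S', hS'⟩ : ∃ S' : Subgroup ↥(fixG G {a, b}), S' = S.subgroupOf (fixG G {a, b}) :=
      ⟨_, rfl⟩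
    have hS'c : Nat.card S' = 7 ^ (Nat.card ↥(fixG G {a, b})).factorization 7 := by
      rw [hS', Nat.card_congr (Subgroup.subgroupOfEquivOfLe hST).toEquiv]; exact hSc
    obtain ⟨P₀, hP₀⟩ : ∃ P₀ : Sylow 7 ↥(fixG G {a, b}), (P₀ : Subgroup _) = S' :=
      ⟨Sylow.ofCard S' hS'c, Sylow.coe_ofCard _ _⟩
    have h1 := card_sylow_modEq_one 7 ↥(fixG G {a, b})
    have h2 := Sylow.card_dvd_index P₀
    have h3 : (P₀ : Subgroup ↥(fixG G {a, b})).index = 6 := by
      have h0 := Subgroup.index_mul_card (P₀ : Subgroup ↥(fixG G {a, b}))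
      rw [hP₀] at h0 ⊢
      rw [hS'c, hT, hfac] at h0
      omega
    rw [h3] at h2
    have h4 : Nat.card (Sylow 7 ↥(fixG G {a, b})) = 1 := by
      have h5 := Nat.le_of_dvd (by norm_num) h2
      unfold Nat.ModEq at h1
      omega
    haveI : Subsingleton (Sylow 7 ↥(fixG G {a, b})) := (Nat.card_eq_one_iff_unique.mp h4).1
    intro t ht x hx
    have h6 : (⟨t, ht⟩ : ↥(fixG G {a, b})) • P₀ = P₀ := Subsingleton.elim _ _
    have h7 := Subgroup.mem_set_normalizer_iff.mp (Sylow.smul_eq_iff_mem_normalizer.mp h6)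
    have hx' : (⟨x, hST hx⟩ : ↥(fixG G {a, b})) ∈ (P₀ : Subgroup _) := by
      rw [hP₀, hS']; exact Subgroup.mem_subgroupOf.mpr hx
    have h8 := (h7 ⟨x, hST hx⟩).mp hx'
    have h9' : (⟨t, ht⟩ * ⟨x, hST hx⟩ * (⟨t, ht⟩ : ↥(fixG G {a, b}))⁻¹) ∈
        (P₀ : Subgroup _) := h8
    rw [hP₀, hS', Subgroup.mem_subgroupOf] at h9'
    exact h9'
  obtain ⟨g₀, hg₀G, hg₀⟩ := mt_exists_map G hG (by rw [h9]; norm_num) {a, b}
    (by rw [hc2]; norm_num) (swap a b) ((swap a b).injective.injOn)
  have hg₀a : g₀ a = b := by rw [hg₀ a (by simp), swap_apply_left]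
  have hg₀b : g₀ b = a := by rw [hg₀ b (by simp), swap_apply_right]
  obtain ⟨u, huG, huN, hu⟩ := witt_perm G h7p {a, b} S hST hSc g₀ hg₀G (by
    intro x hx v hv
    rw [Finset.mem_insert, Finset.mem_singleton] at hx
    rcases hx with rfl | rfl
    · rw [hg₀a]; exact (hSfix v hv).2
    · rw [hg₀b]; exact (hSfix v hv).1)
  have hua : u a = b := by rw [hu a (by simp), hg₀a]
  have hub : u b = a := by rw [hu b (by simp), hg₀b]
  have hsc : s c ≠ c := hSmove s hsS hs1 c hac.symm hbc.symm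
  obtain ⟨c', hc'⟩ : ∃ c', c' = s c := ⟨_, rfl⟩
  have hc'a : c' ≠ a := by
    rw [hc']; intro h
    have h1 : s c = s a := h.trans (hSfix s hsS).1.symm
    exact hac.symm (s.injective h1)
  have hc'b : c' ≠ b := by
    rw [hc']; intro h
    have h1 : s c = s b := h.trans (hSfix s hsS).2.symm
    exact hbc.symm (s.injective h1)
  have huc : u c ≠ a ∧ u c ≠ b :=
    ⟨fun h => hbc.symm (u.injective (h.trans hub.symm)),
      fun h => hac.symm (u.injective (h.trans hua.symm))⟩
  have huc' : u c' ≠ a ∧ u c' ≠ b :=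
    ⟨fun h => hc'b (u.injective (h.trans hub.symm)),
      fun h => hc'a (u.injective (h.trans hua.symm))⟩
  obtain ⟨t, htG, ht⟩ := mt_exists_map G hG (by rw [h9]; norm_num) {a, b, c, c'}
    Finset.card_le_four (swap a b * u) ((swap a b * u).injective.injOn)
  have hta : t a = a := by rw [ht a (by simp), Perm.mul_apply, hua, swap_apply_right]
  have htb : t b = b := by rw [ht b (by simp), Perm.mul_apply, hub, swap_apply_left]
  have htc : t c = u c := by
    rw [ht c (by simp), Perm.mul_apply, swap_apply_of_ne_of_ne huc.1 huc.2]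
  have htc' : t c' = u c' := by
    rw [ht c' (by simp), Perm.mul_apply, swap_apply_of_ne_of_ne huc'.1 huc'.2]
  have htT : t ∈ fixG G {a, b} := ⟨htG, fun x hx => by
    rw [Finset.mem_insert, Finset.mem_singleton] at hx
    rcases hx with rfl | rfl
    · exact hta
    · exact htb⟩
  obtain ⟨m, hm⟩ : ∃ m, m = t⁻¹ * u := ⟨_, rfl⟩
  have hmG : m ∈ G := hm ▸ G.mul_mem (G.inv_mem htG) huG
  have hma : m a = b := by rw [hm, Perm.mul_apply, hua, Perm.inv_eq_iff_eq, htb]
  have hmb : m b = a := by rw [hm, Perm.mul_apply, hub, Perm.inv_eq_iff_eq, hta]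
  have hmc : m c = c := by rw [hm, Perm.mul_apply, Perm.inv_eq_iff_eq, htc]
  have hmc' : m c' = c' := by rw [hm, Perm.mul_apply, Perm.inv_eq_iff_eq, htc']
  have hmS : m * s * m⁻¹ ∈ S := by
    have h1 : u * s * u⁻¹ ∈ S := (Subgroup.mem_normalizer_iff.mp huN s).mp hsS
    have h2 := hnorm t⁻¹ ((fixG G {a, b}).inv_mem htT) _ h1
    have h3 : m * s * m⁻¹ = t⁻¹ * (u * s * u⁻¹) * t⁻¹⁻¹ := by rw [hm]; group
    rw [h3]; exact h2
  obtain ⟨j, hj⟩ := Subgroup.mem_zpowers_iff.mp (hSz _ hmS)
  have hjc : (s ^ j) c = s c := by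
    rw [hj, Perm.mul_apply, Perm.mul_apply]
    have h1 : m⁻¹ c = c := by rw [Perm.inv_eq_iff_eq, hmc]
    rw [h1, ← hc', hmc']
  have hsj : s⁻¹ * s ^ j = 1 := by
    by_contra hne
    have h1 : s⁻¹ * s ^ j ∈ S := S.mul_mem (S.inv_mem hsS) (S.zpow_mem hsS j)
    apply hSmove _ h1 hne c hac.symm hbc.symm
    rw [Perm.mul_apply, hjc, perm_inv_apply']
  have hcomm : m * s = s * m := by
    have h1 : s ^ j = s := by
      have h0 := congrArg (fun z => s * z) hsj
      simpa using h0
    rw [h1] at hj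
    have h2 : m * s * m⁻¹ * m = s * m := by rw [← hj]
    simpa using h2
  have hmfix : ∀ x, x ≠ a → x ≠ b → m x = x := by
    intro x hxa hxb
    obtain ⟨i, hi⟩ := hscyc.exists_zpow_eq hsc (hSmove s hsS hs1 x hxa hxb)
    have h1 : m * s ^ i = s ^ i * m := Commute.zpow_right (show Commute m s from hcomm) i
    rw [← hi, ← Perm.mul_apply, h1, Perm.mul_apply, hmc]
  have hmswap : m = swap a b := by
    ext x
    by_cases hxa : x = a
    · rw [hxa, hma, swap_apply_left]
    · by_cases hxb : x = b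
      · rw [hxb, hmb, swap_apply_right]
      · rw [hmfix x hxa hxb, swap_apply_of_ne_of_ne hxa hxb]
  have htop := subgroup_eq_top_of_isPreprimitive_of_isSwap_mem hprim (swap a b)
    ⟨a, b, hab, rfl⟩ (hmswap ▸ hmG)
  rw [htop]; exact le_top

/-- A `4`-transitive group of degree `9` contains the alternating group (given Jordan's theorem
for `5`-cycles). -/
theorem miller_nine (G : Subgroup (Perm α)) (h9 : Fintype.card α = 9)
    (hG : IsMultiplyPretransitive G α 4)
    (hJ : ∀ g ∈ G, g.IsCycle → g.support.card = 5 → alternatingGroup α ≤ G) :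
    alternatingGroup α ≤ G := by
  classical
  have hG2 : IsMultiplyPretransitive G α 2 := isMultiplyPretransitive_of_le (n := 4)
    (by norm_num) (by rw [Nat.card_eq_fintype_card, h9]; norm_num)
  have hprim : IsPreprimitive G α := isPreprimitive_of_is_two_pretransitive hG2
  by_cases h5 : 5 ∣ Nat.card G
  · obtain ⟨g, hg, hc, hs⟩ := five_cycle_of_dvd G h9 h5
    exact hJ g hg hc hs
  by_cases h3 : ∃ u ∈ G, orderOf u = 3 ∧ u.support.card ≤ 5
  · obtain ⟨u, hu, ho, hs⟩ := h3
    exact alternatingGroup_le_of_isPreprimitive_of_isThreeCycle_mem hprim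
      (three_cycle_of_order_three u ho hs) hu
  obtain ⟨e⟩ := Function.Embedding.nonempty_of_card_le (α := Fin 4) (β := α)
    (by rw [Fintype.card_fin, h9]; norm_num)
  have hab : e 0 ≠ e 1 := e.injective.ne (by decide)
  have hac : e 0 ≠ e 2 := e.injective.ne (by decide)
  have had : e 0 ≠ e 3 := e.injective.ne (by decide)
  have hbc : e 1 ≠ e 2 := e.injective.ne (by decide)
  have hbd : e 1 ≠ e 3 := e.injective.ne (by decide)
  have hcd : e 2 ≠ e 3 := e.injective.ne (by decide)
  obtain ⟨Λ, hΛ⟩ : ∃ Λ : Finset α, Λ = insert (e 3) (insert (e 2) {e 0, e 1}) := ⟨_, rfl⟩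
  have hΛc : Λ.card = 4 := by
    rw [hΛ, Finset.card_insert_of_notMem (by simp [had.symm, hbd.symm, hcd.symm]),
      Finset.card_insert_of_notMem (by simp [hac.symm, hbc.symm]), Finset.card_pair hab]
  have hQ2 : IsPGroup 2 (fixG G Λ) := by
    have hq : ∀ {q : ℕ}, q.Prime → q ∣ Nat.card (fixG G Λ) → q = 2 := by
      intro q hq hqd
      haveI : Fact q.Prime := ⟨hq⟩
      obtain ⟨x, hx⟩ := exists_prime_orderOf_dvd_card' (G := ↥(fixG G Λ)) q hqd
      have hx' : orderOf (x : Perm α) = q := by rw [Subgroup.orderOf_coe]; exact hx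
      obtain ⟨n, hn⟩ := support_card_of_prime_order (x : Perm α) hq hx'
      have hs := support_card_le_of_fix (x : Perm α) Λ x.2.2
      have hq5 : q ≤ 5 := by rw [hn, hΛc, h9] at hs; nlinarith
      have hq2 := hq.two_le
      interval_cases q
      · rfl
      · exfalso; exact h3 ⟨x, x.2.1, hx', by rw [hΛc, h9] at hs; omega⟩
      · exact absurd hq (by norm_num)
      · exfalso
        exact h5 (hqd.trans (Subgroup.card_dvd_of_le (fun z hz => hz.1)))
    have hcard := Nat.eq_prime_pow_of_unique_prime_dvd (Nat.card_pos.ne') hq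
    exact IsPGroup.of_card hcard
  obtain ⟨F, hF⟩ : ∃ F : Finset α, ∀ x, x ∈ F ↔ ∀ u ∈ fixG G Λ, u x = x :=
    ⟨Finset.univ.filter (fun x => ∀ u ∈ fixG G Λ, u x = x), fun x => by simp⟩
  have hΛF : Λ ⊆ F := fun x hx => (hF x).mpr (fun u hu => hu.2 x hx)
  have hpar : F.card % 2 = 1 := by
    haveI : Fact (Nat.Prime 2) := ⟨Nat.prime_two⟩
    have h1 := hQ2.card_modEq_card_fixedPoints α
    have h2 : (fixedPoints (↥(fixG G Λ)) α) = (F : Set α) := by
      ext x
      rw [mem_fixedPoints, Finset.mem_coe, hF]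
      constructor
      · intro h u hu; exact h ⟨u, hu⟩
      · intro h u; exact h u.1 u.2
    rw [h2, Nat.card_coe_set_eq, Set.ncard_coe_finset, Nat.card_eq_fintype_card, h9] at h1
    unfold Nat.ModEq at h1
    omega
  have hF4 : 4 ≤ F.card := hΛc ▸ Finset.card_le_card hΛF
  have hF9 : F.card ≤ 9 := h9 ▸ Finset.card_le_univ F
  rcases (show F.card = 9 ∨ (5 ≤ F.card ∧ F.card ≤ 7) by omega) with hf | hf
  · have hFu : ∀ x, x ∈ F := by
      have h1 : F = Finset.univ := Finset.eq_univ_of_card F (by rw [hf, h9])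
      intro x; rw [h1]; exact Finset.mem_univ x
    refine nine_sharp G h9 hG (e 0) (e 1) (e 2) (e 3) hab hac had hbc hbd hcd ?_
    intro u hu
    rw [← hΛ] at hu
    ext x
    exact (hF x).mp (hFu x) u hu
  · exfalso
    exact h5 (nine_five_dvd G hG (by rw [h9]; norm_num) Λ hΛc F hF hf.1 hf.2)

end Cfsg.Agent.Helper48
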