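import Mathlib
import Cfsg.Agent.Helper79.S4705Defs
import Cfsg.Agent.Helper79.Basic
import Cfsg.Agent.Helper39.S4504SMUX
import Cfsg.Agent.Helper3.CharBasic

/-!
CALL S4705 (helper79), piece TABL (helper48): the block of `ζ`.
-/

set_option autoImplicit false
open Cfsg Cfsg.Agent.Helper79
open scoped ComplexConjugate

universe u

namespace Cfsg.Agent.Helper48

/-- Degree of an irreducible character with constant value `c = ± 1` on `⟨x⟩ \ 1`. -/
theorem s4705_deg_aux {H : Type u} [Group H] [Finite H] (p : ℕ) [Fact p.Prime] (x : H)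
    (hx : orderOf x = p) (χ : Cfsg.IrrCharacter H) (c : ℤ) (hc : c = 1 ∨ c = -1)
    (hval : ∀ b : ℕ, ¬ p ∣ b → (χ : H → ℂ) (x ^ b) = (c : ℂ)) :
    ∃ m : ℕ, (χ : H → ℂ) 1 = ((m * p : ℕ) : ℂ) + (c : ℂ) ∧ (c = -1 → 1 ≤ m) := by
  have hpp : p.Prime := Fact.out
  by_cases hker : (χ : H → ℂ) x = (χ : H → ℂ) 1
  · have hx1 : (χ : H → ℂ) x = (c : ℂ) := by
      have h := hval 1 (by intro hd; exact hpp.one_lt.ne' (Nat.dvd_one.mp hd))
      rwa [pow_one] at h
    obtain ⟨n, hn, h1⟩ := Cfsg.Agent.Helper3.irr_apply_one_eq_nat χ.2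
    have hcn : (c : ℂ) = (n : ℂ) := by rw [← hx1, hker, h1]
    have hcn' : c = (n : ℤ) := by exact_mod_cast hcn
    have hc1 : c = 1 := by
      rcases hc with h | h
      · exact h
      · omega
    refine ⟨0, ?_, ?_⟩
    · rw [h1, ← hcn]
      simp
    · intro h
      omega
  · obtain ⟨m, hm, -, h2⟩ := Cfsg.Agent.Helper39.s4504s_mux p x hx (χ : H → ℂ)
      (Cfsg.Agent.Helper79.irr_isCharacter χ) c hc hval hker
    exact ⟨m, h2, fun _ => hm⟩

/-- A primitive `p`-th root of unity, `p > 5` prime: `ω + ω⁻¹ ∉ {0, 1, -1}`. -/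
theorem s4705_root_aux (p : ℕ) (hpp : p.Prime) (hp : 5 < p) (ω : ℂ) (hω : IsPrimitiveRoot ω p) :
    ω + ω⁻¹ ≠ 0 ∧ ω + ω⁻¹ ≠ 1 ∧ ω + ω⁻¹ ≠ -1 := by
  have hω0 : ω ≠ 0 := hω.ne_zero (by omega)
  refine ⟨?_, ?_, ?_⟩
  · intro h0
    have h2 : ω ^ 2 = -1 := by
      have : ω * (ω + ω⁻¹) = 0 := by rw [h0, mul_zero]
      rw [mul_add, mul_inv_cancel₀ hω0] at this
      linear_combination this
    have h4 : ω ^ 4 = 1 := by
      have : ω ^ 4 = (ω ^ 2) ^ 2 := by ring
      rw [this, h2]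
      norm_num
    have hd := (hω.pow_eq_one_iff_dvd 4).mp h4
    have := Nat.le_of_dvd (by norm_num) hd
    omega
  · intro h0
    have h2 : ω ^ 2 - ω + 1 = 0 := by
      have : ω * (ω + ω⁻¹) = ω := by rw [h0, mul_one]
      rw [mul_add, mul_inv_cancel₀ hω0] at this
      linear_combination this
    have h3 : ω ^ 3 = -1 := by linear_combination (ω + 1) * h2
    have h6 : ω ^ 6 = 1 := by
      have : ω ^ 6 = (ω ^ 3) ^ 2 := by ring
      rw [this, h3]
      norm_num
    have hd := (hω.pow_eq_one_iff_dvd 6).mp h6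
    have hle := Nat.le_of_dvd (by norm_num) hd
    have h6' : p = 6 := by omega
    rw [h6'] at hpp
    exact absurd hpp (by decide)
  · intro h0
    have h2 : ω ^ 2 + ω + 1 = 0 := by
      have : ω * (ω + ω⁻¹) = -ω := by rw [h0]; ring
      rw [mul_add, mul_inv_cancel₀ hω0] at this
      linear_combination this
    have h3 : ω ^ 3 = 1 := by linear_combination (ω - 1) * h2
    have hd := (hω.pow_eq_one_iff_dvd 3).mp h3
    have := Nat.le_of_dvd (by norm_num) hd
    omega

/-- TABL -/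
theorem s4705_tabL {H : Type u} [Group H] [Finite H] (p : ℕ) [Fact p.Prime] (x : H)
    (ζ : H → ℂ) (h : S4705Wk p x ζ) (S : S4705Shape p x ζ)
    (χ₁ χ₂ : Cfsg.IrrCharacter H) (c₁ c₂ ε : ℤ) (Y : Finset (Cfsg.IrrCharacter H))
    (B : S4705Blk p x ζ χ₁ χ₂ c₁ c₂ ε Y) :
    ∃ (a : ℕ) (X₁ X₂ : Cfsg.IrrCharacter H), S4705TabL p x ζ a X₁ X₂ Y := by
  classical
  have hpp : p.Prime := Fact.out
  have hp5 := h.hp
  obtain ⟨ζ', hζ'⟩ : ∃ ζ' : Cfsg.IrrCharacter H, (ζ' : H → ℂ) = ζ := ⟨⟨ζ, h.hζ⟩, rfl⟩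
  obtain ⟨ω, hω, hval⟩ := S.hval
  have h1 : ¬ p ∣ 1 := fun hd => hpp.one_lt.ne' (Nat.dvd_one.mp hd)
  have hζx : ζ x = -(ω + ω⁻¹) := by
    have h2 := hval 1
    rw [if_neg h1, pow_one, pow_one, pow_one] at h2
    linear_combination h2
  obtain ⟨hne0, hne1, hnem1⟩ := s4705_root_aux p hpp hp5 ω hω
  -- `ζ` lies in `Y`
  have hζY : ζ' ∈ Y := by
    by_contra hnY
    have hov : S4705Over ζ (ζ' : H → ℂ) := by
      intro z _
      rw [hζ']
    by_cases e1 : ζ' = χ₁
    · have h2 := B.val₁ 1 h1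
      rw [pow_one, ← e1, hζ', hζx] at h2
      rcases B.hc₁ with hc | hc
      · rw [hc] at h2
        apply hnem1
        push_cast at h2
        linear_combination -h2
      · rw [hc] at h2
        apply hne1
        push_cast at h2
        linear_combination -h2
    · by_cases e2 : ζ' = χ₂
      · have h2 := B.val₂ 1 h1
        rw [pow_one, ← e2, hζ', hζx] at h2
        rcases B.hc₂ with hc | hc
        · rw [hc] at h2
          apply hnem1
          push_cast at h2
          linear_combination -h2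
        · rw [hc] at h2
          apply hne1
          push_cast at h2
          linear_combination -h2
      · have h2 := B.compl ζ' hov e1 e2 hnY
        rw [hζ', hζx] at h2
        apply hne0
        linear_combination -h2
  -- degrees
  obtain ⟨m₁, hd₁, hm₁⟩ := s4705_deg_aux p x h.hx χ₁ c₁ B.hc₁ B.val₁
  obtain ⟨m₂, hd₂, hm₂⟩ := s4705_deg_aux p x h.hx χ₂ c₂ B.hc₂ B.val₂
  have hζ1 : ζ 1 + 2 = (p : ℂ) := by
    rw [Cfsg.Agent.Helper79.isCharacter_one_eq_charDegree
      (Cfsg.Agent.Helper79.isCharacter_of_irr h.hζ)]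
    exact_mod_cast h.hdeg
  have ho1 : ¬ p ∣ orderOf (1 : H) := by rw [orderOf_one]; exact h1
  have hreg1 := B.reg ζ' hζY 1 ho1
  rw [hζ', hd₁, hd₂] at hreg1
  have hZ : c₁ * ((m₁ : ℤ) * p + c₁) + c₂ * ((m₂ : ℤ) * p + c₂) = ε * ((p : ℤ) - 2) := by
    have hC : ((c₁ * ((m₁ : ℤ) * p + c₁) + c₂ * ((m₂ : ℤ) * p + c₂) : ℤ) : ℂ)
        = ((ε * ((p : ℤ) - 2) : ℤ) : ℂ) := by
      push_cast
      push_cast at hreg1
      linear_combination hreg1 + (ε : ℂ) * hζ1
    exact_mod_cast hC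
  have hp0 : (0 : ℤ) < (p : ℤ) := by exact_mod_cast hpp.pos
  have hp5' : (5 : ℤ) < (p : ℤ) := by exact_mod_cast hp5
  have hm₁0 : (0 : ℤ) ≤ (m₁ : ℤ) * p := by positivity
  have hm₂0 : (0 : ℤ) ≤ (m₂ : ℤ) * p := by positivity
  -- the two admissible sign patterns
  have key : (c₁ = 1 ∧ c₂ = -1 ∧ ε = -1 ∧ m₂ = m₁ + 1) ∨
      (c₁ = -1 ∧ c₂ = 1 ∧ ε = -1 ∧ m₁ = m₂ + 1) := by
    rcases B.hc₁ with hc1 | hc1 <;> rcases B.hc₂ with hc2 | hc2 <;> rcases B.hε with he | he
    · exfalso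
      rw [hc1, hc2, he] at hZ
      by_cases hm : m₁ + m₂ = 0
      · have h1' : m₁ = 0 := by omega
        have h2' : m₂ = 0 := by omega
        rw [h1', h2'] at hZ
        push_cast at hZ
        omega
      · have : (p : ℤ) ≤ ((m₁ + m₂ : ℕ) : ℤ) * p := by
          have h3 : (1 : ℤ) ≤ ((m₁ + m₂ : ℕ) : ℤ) := by
            have : 1 ≤ m₁ + m₂ := by omega
            exact_mod_cast this
          nlinarith
        push_cast at this
        nlinarith
    · exfalso
      rw [hc1, hc2, he] at hZ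
      nlinarith
    · exfalso
      rw [hc1, hc2, he] at hZ
      have hd : (p : ℤ) ∣ 4 := ⟨1 - ((m₁ : ℤ) - m₂), by linarith⟩
      have := Int.le_of_dvd (by norm_num) hd
      omega
    · left
      refine ⟨hc1, hc2, he, ?_⟩
      rw [hc1, hc2, he] at hZ
      have h3 : ((m₁ : ℤ) - m₂ + 1) * p = 0 := by linarith
      rcases mul_eq_zero.mp h3 with h4 | h4
      · omega
      · omega
    · exfalso
      rw [hc1, hc2, he] at hZ
      have hd : (p : ℤ) ∣ 4 := ⟨1 - ((m₂ : ℤ) - m₁), by linarith⟩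
      have := Int.le_of_dvd (by norm_num) hd
      omega
    · right
      refine ⟨hc1, hc2, he, ?_⟩
      rw [hc1, hc2, he] at hZ
      have h3 : ((m₂ : ℤ) - m₁ + 1) * p = 0 := by linarith
      rcases mul_eq_zero.mp h3 with h4 | h4
      · omega
      · omega
    · exfalso
      rw [hc1, hc2, he] at hZ
      have h1' := hm₁ hc1
      have h2' := hm₂ hc2
      have h3 : (1 : ℤ) ≤ (m₁ : ℤ) := by exact_mod_cast h1'
      have h4 : (1 : ℤ) ≤ (m₂ : ℤ) := by exact_mod_cast h2'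
      nlinarith
    · exfalso
      rw [hc1, hc2, he] at hZ
      have h1' := hm₁ hc1
      have h2' := hm₂ hc2
      have h3 : (1 : ℤ) ≤ (m₁ : ℤ) := by exact_mod_cast h1'
      have h4 : (1 : ℤ) ≤ (m₂ : ℤ) := by exact_mod_cast h2'
      nlinarith
  have hYreg : ∀ ψ ∈ Y, ∀ g : H, ¬ p ∣ orderOf g → (ψ : H → ℂ) g = ζ g := by
    intro ψ hψ g hg
    have e1 := B.reg ψ hψ g hg
    have e2 := B.reg ζ' hζY g hg
    rw [hζ'] at e2
    have hε0 : (ε : ℂ) ≠ 0 := by
      rcases B.hε with he | he <;> rw [he] <;> norm_num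
    have e3 : (ε : ℂ) * ((ψ : H → ℂ) g - ζ g) = 0 := by linear_combination e2 - e1
    rcases mul_eq_zero.mp e3 with e4 | e4
    · exact absurd e4 hε0
    · linear_combination e4
  rcases key with ⟨hc1, hc2, he, hm⟩ | ⟨hc1, hc2, he, hm⟩
  · refine ⟨m₁, χ₁, χ₂, ?_⟩
    refine
      { ov₁ := B.ov₁
        ov₂ := B.ov₂
        ovY := B.ovY
        deg₁ := ?_
        val₁ := ?_
        deg₂ := ?_
        val₂ := ?_
        reg := ?_
        Yreg := hYreg
        Ysum := ?_
        Ysq := B.Ysq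
        n₁ := B.n₁
        n₂ := B.n₂
        ne := B.ne
        compl := B.compl }
    · rw [hd₁, hc1]
      push_cast
      ring
    · intro b hb
      rw [B.val₁ b hb, hc1]
      norm_num
    · rw [hd₂, hc2, hm]
      push_cast
      ring
    · intro b hb
      rw [B.val₂ b hb, hc2]
      norm_num
    · intro g hg
      have e2 := B.reg ζ' hζY g hg
      rw [hζ', hc1, hc2, he] at e2
      push_cast at e2
      linear_combination -e2
    · rw [B.Ysum, he]
      norm_num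
  · refine ⟨m₂, χ₂, χ₁, ?_⟩
    refine
      { ov₁ := B.ov₂
        ov₂ := B.ov₁
        ovY := B.ovY
        deg₁ := ?_
        val₁ := ?_
        deg₂ := ?_
        val₂ := ?_
        reg := ?_
        Yreg := hYreg
        Ysum := ?_
        Ysq := B.Ysq
        n₁ := B.n₂
        n₂ := B.n₁
        ne := B.ne.symm
        compl := fun ξ hov h2' h1' hn => B.compl ξ hov h1' h2' hn }
    · rw [hd₂, hc2]
      push_cast
      ring
    · intro b hb
      rw [B.val₂ b hb, hc2]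
      norm_num
    · rw [hd₁, hc1, hm]
      push_cast
      ring
    · intro b hb
      rw [B.val₁ b hb, hc1]
      norm_num
    · intro g hg
      have e2 := B.reg ζ' hζY g hg
      rw [hζ', hc1, hc2, he] at e2
      push_cast at e2
      linear_combination -e2
    · rw [B.Ysum, he]
      norm_num

end Cfsg.Agent.Helper48
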