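import Mathlib
import Cfsg.Agent.Helper79.S4705Defs
import Cfsg.Agent.Helper79.Basic
import Cfsg.Agent.Helper48.S4705TABL

/-!
CALL S4705 (helper79), piece TAB1 (helper48): the principal block.
-/

set_option autoImplicit false
open Cfsg Cfsg.Agent.Helper79
open scoped ComplexConjugate

universe u

namespace Cfsg.Agent.Helper48

/-- The normalised form of TAB1: `χT` is the trivial character. -/
theorem s4705_tab1_core {H : Type u} [Group H] [Finite H] (p : ℕ) [Fact p.Prime] (x : H)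
    (hp5 : 5 < p) (hx : orderOf x = p) (hperf : commutator H = ⊤)
    (χT X : Cfsg.IrrCharacter H) (δ ε : ℤ) (Y : Finset (Cfsg.IrrCharacter H))
    (hT : (χT : H → ℂ) = fun _ => 1)
    (hδ : δ = 1 ∨ δ = -1) (hε : ε = 1 ∨ ε = -1) (hne : χT ≠ X)
    (ovX : ∀ z ∈ Subgroup.center H, (X : H → ℂ) z = (X : H → ℂ) 1)
    (ovY : ∀ ψ ∈ Y, ∀ z ∈ Subgroup.center H, (ψ : H → ℂ) z = (ψ : H → ℂ) 1)
    (valX : ∀ b : ℕ, ¬ p ∣ b → (X : H → ℂ) (x ^ b) = (δ : ℂ))
    (nT : χT ∉ Y) (nX : X ∉ Y) (Yne : Y.Nonempty)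
    (valY : ∀ ψ ∈ Y, ∃ ω : ℂ, IsPrimitiveRoot ω p ∧
      ∀ b : ℕ, ¬ p ∣ b → (ψ : H → ℂ) (x ^ b) = (ε : ℂ) * (ω ^ b + ω⁻¹ ^ b))
    (reg : ∀ ψ ∈ Y, ∀ g : H, ¬ p ∣ orderOf g →
      1 + (δ : ℂ) * (X : H → ℂ) g = (ε : ℂ) * (ψ : H → ℂ) g)
    (Ysum : ∑ ψ ∈ Y, (ψ : H → ℂ) x = -(ε : ℂ))
    (compl : ∀ ξ : Cfsg.IrrCharacter H,
      (∀ z ∈ Subgroup.center H, (ξ : H → ℂ) z = (ξ : H → ℂ) 1) → ξ ≠ χT → ξ ≠ X → ξ ∉ Y →
      (ξ : H → ℂ) x = 0) :
    ∃ m : ℕ, S4705Tab1 p x m δ X Y := by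
  classical
  have hpp : p.Prime := Fact.out
  have h1 : ¬ p ∣ 1 := fun hd => hpp.one_lt.ne' (Nat.dvd_one.mp hd)
  have ho1 : ¬ p ∣ orderOf (1 : H) := by rw [orderOf_one]; exact h1
  obtain ⟨m, hd, hm⟩ := s4705_deg_aux p x hx X δ hδ valX
  obtain ⟨ψ₀, hψ₀⟩ := Yne
  obtain ⟨n₀, hn₀, hψ₀1⟩ := Cfsg.Agent.Helper3.irr_apply_one_eq_nat ψ₀.2
  have hreg0 := reg ψ₀ hψ₀ 1 ho1
  rw [hd, hψ₀1] at hreg0
  have hZ : 1 + δ * ((m : ℤ) * p + δ) = ε * (n₀ : ℤ) := by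
    have hC : ((1 + δ * ((m : ℤ) * p + δ) : ℤ) : ℂ) = ((ε * (n₀ : ℤ) : ℤ) : ℂ) := by
      push_cast
      push_cast at hreg0
      linear_combination hreg0
    exact_mod_cast hC
  have hp0 : (0 : ℤ) < (p : ℤ) := by exact_mod_cast hpp.pos
  have hp5' : (5 : ℤ) < (p : ℤ) := by exact_mod_cast hp5
  have hm0 : (0 : ℤ) ≤ (m : ℤ) * p := by positivity
  have hn₀' : (0 : ℤ) < (n₀ : ℤ) := by exact_mod_cast hn₀
  -- `ε = δ`
  have hεδ : ε = δ := by
    rcases hδ with hd1 | hd1 <;> rcases hε with he | he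
    · rw [hd1, he]
    · exfalso
      rw [hd1, he] at hZ
      nlinarith
    · exfalso
      rw [hd1, he] at hZ
      have h3 : (1 : ℤ) ≤ (m : ℤ) := by exact_mod_cast hm hd1
      nlinarith
    · rw [hd1, he]
  have hδ2 : (δ : ℂ) * (δ : ℂ) = 1 := by
    rcases hδ with hd1 | hd1 <;> rw [hd1] <;> norm_num
  -- `m ≥ 1`
  have hm1 : 1 ≤ m := by
    rcases hδ with hd1 | hd1
    · by_contra hcon
      have hm0' : m = 0 := by omega
      have hX1 : (X : H → ℂ) 1 = 1 := by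
        rw [hd, hm0', hd1]
        simp
      obtain ⟨f, hf⟩ := Cfsg.Agent.Helper79.isCharacter_linear
        (Cfsg.Agent.Helper79.irr_isCharacter X) hX1
      apply hne
      apply Subtype.ext
      rw [hT]
      funext g
      rw [hf g, Cfsg.Agent.Helper79.hom_apply_eq_one_of_mem_commutator f
        (by rw [hperf]; trivial)]
      rfl
    · exact hm hd1
  have hYreg : ∀ ψ ∈ Y, ∀ g : H, ¬ p ∣ orderOf g →
      (ψ : H → ℂ) g = (X : H → ℂ) g + (δ : ℂ) := by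
    intro ψ hψ g hg
    have e1 := reg ψ hψ g hg
    rw [hεδ] at e1
    linear_combination (-(δ : ℂ)) * e1 + ((X : H → ℂ) g - (ψ : H → ℂ) g) * hδ2
  refine ⟨m, ?_⟩
  refine
    { hδ := hδ
      hm := hm1
      trivX := ovX
      trivY := ovY
      deg := hd
      val := valX
      Yreg := hYreg
      Ysum := by rw [Ysum, hεδ]
      Yfix := ?_
      Xne1 := ?_
      Yne1 := ?_
      XnY := nX
      compl := ?_ }
  · intro ψ hψ
    obtain ⟨ω, hω, hv⟩ := valY ψ hψ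
    have h0 : (0 : ℕ) ∈ Finset.range p := Finset.mem_range.mpr hpp.pos
    have hψ1 : (ψ : H → ℂ) 1 = ((m * p : ℕ) : ℂ) + 2 * (δ : ℂ) := by
      rw [hYreg ψ hψ 1 ho1, hd]
      ring
    have hs1 : ∑ b ∈ Finset.range p, ω ^ b = 0 := hω.geom_sum_eq_zero hpp.one_lt
    have hs2 : ∑ b ∈ Finset.range p, ω⁻¹ ^ b = 0 := hω.inv.geom_sum_eq_zero hpp.one_lt
    have hs : ∑ b ∈ (Finset.range p).erase 0, (ω ^ b + ω⁻¹ ^ b) = -2 := by
      have h3 : ∑ b ∈ Finset.range p, (ω ^ b + ω⁻¹ ^ b) = 0 := by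
        rw [Finset.sum_add_distrib, hs1, hs2, add_zero]
      rw [← Finset.add_sum_erase _ _ h0, pow_zero, pow_zero] at h3
      linear_combination h3
    rw [← Finset.add_sum_erase _ _ h0, pow_zero]
    have h4 : ∀ b ∈ (Finset.range p).erase 0,
        (ψ : H → ℂ) (x ^ b) = (ε : ℂ) * (ω ^ b + ω⁻¹ ^ b) := by
      intro b hb
      rw [Finset.mem_erase, Finset.mem_range] at hb
      exact hv b (Nat.not_dvd_of_pos_of_lt (Nat.pos_of_ne_zero hb.1) hb.2)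
    rw [Finset.sum_congr rfl h4, ← Finset.mul_sum, hs, hψ1, hεδ]
    ring
  · intro hX
    apply hne
    apply Subtype.ext
    rw [hT, hX]
  · intro ψ hψ hψ1
    apply nT
    have : χT = ψ := by
      apply Subtype.ext
      rw [hT, hψ1]
    rw [this]
    exact hψ
  · intro ξ hov hξ1 hξX hξY
    apply compl ξ hov _ hξX hξY
    intro hξT
    apply hξ1
    rw [hξT, hT]

/-- TAB1 -/
theorem s4705_tab1 {H : Type u} [Group H] [Finite H] (p : ℕ) [Fact p.Prime] (x : H)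
    (ζ : H → ℂ) (h : S4705Wk p x ζ) (hperf : commutator H = ⊤) (S : S4705Shape p x ζ)
    (χ₁ χ₂ : Cfsg.IrrCharacter H) (c₁ c₂ ε : ℤ) (Y : Finset (Cfsg.IrrCharacter H))
    (B : S4705Blk p x (fun _ : H => (1 : ℂ)) χ₁ χ₂ c₁ c₂ ε Y) :
    ∃ (m : ℕ) (δ : ℤ) (X : Cfsg.IrrCharacter H), S4705Tab1 p x m δ X Y := by
  classical
  have hpp : p.Prime := Fact.out
  have hp5 := h.hp
  have h1 : ¬ p ∣ 1 := fun hd => hpp.one_lt.ne' (Nat.dvd_one.mp hd)
  obtain ⟨T, hT⟩ : ∃ T : Cfsg.IrrCharacter H, (T : H → ℂ) = fun _ => 1 :=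
    ⟨⟨fun _ => 1, Cfsg.Agent.Helper79.isIrrCharacter_one⟩, rfl⟩
  have hov : ∀ ξ : H → ℂ, S4705Over (fun _ : H => (1 : ℂ)) ξ ↔
      ∀ z ∈ Subgroup.center H, ξ z = ξ 1 := by
    intro ξ
    constructor
    · intro hξ z hz
      have := hξ z hz
      simpa using this
    · intro hξ z hz
      simpa using hξ z hz
  -- the trivial character is not in `Y`
  have hTY : T ∉ Y := by
    intro hTin
    obtain ⟨ω, hω, hv⟩ := B.valY T hTin
    obtain ⟨-, hne1, hnem1⟩ := s4705_root_aux p hpp hp5 ω hω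
    have h2 := hv 1 h1
    rw [hT, pow_one, pow_one] at h2
    rcases B.hε with he | he
    · rw [he] at h2
      apply hne1
      push_cast at h2
      linear_combination -h2
    · rw [he] at h2
      apply hnem1
      push_cast at h2
      linear_combination h2
  have hTov : S4705Over (fun _ : H => (1 : ℂ)) (T : H → ℂ) := by
    rw [hov, hT]
    intro z _
    rfl
  have hT12 : T = χ₁ ∨ T = χ₂ := by
    by_contra hcon
    push Not at hcon
    have h2 := B.compl T hTov hcon.1 hcon.2 hTY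
    rw [hT] at h2
    exact one_ne_zero h2
  have ovY : ∀ ψ ∈ Y, ∀ z ∈ Subgroup.center H, (ψ : H → ℂ) z = (ψ : H → ℂ) 1 :=
    fun ψ hψ => (hov _).mp (B.ovY ψ hψ)
  rcases hT12 with e | e
  · -- `χ₁` is trivial
    have hc₁ : c₁ = 1 := by
      have h2 := B.val₁ 1 h1
      rw [← e, hT] at h2
      have h3 : (c₁ : ℂ) = 1 := h2.symm
      exact_mod_cast h3
    obtain ⟨m, hm⟩ := s4705_tab1_core p x hp5 h.hx hperf T χ₂ c₂ ε Y hT B.hc₂ B.hε
      (by rw [e]; exact B.ne) ((hov _).mp B.ov₂) ovY B.val₂ hTY B.n₂ B.Yne B.valY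
      (by
        intro ψ hψ g hg
        have h2 := B.reg ψ hψ g hg
        rw [← e, hT, hc₁] at h2
        push_cast at h2
        linear_combination h2)
      B.Ysum
      (by
        intro ξ hξ hξT hξX hξY
        exact B.compl ξ ((hov _).mpr hξ) (by rw [← e]; exact hξT) hξX hξY)
    exact ⟨m, c₂, χ₂, hm⟩
  · -- `χ₂` is trivial
    have hc₂ : c₂ = 1 := by
      have h2 := B.val₂ 1 h1
      rw [← e, hT] at h2
      have h3 : (c₂ : ℂ) = 1 := h2.symm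
      exact_mod_cast h3
    obtain ⟨m, hm⟩ := s4705_tab1_core p x hp5 h.hx hperf T χ₁ c₁ ε Y hT B.hc₁ B.hε
      (by rw [e]; exact B.ne.symm) ((hov _).mp B.ov₁) ovY B.val₁ hTY B.n₁ B.Yne B.valY
      (by
        intro ψ hψ g hg
        have h2 := B.reg ψ hψ g hg
        rw [← e, hT, hc₂] at h2
        push_cast at h2
        linear_combination h2)
      B.Ysum
      (by
        intro ξ hξ hξT hξX hξY
        exact B.compl ξ ((hov _).mpr hξ) hξX (by rw [← e]; exact hξT) hξY)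
    exact ⟨m, c₁, χ₁, hm⟩

end Cfsg.Agent.Helper48
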