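import Mathlib

/-!
# Central subgroups inside the commutator subgroup (helper48)

* `center_commutator_mem_sylow` : an element of `Z(G) ∩ G'` lying in a Sylow subgroup `P` lies
  in `P'` (transfer).
* `card_commutator_le_two_of_index_four` : a central subgroup of index `4` forces `|G'| ≤ 2`.
* `card_le_two_of_center_commutator` : a subgroup of `Z(G) ∩ G'` of index `4 m`, `m` odd and
  squarefree, has order at most `2`.
-/

set_option autoImplicit false

namespace Cfsg.Agent.Helper48

open Subgroup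
open scoped commutatorElement

/-- An element of `Z(G) ∩ G'` lying in a Sylow subgroup `P` lies in `P'`. -/
theorem center_commutator_mem_sylow {G : Type*} [Group G] [Finite G] {p : ℕ} [Fact p.Prime]
    (P : Sylow p G) (z : G) (hzc : z ∈ center G) (hzd : z ∈ commutator G)
    (hzP : z ∈ (P : Subgroup G)) : z ∈ ⁅(P : Subgroup G), (P : Subgroup G)⁆ := by
  classical
  have hkey : ∀ (k : ℕ) (g₀ : G), g₀⁻¹ * z ^ k * g₀ ∈ (P : Subgroup G) →
      g₀⁻¹ * z ^ k * g₀ = z ^ k := by
    intro k g₀ _
    have hc : z ^ k ∈ center G := (center G).pow_mem hzc k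
    rw [mul_assoc, ← Subgroup.mem_center_iff.mp hc g₀, inv_mul_cancel_left]
  have h1 := MonoidHom.transfer_eq_pow
    (Abelianization.of : (P : Subgroup G) →* Abelianization (P : Subgroup G)) z hkey
  have h2 : MonoidHom.transfer
      (Abelianization.of : (P : Subgroup G) →* Abelianization (P : Subgroup G)) z = 1 :=
    MonoidHom.mem_ker.mp (Abelianization.commutator_subset_ker _ hzd)
  rw [h2] at h1
  have h3 : (⟨z ^ (P : Subgroup G).index, MonoidHom.transfer_eq_pow_aux z hkey⟩ :
      (P : Subgroup G)) ∈ commutator (P : Subgroup G) := by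
    rw [← Abelianization.ker_of]
    exact MonoidHom.mem_ker.mpr h1.symm
  have h4 : z ^ (P : Subgroup G).index ∈ ⁅(P : Subgroup G), (P : Subgroup G)⁆ := by
    rw [← Subgroup.map_subtype_commutator]
    exact ⟨_, h3, rfl⟩
  have hcop : Nat.Coprime (P : Subgroup G).index (orderOf z) := by
    obtain ⟨k, hk⟩ := (IsPGroup.iff_orderOf.mp P.isPGroup') ⟨z, hzP⟩
    rw [Subgroup.orderOf_mk] at hk
    rw [hk]
    apply Nat.Coprime.pow_right
    rw [Nat.coprime_comm]
    exact (Nat.Prime.coprime_iff_not_dvd (Fact.out : p.Prime)).mpr P.not_dvd_index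
  obtain ⟨m, hm⟩ := exists_pow_eq_self_of_coprime hcop
  rw [← hm]
  exact Subgroup.pow_mem _ h4 m

/-- A central subgroup of index `4` forces the commutator subgroup to have order at most `2`. -/
theorem card_commutator_le_two_of_index_four {G : Type*} [Group G] (Z : Subgroup G)
    (hZ : Z ≤ center G) (h4 : Z.index = 4) : Nat.card (commutator G) ≤ 2 := by
  classical
  have hN : Z.Normal := ⟨fun n hn g => by
    have h : g * n * g⁻¹ = n := by
      rw [Subgroup.mem_center_iff.mp (hZ hn) g, mul_inv_cancel_right]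
    rw [h]
    exact hn⟩
  have hcardQ : Nat.card (G ⧸ Z) = 4 := by
    rw [← Subgroup.index_eq_card]
    exact h4
  have hfin : Finite (G ⧸ Z) := Nat.finite_of_card_ne_zero (by rw [hcardQ]; norm_num)
  have hf2 : Fact (Nat.Prime 2) := ⟨Nat.prime_two⟩
  have hQc : IsMulCommutative (G ⧸ Z) :=
    IsPGroup.isMulCommutative_of_card_eq_prime_sq (p := 2) (by rw [hcardQ]; norm_num)
  have hQcomm : ∀ a b : G ⧸ Z, a * b = b * a := fun a b => hQc.is_comm.comm a b
  have hcen : ∀ z ∈ Z, ∀ g : G, g * z = z * g := fun z hz g => Subgroup.mem_center_iff.mp (hZ hz) g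
  have hcomZ : ∀ x y : G, ⁅x, y⁆ ∈ Z := by
    intro x y
    rw [← QuotientGroup.eq_one_iff, commutatorElement_def]
    simp only [QuotientGroup.mk_mul, QuotientGroup.mk_inv]
    rw [hQcomm (x : G ⧸ Z) y, mul_inv_cancel_right, mul_inv_cancel]
  -- bilinearity
  have hB1 : ∀ x x' y : G, ⁅x * x', y⁆ = ⁅x, y⁆ * ⁅x', y⁆ := by
    intro x x' y
    have h1 : ⁅x * x', y⁆ = x * ⁅x', y⁆ * x⁻¹ * ⁅x, y⁆ := by
      simp only [commutatorElement_def]
      group
    rw [h1, hcen _ (hcomZ x' y) x, mul_inv_cancel_right, hcen _ (hcomZ x y)]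
  have hB2 : ∀ x y y' : G, ⁅x, y * y'⁆ = ⁅x, y⁆ * ⁅x, y'⁆ := by
    intro x y y'
    have h1 : ⁅x, y * y'⁆ = ⁅x, y⁆ * (y * ⁅x, y'⁆ * y⁻¹) := by
      simp only [commutatorElement_def]
      group
    rw [h1, hcen _ (hcomZ x y') y, mul_inv_cancel_right]
  have hB3 : ∀ z ∈ Z, ∀ y : G, ⁅z, y⁆ = 1 := by
    intro z hz y
    rw [commutatorElement_def, ← hcen z hz y, mul_inv_cancel_right, mul_inv_cancel]
  have hB4 : ∀ z ∈ Z, ∀ x : G, ⁅x, z⁆ = 1 := by
    intro z hz x
    rw [← commutatorElement_inv, hB3 z hz x, inv_one]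
  by_cases hall : ∀ x y : G, ⁅x, y⁆ = 1
  · have hbot : commutator G = ⊥ := by
      rw [eq_bot_iff, commutator_eq_closure, Subgroup.closure_le]
      rintro _ ⟨x, y, rfl⟩
      rw [SetLike.mem_coe, Subgroup.mem_bot]
      exact hall x y
    rw [hbot, Subgroup.card_bot]
    norm_num
  · push Not at hall
    obtain ⟨a, b, hab⟩ := hall
    obtain ⟨c, hc⟩ : ∃ c : G, c = ⁅a, b⁆ := ⟨_, rfl⟩
    -- the quotient has exponent two
    have hQsq : ∀ q : G ⧸ Z, q * q = 1 := by
      intro q
      have hd : orderOf q ∣ 2 ^ 2 := by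
        have h := orderOf_dvd_natCard q
        rwa [hcardQ] at h
      obtain ⟨k, hk, hk'⟩ := (Nat.dvd_prime_pow Nat.prime_two).mp hd
      have hk2 : k ≠ 2 := by
        rintro rfl
        have hcyc : IsCyclic (G ⧸ Z) :=
          isCyclic_of_orderOf_eq_card q (by rw [hk', hcardQ]; norm_num)
        apply hab
        have hcomm := (MonoidHom.isMulCommutative_of_isCyclic_of_ker_le_center
          (QuotientGroup.mk' Z) (by rw [QuotientGroup.ker_mk']; exact hZ)).is_comm.comm a b
        rw [commutatorElement_def, hcomm, mul_inv_cancel_right, mul_inv_cancel]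
      have hd2 : orderOf q ∣ 2 := by
        rw [hk']
        interval_cases k
        · norm_num
        · norm_num
        · exact absurd rfl hk2
      rw [← pow_two]
      exact orderOf_dvd_iff_pow_eq_one.mp hd2
    have hsq : ∀ x : G, x * x ∈ Z := by
      intro x
      rw [← QuotientGroup.eq_one_iff, QuotientGroup.mk_mul]
      exact hQsq x
    have hcc : c * c = 1 := by
      rw [hc, ← hB1, hB3 _ (hsq a)]
    have hc' : ⁅b, a⁆ = c := by
      rw [← commutatorElement_inv, ← hc]
      exact inv_eq_of_mul_eq_one_left hcc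
    -- the quotient is {1, a, b, ab}
    have haZ : (a : G ⧸ Z) ≠ 1 := by
      intro h
      exact hab (hB3 a ((QuotientGroup.eq_one_iff a).mp h) b)
    have hbZ : (b : G ⧸ Z) ≠ 1 := by
      intro h
      exact hab (hB4 b ((QuotientGroup.eq_one_iff b).mp h) a)
    have habZ : (a : G ⧸ Z) ≠ (b : G ⧸ Z) := by
      intro h
      have h1 : a⁻¹ * b ∈ Z := QuotientGroup.eq.mp h
      apply hab
      have h2 : b = a * (a⁻¹ * b) := by rw [mul_inv_cancel_left]
      rw [h2, hB2, commutatorElement_self, one_mul, hB4 _ h1]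
    have hQ : ∀ q : G ⧸ Z, q = 1 ∨ q = (a : G ⧸ Z) ∨ q = (b : G ⧸ Z) ∨
        q = (a : G ⧸ Z) * (b : G ⧸ Z) := by
      intro q
      let _ : Fintype (G ⧸ Z) := Fintype.ofFinite _
      have h1 : (b : G ⧸ Z) ∉ ({(a : G ⧸ Z) * (b : G ⧸ Z)} : Finset (G ⧸ Z)) := by
        rw [Finset.mem_singleton]
        intro h
        apply haZ
        have h3 : (1 : G ⧸ Z) * (b : G ⧸ Z) = (a : G ⧸ Z) * (b : G ⧸ Z) := by
          rw [one_mul]
          exact h
        exact (mul_right_cancel h3).symm
      have h2 : (a : G ⧸ Z) ∉ (insert (b : G ⧸ Z) {(a : G ⧸ Z) * (b : G ⧸ Z)} :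
          Finset (G ⧸ Z)) := by
        rw [Finset.mem_insert, Finset.mem_singleton]
        rintro (h | h)
        · exact habZ h
        · apply hbZ
          have h3 : (a : G ⧸ Z) * 1 = (a : G ⧸ Z) * (b : G ⧸ Z) := by
            rw [mul_one]
            exact h
          exact (mul_left_cancel h3).symm
      have h3 : (1 : G ⧸ Z) ∉ (insert (a : G ⧸ Z) (insert (b : G ⧸ Z)
          {(a : G ⧸ Z) * (b : G ⧸ Z)}) : Finset (G ⧸ Z)) := by
        rw [Finset.mem_insert, Finset.mem_insert, Finset.mem_singleton]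
        rintro (h | h | h)
        · exact haZ h.symm
        · exact hbZ h.symm
        · apply habZ
          have h4 : (a : G ⧸ Z) * (a : G ⧸ Z) = (a : G ⧸ Z) * (b : G ⧸ Z) := by
            rw [hQsq]
            exact h
          exact mul_left_cancel h4
      have hcard : (insert (1 : G ⧸ Z) (insert (a : G ⧸ Z) (insert (b : G ⧸ Z)
          {(a : G ⧸ Z) * (b : G ⧸ Z)})) : Finset (G ⧸ Z)).card = Fintype.card (G ⧸ Z) := by
        rw [← Nat.card_eq_fintype_card, hcardQ, Finset.card_insert_of_notMem h3,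
          Finset.card_insert_of_notMem h2, Finset.card_insert_of_notMem h1, Finset.card_singleton]
      have hmem : q ∈ (insert (1 : G ⧸ Z) (insert (a : G ⧸ Z) (insert (b : G ⧸ Z)
          {(a : G ⧸ Z) * (b : G ⧸ Z)})) : Finset (G ⧸ Z)) := by
        rw [Finset.eq_univ_of_card _ hcard]
        exact Finset.mem_univ q
      rw [Finset.mem_insert, Finset.mem_insert, Finset.mem_insert, Finset.mem_singleton] at hmem
      exact hmem
    have hdec : ∀ x u : G, (x : G ⧸ Z) = (u : G ⧸ Z) → ∃ z ∈ Z, x = u * z := by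
      intro x u h
      exact ⟨u⁻¹ * x, QuotientGroup.eq.mp h.symm, by rw [mul_inv_cancel_left]⟩
    have hay : ∀ y : G, ⁅a, y⁆ = 1 ∨ ⁅a, y⁆ = c := by
      intro y
      rcases hQ y with h | h | h | h
      · left
        exact hB4 y ((QuotientGroup.eq_one_iff y).mp h) a
      · obtain ⟨z, hz, rfl⟩ := hdec y a h
        left
        rw [hB2, commutatorElement_self, one_mul, hB4 z hz]
      · obtain ⟨z, hz, rfl⟩ := hdec y b h
        right
        rw [hB2, hB4 z hz, mul_one, hc]
      · obtain ⟨z, hz, rfl⟩ := hdec y (a * b) (by rw [h, QuotientGroup.mk_mul])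
        right
        rw [hB2, hB4 z hz, mul_one, hB2, commutatorElement_self, one_mul, hc]
    have hby : ∀ y : G, ⁅b, y⁆ = 1 ∨ ⁅b, y⁆ = c := by
      intro y
      rcases hQ y with h | h | h | h
      · left
        exact hB4 y ((QuotientGroup.eq_one_iff y).mp h) b
      · obtain ⟨z, hz, rfl⟩ := hdec y a h
        right
        rw [hB2, hB4 z hz, mul_one, hc']
      · obtain ⟨z, hz, rfl⟩ := hdec y b h
        left
        rw [hB2, commutatorElement_self, one_mul, hB4 z hz]
      · obtain ⟨z, hz, rfl⟩ := hdec y (a * b) (by rw [h, QuotientGroup.mk_mul])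
        right
        rw [hB2, hB4 z hz, mul_one, hB2, commutatorElement_self, mul_one, hc']
    have hxy : ∀ x y : G, ⁅x, y⁆ = 1 ∨ ⁅x, y⁆ = c := by
      intro x y
      rcases hQ x with h | h | h | h
      · left
        exact hB3 x ((QuotientGroup.eq_one_iff x).mp h) y
      · obtain ⟨z, hz, rfl⟩ := hdec x a h
        rw [hB1, hB3 z hz, mul_one]
        exact hay y
      · obtain ⟨z, hz, rfl⟩ := hdec x b h
        rw [hB1, hB3 z hz, mul_one]
        exact hby y
      · obtain ⟨z, hz, rfl⟩ := hdec x (a * b) (by rw [h, QuotientGroup.mk_mul])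
        rw [hB1, hB3 z hz, mul_one, hB1]
        rcases hay y with h1 | h1 <;> rcases hby y with h2 | h2
        · left; rw [h1, h2, one_mul]
        · right; rw [h1, h2, one_mul]
        · right; rw [h1, h2, mul_one]
        · left; rw [h1, h2, hcc]
    have hle : commutator G ≤ Subgroup.zpowers c := by
      rw [commutator_eq_closure, Subgroup.closure_le]
      rintro _ ⟨x, y, rfl⟩
      rcases hxy x y with h | h
      · rw [h]
        exact Subgroup.one_mem _
      · rw [h]
        exact Subgroup.mem_zpowers c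
    have hfinz : Finite (Subgroup.zpowers c) := by
      have hpos : 0 < orderOf c := by
        rw [orderOf_pos_iff]
        exact isOfFinOrder_iff_pow_eq_one.mpr ⟨2, by norm_num, by rw [pow_two]; exact hcc⟩
      exact Nat.finite_of_card_ne_zero (by rw [Nat.card_zpowers]; omega)
    calc Nat.card (commutator G) ≤ Nat.card (Subgroup.zpowers c) := Subgroup.card_le_of_le hle
      _ = orderOf c := Nat.card_zpowers c
      _ ≤ 2 := Nat.le_of_dvd (by norm_num) (orderOf_dvd_of_pow_eq_one (by rw [pow_two]; exact hcc))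

/-- A subgroup of `Z(G) ∩ G'` of index `4 m`, `m` odd and squarefree, has order at most `2`. -/
theorem card_le_two_of_center_commutator {G : Type*} [Group G] [Finite G] (Z : Subgroup G)
    (hZc : Z ≤ center G) (hZd : Z ≤ commutator G) (m : ℕ) (hidx : Z.index = 4 * m)
    (hodd : Odd m) (hsf : Squarefree m) : Nat.card Z ≤ 2 := by
  classical
  have hN : Z.Normal := ⟨fun n hn g => by
    have h : g * n * g⁻¹ = n := by
      rw [Subgroup.mem_center_iff.mp (hZc hn) g, mul_inv_cancel_right]
    rw [h]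
    exact hn⟩
  -- odd primes
  have hoddp : ∀ (p : ℕ) [Fact p.Prime], p ≠ 2 → ∀ P : Sylow p G, ∀ z ∈ Z,
      z ∈ (P : Subgroup G) → z = 1 := by
    intro p hp hp2 P z hz hzP
    have h1 := center_commutator_mem_sylow P z (hZc hz) (hZd hz) hzP
    obtain ⟨f, hf⟩ : ∃ f : (P : Subgroup G) →* G ⧸ Z,
        f = (QuotientGroup.mk' Z).comp (P : Subgroup G).subtype := ⟨_, rfl⟩
    have hker : f.ker ≤ center (P : Subgroup G) := by
      intro x hx
      rw [MonoidHom.mem_ker, hf] at hx
      have hxZ : (x : G) ∈ Z := (QuotientGroup.eq_one_iff _).mp hx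
      rw [Subgroup.mem_center_iff]
      intro g
      exact Subtype.ext (Subgroup.mem_center_iff.mp (hZc hxZ) g)
    have hcyc : IsCyclic f.range := by
      have hd1 : Nat.card f.range ∣ Nat.card (P : Subgroup G) := Subgroup.card_range_dvd f
      have hd2 : Nat.card f.range ∣ 4 * m := by
        have h := Subgroup.card_subgroup_dvd_card f.range
        rwa [← Subgroup.index_eq_card, hidx] at h
      obtain ⟨k, hk⟩ := IsPGroup.iff_card.mp P.isPGroup'
      rw [hk] at hd1
      obtain ⟨j, hj, hj'⟩ := (Nat.dvd_prime_pow hp.out).mp hd1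
      have hj1 : j ≤ 1 := by
        by_contra hcon
        push Not at hcon
        have hp2m : p ^ 2 ∣ 4 * m := (pow_dvd_pow p hcon).trans (hj' ▸ hd2)
        have hcop : Nat.Coprime (p ^ 2) 4 := by
          have h2 : Nat.Coprime p 2 := (Nat.coprime_primes hp.out Nat.prime_two).mpr hp2
          exact Nat.Coprime.pow 2 2 h2
        have hpm : p ^ 2 ∣ m := hcop.dvd_of_dvd_mul_left hp2m
        have hu := hsf p (by rwa [pow_two] at hpm)
        exact hp.out.ne_one (Nat.isUnit_iff.mp hu)
      interval_cases j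
      · have hsub : Subsingleton f.range :=
          (Nat.card_eq_one_iff_unique.mp (by rw [hj', pow_zero])).1
        exact isCyclic_of_subsingleton
      · exact isCyclic_of_prime_card (p := p) (by rw [hj', pow_one])
    have hcomm := (MonoidHom.isMulCommutative_of_isCyclic_of_ker_le_center f.rangeRestrict
      (by rw [MonoidHom.ker_rangeRestrict]; exact hker)).is_comm.comm
    have hbot : ⁅(P : Subgroup G), (P : Subgroup G)⁆ = ⊥ := by
      rw [eq_bot_iff, Subgroup.commutator_le]
      intro x hx y hy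
      have hxy : x * y = y * x := congrArg Subtype.val (hcomm ⟨x, hx⟩ ⟨y, hy⟩)
      rw [Subgroup.mem_bot, commutatorElement_def, hxy, mul_inv_cancel_right, mul_inv_cancel]
    rw [hbot] at h1
    exact Subgroup.mem_bot.mp h1
  -- `Z` is a 2-group
  have hZ2 : ∃ k : ℕ, Nat.card Z = 2 ^ k := by
    refine ⟨_, Nat.eq_prime_pow_of_unique_prime_dvd Nat.card_pos.ne' ?_⟩
    intro p hp hpd
    by_contra hp2
    have : Fact p.Prime := ⟨hp⟩
    obtain ⟨x, hx⟩ := exists_prime_orderOf_dvd_card' p hpd
    have hpg : IsPGroup p (Subgroup.zpowers (x : G)) := by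
      apply IsPGroup.of_card (n := 1)
      rw [Nat.card_zpowers, Subgroup.orderOf_coe, hx, pow_one]
    obtain ⟨P, hP⟩ := hpg.exists_le_sylow
    have h1 := hoddp p hp2 P (x : G) x.2 (hP (Subgroup.mem_zpowers _))
    have h2 : orderOf (x : G) = 1 := by rw [h1, orderOf_one]
    rw [Subgroup.orderOf_coe, hx] at h2
    exact hp.ne_one h2
  obtain ⟨k, hk⟩ := hZ2
  have : Fact (Nat.Prime 2) := ⟨Nat.prime_two⟩
  obtain ⟨P, hP⟩ := (IsPGroup.of_card hk : IsPGroup 2 Z).exists_le_sylow
  -- the index of `Z` in `P`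
  have hrel : Z.relIndex (P : Subgroup G) = 4 := by
    have h1 : Z.relIndex (P : Subgroup G) * (P : Subgroup G).index = 4 * m := by
      rw [Subgroup.relIndex_mul_index hP, hidx]
    obtain ⟨a, ha⟩ := IsPGroup.iff_card.mp P.isPGroup'
    have h2 : Z.relIndex (P : Subgroup G) ∣ 2 ^ a := by
      rw [← ha]
      exact Subgroup.index_dvd_card _
    obtain ⟨j, hj, hj'⟩ := (Nat.dvd_prime_pow Nat.prime_two).mp h2
    have hPodd : Nat.Coprime 2 (P : Subgroup G).index :=
      (Nat.Prime.coprime_iff_not_dvd Nat.prime_two).mpr P.not_dvd_index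
    have hmodd : Nat.Coprime 2 m := Nat.coprime_two_left.mpr hodd
    rw [hj'] at h1 ⊢
    have h3 : 2 ^ j ∣ 2 ^ 2 := by
      have h4 : 2 ^ j ∣ 2 ^ 2 * m := ⟨_, h1.symm⟩
      exact (Nat.Coprime.pow_left j hmodd).dvd_of_dvd_mul_right h4
    have h5 : 2 ^ 2 ∣ 2 ^ j := by
      have h6 : 2 ^ 2 ∣ 2 ^ j * (P : Subgroup G).index := ⟨m, h1⟩
      exact (Nat.Coprime.pow_left 2 hPodd).dvd_of_dvd_mul_right h6
    exact Nat.dvd_antisymm h3 h5
  have hK := card_commutator_le_two_of_index_four (Z.subgroupOf (P : Subgroup G))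
    (by
      intro x hx
      rw [Subgroup.mem_center_iff]
      intro g
      exact Subtype.ext (Subgroup.mem_center_iff.mp (hZc (Subgroup.mem_subgroupOf.mp hx)) g))
    hrel
  have hle : Z ≤ ⁅(P : Subgroup G), (P : Subgroup G)⁆ := fun z hz =>
    center_commutator_mem_sylow P z (hZc hz) (hZd hz) (hP hz)
  calc Nat.card Z ≤ Nat.card (⁅(P : Subgroup G), (P : Subgroup G)⁆ : Subgroup G) :=
        Subgroup.card_le_of_le hle
    _ = Nat.card (commutator (P : Subgroup G)) := by
        rw [← Subgroup.map_subtype_commutator,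
          Subgroup.card_map_of_injective (Subgroup.subtype_injective _)]
    _ ≤ 2 := hK

end Cfsg.Agent.Helper48
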