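import Mathlib

/-!
# Coset enumeration for Carmichael's relations (helper48)

Elements `y 0, …, y (m-1)` of a finite group with `y p ^ 3 = 1` and `(y p * y q) ^ 2 = 1`
(`p ≠ q`) generate a subgroup of order at most `(m + 2)! / 2`.

* `carmichael_card_le` : the bound.
-/

set_option autoImplicit false

namespace Cfsg.Agent.Helper48

section Pair

variable {G : Type*} [Group G] {u v a b c : G}

theorem cube_inv_eq (hu : u * u * u = 1) : u⁻¹ = u * u := by
  rw [inv_eq_iff_mul_eq_one, ← mul_assoc]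
  exact hu

theorem cube_inv_inv_eq (hu : u * u * u = 1) : u⁻¹ * u⁻¹ = u := by
  rw [cube_inv_eq hu]
  calc u * u * (u * u) = u * u * u * u := by rw [mul_assoc (u * u) u u]
    _ = u := by rw [hu, one_mul]

theorem pair_sq_swap (h : u * v * (u * v) = 1) : v * u * (v * u) = 1 := by
  have h1 : v * u * (v * u) = u⁻¹ * (u * v * (u * v)) * u := by group
  rw [h1, h, mul_one, inv_mul_cancel]

theorem pair_sq_comm (h : u * v * (u * v) = 1) : v * u = u⁻¹ * v⁻¹ := by
  have h' := pair_sq_swap h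
  rw [← mul_inv_rev]
  exact (inv_eq_of_mul_eq_one_left h').symm

theorem pair_sq_inv (h : u * v * (u * v) = 1) : v⁻¹ * u⁻¹ = u * v := by
  rw [← mul_inv_rev]
  exact inv_eq_of_mul_eq_one_left h

/-- `b c b⁻¹ = c⁻¹ b`. -/
theorem pair_conj (hb : b * b * b = 1) (h : b * c * (b * c) = 1) : c⁻¹ * b = b * (c * b⁻¹) := by
  have h1 : b * c * b = c⁻¹ := by
    apply eq_inv_of_mul_eq_one_left
    rw [← h]
    simp only [mul_assoc]
  rw [cube_inv_eq hb, ← h1]
  simp only [mul_assoc]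

/-- the braid relation `c a⁻¹ c = a⁻¹ c a⁻¹`. -/
theorem pair_braid (ha : a * a * a = 1) (hc : c * c * c = 1) (h : a * c * (a * c) = 1) :
    c * a⁻¹ * c = a⁻¹ * (c * a⁻¹) := by
  have h1 : c * a = a⁻¹ * c⁻¹ := pair_sq_comm h
  have h2 : a * c = c⁻¹ * a⁻¹ := pair_sq_comm (pair_sq_swap h)
  calc c * a⁻¹ * c = c * (a * a) * c := by rw [cube_inv_eq ha]
    _ = (c * a) * (a * c) := by simp only [mul_assoc]
    _ = (a⁻¹ * c⁻¹) * (c⁻¹ * a⁻¹) := by rw [h1, h2]
    _ = a⁻¹ * (c⁻¹ * c⁻¹) * a⁻¹ := by simp only [mul_assoc]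
    _ = a⁻¹ * (c * a⁻¹) := by rw [cube_inv_inv_eq hc, mul_assoc]

/-- `c a⁻¹ b = (a⁻¹ b) (c a⁻¹)`. -/
theorem triple_rel (ha : a * a * a = 1) (hab : a * b * (a * b) = 1)
    (hac : a * c * (a * c) = 1) (hbc : b * c * (b * c) = 1) :
    c * a⁻¹ * b = a⁻¹ * b * (c * a⁻¹) := by
  have h1 : c * a = a⁻¹ * c⁻¹ := pair_sq_comm hac
  have h2 : a * b = b⁻¹ * a⁻¹ := pair_sq_comm (pair_sq_swap hab)
  have h3 : c⁻¹ * b⁻¹ = b * c := pair_sq_inv hbc
  calc c * a⁻¹ * b = c * (a * a) * b := by rw [cube_inv_eq ha]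
    _ = (c * a) * (a * b) := by simp only [mul_assoc]
    _ = (a⁻¹ * c⁻¹) * (b⁻¹ * a⁻¹) := by rw [h1, h2]
    _ = a⁻¹ * (c⁻¹ * b⁻¹) * a⁻¹ := by simp only [mul_assoc]
    _ = a⁻¹ * b * (c * a⁻¹) := by rw [h3]; simp only [mul_assoc]

end Pair

section Enum

variable {G : Type*} [Group G]

/-- coset representatives -/
noncomputable def carmRep (y : ℕ → G) (m : ℕ) (i : ℕ) : G :=
  if i < m then y m * (y i)⁻¹ else if i = m then 1 else if i = m + 1 then y m else (y m)⁻¹

theorem carmRep_lt (y : ℕ → G) (m i : ℕ) (h : i < m) : carmRep y m i = y m * (y i)⁻¹ := by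
  unfold carmRep
  rw [if_pos h]

theorem carmRep_m (y : ℕ → G) (m : ℕ) : carmRep y m m = 1 := by
  unfold carmRep
  rw [if_neg (lt_irrefl m), if_pos rfl]

theorem carmRep_m1 (y : ℕ → G) (m : ℕ) : carmRep y m (m + 1) = y m := by
  unfold carmRep
  rw [if_neg (by omega), if_neg (by omega), if_pos rfl]

theorem carmRep_m2 (y : ℕ → G) (m : ℕ) : carmRep y m (m + 2) = (y m)⁻¹ := by
  unfold carmRep
  rw [if_neg (by omega), if_neg (by omega), if_neg (by omega)]

/-- one step of the coset enumeration -/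
theorem carmichael_step (y : ℕ → G) (m : ℕ)
    (h3 : ∀ p, p < m + 1 → y p * y p * y p = 1)
    (h2 : ∀ p q, p < m + 1 → q < m + 1 → p ≠ q → y p * y q * (y p * y q) = 1)
    (H : Subgroup G) (hH : ∀ p, p < m → y p ∈ H) (i : ℕ) (hi : i < m + 3) (j : ℕ)
    (hj : j < m + 1) :
    ∃ i', i' < m + 3 ∧ ∃ h ∈ H, carmRep y m i * y j = h * carmRep y m i' := by
  rcases (by omega : i < m ∨ m = i ∨ m + 1 = i ∨ m + 2 = i) with hi' | rfl | rfl | rfl
  · rw [carmRep_lt y m i hi']
    rcases (by omega : m = j ∨ i = j ∨ (j < m ∧ j ≠ i)) with rfl | rfl | ⟨hjm, hji⟩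
    · refine ⟨i, by omega, (y i)⁻¹, H.inv_mem (hH i hi'), ?_⟩
      rw [carmRep_lt y m i hi']
      exact pair_braid (h3 i (by omega)) (h3 m (by omega)) (h2 i m (by omega) (by omega) (by omega))
    · refine ⟨m + 1, by omega, 1, H.one_mem, ?_⟩
      rw [carmRep_m1, one_mul, inv_mul_cancel_right]
    · refine ⟨i, by omega, (y i)⁻¹ * y j, H.mul_mem (H.inv_mem (hH i hi')) (hH j hjm), ?_⟩
      rw [carmRep_lt y m i hi']
      exact triple_rel (h3 i (by omega)) (h2 i j (by omega) (by omega) (Ne.symm hji))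
        (h2 i m (by omega) (by omega) (by omega)) (h2 j m (by omega) (by omega) (by omega))
  · rw [carmRep_m, one_mul]
    rcases (by omega : m = j ∨ j < m) with rfl | hjm
    · exact ⟨m + 1, by omega, 1, H.one_mem, by rw [carmRep_m1, one_mul]⟩
    · exact ⟨m, by omega, y j, hH j hjm, by rw [carmRep_m, mul_one]⟩
  · rw [carmRep_m1]
    rcases (by omega : m = j ∨ j < m) with rfl | hjm
    · refine ⟨m + 2, by omega, 1, H.one_mem, ?_⟩
      rw [carmRep_m2, one_mul, cube_inv_eq (h3 m (by omega))]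
    · refine ⟨m + 2, by omega, (y j)⁻¹, H.inv_mem (hH j hjm), ?_⟩
      rw [carmRep_m2]
      exact pair_sq_comm (h2 j m (by omega) (by omega) (by omega))
  · rw [carmRep_m2]
    rcases (by omega : m = j ∨ j < m) with rfl | hjm
    · exact ⟨m, by omega, 1, H.one_mem, by rw [carmRep_m, inv_mul_cancel, one_mul]⟩
    · refine ⟨j, by omega, y j, hH j hjm, ?_⟩
      rw [carmRep_lt y m j hjm]
      exact pair_conj (h3 j (by omega)) (h2 j m (by omega) (by omega) (by omega))

/-- the cosets cover the subgroup generated by one more element -/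
theorem carmichael_cover (y : ℕ → G) (m : ℕ)
    (h3 : ∀ p, p < m + 1 → y p * y p * y p = 1)
    (h2 : ∀ p q, p < m + 1 → q < m + 1 → p ≠ q → y p * y q * (y p * y q) = 1)
    (H : Subgroup G) (hH : ∀ p, p < m → y p ∈ H) (g : G)
    (hg : g ∈ Subgroup.closure {g : G | ∃ p, p < m + 1 ∧ g = y p}) :
    ∃ i, i < m + 3 ∧ ∃ h ∈ H, g = h * carmRep y m i := by
  let S : Set G := {g | ∃ i, i < m + 3 ∧ ∃ h ∈ H, g = h * carmRep y m i}
  have hstep : ∀ s ∈ S, ∀ j, j < m + 1 → s * y j ∈ S := by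
    rintro s ⟨i, hi, h, hh, rfl⟩ j hj
    obtain ⟨i', hi', h', hh', e⟩ := carmichael_step y m h3 h2 H hH i hi j hj
    exact ⟨i', hi', h * h', H.mul_mem hh hh', by rw [mul_assoc, e, mul_assoc]⟩
  let T : Subgroup G :=
    { carrier := {t | ∀ s ∈ S, s * t ∈ S ∧ s * t⁻¹ ∈ S}
      mul_mem' := fun {a b} ha hb s hs =>
        ⟨by rw [← mul_assoc]; exact (hb _ (ha s hs).1).1,
         by rw [mul_inv_rev, ← mul_assoc]; exact (ha _ (hb s hs).2).2⟩
      one_mem' := fun s hs => by simpa using hs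
      inv_mem' := fun {a} ha s hs => ⟨(ha s hs).2, by rw [inv_inv]; exact (ha s hs).1⟩ }
  have hgen : Subgroup.closure {g : G | ∃ p, p < m + 1 ∧ g = y p} ≤ T := by
    rw [Subgroup.closure_le]
    rintro _ ⟨j, hj, rfl⟩ s hs
    refine ⟨hstep s hs j hj, ?_⟩
    rw [cube_inv_eq (h3 j hj), ← mul_assoc]
    exact hstep _ (hstep s hs j hj) j hj
  have h1 : (1 : G) ∈ S := ⟨m, by omega, 1, H.one_mem, by rw [carmRep_m, mul_one]⟩
  have h4 := (hgen hg) 1 h1
  have h5 : g ∈ S := by simpa using h4.1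
  exact h5

/-- the index bound -/
theorem carmichael_card_step [Finite G] (y : ℕ → G) (m : ℕ)
    (h3 : ∀ p, p < m + 1 → y p * y p * y p = 1)
    (h2 : ∀ p q, p < m + 1 → q < m + 1 → p ≠ q → y p * y q * (y p * y q) = 1) :
    Nat.card (Subgroup.closure {g : G | ∃ p, p < m + 1 ∧ g = y p}) ≤
      (m + 3) * Nat.card (Subgroup.closure {g : G | ∃ p, p < m ∧ g = y p}) := by
  obtain ⟨H, hHdef⟩ : ∃ H : Subgroup G, H = Subgroup.closure {g : G | ∃ p, p < m ∧ g = y p} :=
    ⟨_, rfl⟩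
  have hH : ∀ p, p < m → y p ∈ H := by
    intro p hp
    rw [hHdef]
    exact Subgroup.subset_closure ⟨p, hp, rfl⟩
  rw [← hHdef]
  have hex : ∀ g : Subgroup.closure {g : G | ∃ p, p < m + 1 ∧ g = y p},
      ∃ x : Fin (m + 3) × H, (g : G) = (x.2 : G) * carmRep y m x.1.val := by
    intro g
    obtain ⟨i, hi, h, hh, e⟩ := carmichael_cover y m h3 h2 H hH g.1 g.2
    exact ⟨(⟨i, hi⟩, ⟨h, hh⟩), e⟩
  choose φ hφ using hex
  have hinj : Function.Injective φ := by
    intro a b hab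
    apply Subtype.ext
    rw [hφ a, hφ b, hab]
  have h := Nat.card_le_card_of_injective φ hinj
  rwa [Nat.card_prod, Nat.card_fin] at h

/-- Carmichael's relations bound the order of the generated subgroup. -/
theorem carmichael_card_le [Finite G] (y : ℕ → G) :
    ∀ m : ℕ, (∀ p, p < m → y p * y p * y p = 1) →
      (∀ p q, p < m → q < m → p ≠ q → y p * y q * (y p * y q) = 1) →
      2 * Nat.card (Subgroup.closure {g : G | ∃ p, p < m ∧ g = y p}) ≤ (m + 2).factorial := by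
  intro m
  induction m with
  | zero =>
    intro _ _
    have h0 : {g : G | ∃ p, p < 0 ∧ g = y p} = ∅ := by
      ext g
      simp
    rw [h0, Subgroup.closure_empty, Subgroup.card_bot]
    decide
  | succ m ih =>
    intro h3 h2
    have h := carmichael_card_step y m h3 h2
    have ih' := ih (fun p hp => h3 p (by omega)) (fun p q hp hq hpq => h2 p q (by omega) (by omega) hpq)
    have e : (m + 1 + 2).factorial = (m + 3) * (m + 2).factorial := by
      rw [show m + 1 + 2 = (m + 2) + 1 from rfl, Nat.factorial_succ]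
    rw [e]
    calc 2 * Nat.card (Subgroup.closure {g : G | ∃ p, p < m + 1 ∧ g = y p})
        ≤ 2 * ((m + 3) * Nat.card (Subgroup.closure {g : G | ∃ p, p < m ∧ g = y p})) :=
          Nat.mul_le_mul_left _ h
      _ = (m + 3) * (2 * Nat.card (Subgroup.closure {g : G | ∃ p, p < m ∧ g = y p})) := by ring
      _ ≤ (m + 3) * (m + 2).factorial := Nat.mul_le_mul_left _ ih'

end Enum

end Cfsg.Agent.Helper48
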