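import Mathlib
import Cfsg.Agent.Helper37.DcC

/-!
# Three-cycles for the Schur multiplier of the alternating groups (helper48)

* `cyc3 a b c` : the three-cycle `a ↦ c ↦ b ↦ a`.
* `cyc3_conj`, `cyc3_cube`, `cyc3_sign`, `cyc3_inv`, `cyc3_apply_*`.
* `cyc3_inverter` : a three-cycle is inverted by an even permutation (degree at least five).
* `cyc3_centralizer` : the centraliser of a three-cycle is `⟨τ⟩ × (pointwise stabiliser)`.
* `fix3`, `fix3_perfect` : the even permutations fixing three points form a perfect group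
  (degree at least eight).
* `cyc3_closure` : the three-cycles `(0 1 p)` generate the alternating group.
-/

set_option autoImplicit false

namespace Cfsg.Agent.Helper48

open Equiv

section Cyc

variable {α : Type*} [DecidableEq α]

/-- the three-cycle `a ↦ c ↦ b ↦ a` -/
def cyc3 (a b c : α) : Perm α := swap a b * swap a c

theorem cyc3_conj (g : Perm α) (a b c : α) :
    g * cyc3 a b c * g⁻¹ = cyc3 (g a) (g b) (g c) := by
  unfold cyc3
  rw [swap_apply_apply, swap_apply_apply]
  group

theorem cyc3_inv (a b c : α) : (cyc3 a b c)⁻¹ = cyc3 a c b := by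
  unfold cyc3
  rw [mul_inv_rev, swap_inv, swap_inv]

theorem cyc3_apply_a {a b c : α} (hac : a ≠ c) (hbc : b ≠ c) : cyc3 a b c a = c := by
  unfold cyc3
  rw [Perm.mul_apply, swap_apply_left, swap_apply_of_ne_of_ne hac.symm hbc.symm]

theorem cyc3_apply_c {a b c : α} : cyc3 a b c c = b := by
  unfold cyc3
  rw [Perm.mul_apply, swap_apply_right, swap_apply_left]

theorem cyc3_apply_b {a b c : α} (hab : a ≠ b) (hbc : b ≠ c) : cyc3 a b c b = a := by
  unfold cyc3
  rw [Perm.mul_apply, swap_apply_of_ne_of_ne hab.symm hbc, swap_apply_right]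

theorem cyc3_apply_of_ne {a b c x : α} (hxa : x ≠ a) (hxb : x ≠ b) (hxc : x ≠ c) :
    cyc3 a b c x = x := by
  unfold cyc3
  rw [Perm.mul_apply, swap_apply_of_ne_of_ne hxa hxc, swap_apply_of_ne_of_ne hxa hxb]

end Cyc

section CycFin

variable {α : Type*} [DecidableEq α] [Fintype α]

theorem cyc3_cube {a b c : α} (hab : a ≠ b) (hac : a ≠ c) (hbc : b ≠ c) :
    cyc3 a b c * cyc3 a b c * cyc3 a b c = 1 := by
  have h := (Perm.isThreeCycle_swap_mul_swap_same hab hac hbc).orderOf
  have h2 := pow_orderOf_eq_one (cyc3 a b c)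
  unfold cyc3 at h2 ⊢
  rw [h, pow_succ, pow_two] at h2
  exact h2

theorem cyc3_sign {a b c : α} (hab : a ≠ b) (hac : a ≠ c) : Perm.sign (cyc3 a b c) = 1 := by
  unfold cyc3
  rw [map_mul, Perm.sign_swap hab, Perm.sign_swap hac]
  rfl

/-- A three-cycle is inverted by an even permutation. -/
theorem cyc3_inverter {a b c d e : α} (hab : a ≠ b) (hac : a ≠ c) (hbc : b ≠ c) (hde : d ≠ e)
    (hda : d ≠ a) (hea : e ≠ a) (hdb : d ≠ b) (heb : e ≠ b) (hdc : d ≠ c) (hec : e ≠ c) :
    Perm.sign (swap b c * swap d e) = 1 ∧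
      (swap b c * swap d e) * cyc3 a b c * (swap b c * swap d e)⁻¹ = (cyc3 a b c)⁻¹ := by
  refine ⟨?_, ?_⟩
  · rw [map_mul, Perm.sign_swap hbc, Perm.sign_swap hde]
    rfl
  · rw [cyc3_conj, cyc3_inv]
    have h1 : (swap b c * swap d e) a = a := by
      rw [Perm.mul_apply, swap_apply_of_ne_of_ne hda.symm hea.symm, swap_apply_of_ne_of_ne hab hac]
    have h2 : (swap b c * swap d e) b = c := by
      rw [Perm.mul_apply, swap_apply_of_ne_of_ne hdb.symm heb.symm, swap_apply_left]
    have h3 : (swap b c * swap d e) c = b := by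
      rw [Perm.mul_apply, swap_apply_of_ne_of_ne hdc.symm hec.symm, swap_apply_right]
    rw [h1, h2, h3]

omit [Fintype α] in
/-- A permutation commuting with a three-cycle and fixing one of its points fixes all three. -/
theorem cyc3_commute_fix {a b c : α} (hac : a ≠ c) (hbc : b ≠ c) (k : Perm α)
    (hk : k * cyc3 a b c = cyc3 a b c * k) (hka : k a = a) : k b = b ∧ k c = c := by
  have hc : k c = c := by
    have h := congrArg (fun f : Perm α => f a) hk
    simp only [Perm.mul_apply] at h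
    rw [cyc3_apply_a hac hbc, hka, cyc3_apply_a hac hbc] at h
    exact h
  have hb : k b = b := by
    have h := congrArg (fun f : Perm α => f c) hk
    simp only [Perm.mul_apply] at h
    rw [cyc3_apply_c, hc, cyc3_apply_c] at h
    exact h
  exact ⟨hb, hc⟩

omit [Fintype α] in
/-- The centraliser of a three-cycle. -/
theorem cyc3_centralizer {a b c : α} (hac : a ≠ c) (hbc : b ≠ c) (k : Perm α)
    (hk : k * cyc3 a b c = cyc3 a b c * k) :
    ∃ (e : ℕ) (k' : Perm α), k = cyc3 a b c ^ e * k' ∧ k' a = a ∧ k' b = b ∧ k' c = c := by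
  have hmem : k a = a ∨ k a = b ∨ k a = c := by
    by_contra hcon
    push Not at hcon
    have h := congrArg (fun f : Perm α => f a) hk
    simp only [Perm.mul_apply] at h
    rw [cyc3_apply_a hac hbc, cyc3_apply_of_ne hcon.1 hcon.2.1 hcon.2.2] at h
    exact hac (k.injective h).symm
  have key : ∀ e : ℕ, (cyc3 a b c ^ e) a = k a →
      ∃ (e : ℕ) (k' : Perm α), k = cyc3 a b c ^ e * k' ∧ k' a = a ∧ k' b = b ∧ k' c = c := by
    intro e he
    have h1 : (cyc3 a b c ^ e)⁻¹ * cyc3 a b c = cyc3 a b c * (cyc3 a b c ^ e)⁻¹ :=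
      ((Commute.refl (cyc3 a b c)).pow_left e).inv_left.eq
    have hcomm : (cyc3 a b c ^ e)⁻¹ * k * cyc3 a b c = cyc3 a b c * ((cyc3 a b c ^ e)⁻¹ * k) := by
      rw [mul_assoc, hk, ← mul_assoc, h1, mul_assoc]
    have hka : ((cyc3 a b c ^ e)⁻¹ * k) a = a := by
      rw [Perm.mul_apply, ← he, Perm.inv_eq_iff_eq]
    obtain ⟨hb, hc⟩ := cyc3_commute_fix hac hbc _ hcomm hka
    exact ⟨e, (cyc3 a b c ^ e)⁻¹ * k, by rw [mul_inv_cancel_left], hka, hb, hc⟩
  rcases hmem with h | h | h
  · exact key 0 (by rw [pow_zero, Perm.one_apply, h])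
  · exact key 2 (by rw [pow_two, Perm.mul_apply, cyc3_apply_a hac hbc, cyc3_apply_c, h])
  · exact key 1 (by rw [pow_one, cyc3_apply_a hac hbc, h])

/-- the even permutations fixing `a`, `b` and `c` -/
def fix3 (a b c : α) : Subgroup (Perm α) where
  carrier := {σ | Perm.sign σ = 1 ∧ σ a = a ∧ σ b = b ∧ σ c = c}
  mul_mem' := by
    rintro σ ρ ⟨h1, h2, h3, h4⟩ ⟨h1', h2', h3', h4'⟩
    refine ⟨by rw [map_mul, h1, h1', mul_one], ?_, ?_, ?_⟩
    · rw [Perm.mul_apply, h2', h2]
    · rw [Perm.mul_apply, h3', h3]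
    · rw [Perm.mul_apply, h4', h4]
  one_mem' := ⟨map_one _, rfl, rfl, rfl⟩
  inv_mem' := by
    rintro σ ⟨h1, h2, h3, h4⟩
    refine ⟨by rw [map_inv, h1, inv_one], ?_, ?_, ?_⟩
    · rw [Perm.inv_eq_iff_eq, h2]
    · rw [Perm.inv_eq_iff_eq, h3]
    · rw [Perm.inv_eq_iff_eq, h4]

theorem mem_fix3 {a b c : α} {σ : Perm α} :
    σ ∈ fix3 a b c ↔ Perm.sign σ = 1 ∧ σ a = a ∧ σ b = b ∧ σ c = c := Iff.rfl

theorem fix3_le_alternating (a b c : α) : fix3 a b c ≤ alternatingGroup α :=
  fun _ hσ => Perm.mem_alternatingGroup.mpr hσ.1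

/-- Elements of `fix3 a b c` commute with the three-cycle. -/
theorem fix3_commute {a b c : α} {σ : Perm α} (hσ : σ ∈ fix3 a b c) :
    σ * cyc3 a b c = cyc3 a b c * σ := by
  have h := cyc3_conj σ a b c
  rw [hσ.2.1, hσ.2.2.1, hσ.2.2.2] at h
  exact mul_inv_eq_iff_eq_mul.mp h

/-- The even permutations fixing three points form a perfect group in degree at least `8`. -/
theorem fix3_perfect (a b c : α) (h8 : 8 ≤ Fintype.card α) :
    fix3 a b c ≤ ⁅fix3 a b c, fix3 a b c⁆ := by
  classical
  obtain ⟨s, hs⟩ : ∃ s : Finset α, s = {a, b, c} := ⟨_, rfl⟩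
  have hsa : a ∈ s := by rw [hs]; simp
  have hsb : b ∈ s := by rw [hs]; simp
  have hsc : c ∈ s := by rw [hs]; simp
  have hs3 : s.card ≤ 3 := by
    rw [hs]
    exact Finset.card_le_three
  have h5 : 5 ≤ Nat.card {x // x ∉ s} := by
    rw [Nat.card_eq_fintype_card, Fintype.card_subtype_compl, Fintype.card_coe]
    omega
  have hmap : fix3 a b c = (alternatingGroup {x // x ∉ s}).map Perm.ofSubtype := by
    ext σ
    constructor
    · intro hσ
      have hfix : ∀ x, x ∈ s → σ x = x := by
        intro x hx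
        rw [hs, Finset.mem_insert, Finset.mem_insert, Finset.mem_singleton] at hx
        rcases hx with rfl | rfl | rfl
        · exact hσ.2.1
        · exact hσ.2.2.1
        · exact hσ.2.2.2
      have h1 : ∀ x, σ x ∉ s ↔ x ∉ s := by
        intro x
        constructor
        · intro h hx
          rw [hfix x hx] at h
          exact h hx
        · intro h hx
          apply h
          have h2 := hfix _ hx
          rw [← σ.injective h2]
          exact hx
      have h2 : ∀ x, σ x ≠ x → x ∉ s := fun x hx hxs => hx (hfix x hxs)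
      refine ⟨Perm.subtypePerm σ h1, ?_, Perm.ofSubtype_subtypePerm h1 h2⟩
      rw [SetLike.mem_coe, Perm.mem_alternatingGroup, Perm.sign_subtypePerm σ h1 h2]
      exact hσ.1
    · rintro ⟨ρ, hρ, rfl⟩
      rw [SetLike.mem_coe, Perm.mem_alternatingGroup] at hρ
      refine ⟨by rw [Perm.sign_ofSubtype]; exact hρ, ?_, ?_, ?_⟩
      · exact Perm.ofSubtype_apply_of_not_mem ρ (fun h => h hsa)
      · exact Perm.ofSubtype_apply_of_not_mem ρ (fun h => h hsb)
      · exact Perm.ofSubtype_apply_of_not_mem ρ (fun h => h hsc)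
  rw [hmap, ← Subgroup.map_commutator, commutator_alternatingGroup_eq_self h5]

omit [Fintype α] in
/-- The product of two of Carmichael's generators is an involution. -/
theorem cyc3_mul_sq {u v p q : α} (huv : u ≠ v) (hpv : p ≠ v) (hqu : q ≠ u)
    (hqv : q ≠ v) (hpq : p ≠ q) :
    cyc3 u p v * cyc3 u q v * (cyc3 u p v * cyc3 u q v) = 1 := by
  have h1 : swap u v * swap u q * swap u v = swap v q := by
    have h := swap_apply_apply (swap u v) u q
    rw [swap_apply_left, swap_apply_of_ne_of_ne hqu hqv, swap_inv] at h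
    exact h.symm
  have h2 : cyc3 u p v * cyc3 u q v = swap u p * swap v q := by
    unfold cyc3
    rw [← h1]
    simp only [mul_assoc]
  have h3 : swap u p * swap v q * swap u p = swap v q := by
    have h := swap_apply_apply (swap u p) v q
    rw [swap_apply_of_ne_of_ne huv.symm hpv.symm, swap_apply_of_ne_of_ne hqu hpq.symm,
      swap_inv] at h
    exact h.symm
  rw [h2]
  calc swap u p * swap v q * (swap u p * swap v q)
      = swap u p * swap v q * swap u p * swap v q := by rw [← mul_assoc]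
    _ = 1 := by rw [h3, swap_mul_self]

end CycFin

section Gen

/-- points of `Fin (m + 3)` -/
def fpt (m : ℕ) (k : ℕ) : Fin (m + 3) := if h : k < m + 3 then ⟨k, h⟩ else ⟨0, by omega⟩

theorem fpt_val (m k : ℕ) (h : k < m + 3) : (fpt m k).val = k := by
  unfold fpt
  rw [dif_pos h]

theorem fpt_eq (m k : ℕ) (h : k < m + 3) : fpt m k = ⟨k, h⟩ := by
  unfold fpt
  rw [dif_pos h]

theorem fpt_ne (m : ℕ) {k l : ℕ} (hk : k < m + 3) (hl : l < m + 3) (hkl : k ≠ l) :
    fpt m k ≠ fpt m l := by
  intro h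
  apply hkl
  rw [← fpt_val m k hk, ← fpt_val m l hl, h]

/-- Carmichael's generators `(0 1 j+2)` of the alternating group -/
def xgen (m : ℕ) (j : ℕ) : Perm (Fin (m + 3)) := cyc3 (fpt m 0) (fpt m (j + 2)) (fpt m 1)

theorem xgen_cube (m j : ℕ) (hj : j < m + 1) : xgen m j * xgen m j * xgen m j = 1 :=
  cyc3_cube (fpt_ne m (by omega) (by omega) (by omega)) (fpt_ne m (by omega) (by omega) (by omega))
    (fpt_ne m (by omega) (by omega) (by omega))

theorem xgen_sign (m j : ℕ) (hj : j < m + 1) : Perm.sign (xgen m j) = 1 :=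
  cyc3_sign (fpt_ne m (by omega) (by omega) (by omega)) (fpt_ne m (by omega) (by omega) (by omega))

theorem xgen_mul_sq (m j l : ℕ) (hj : j < m + 1) (hl : l < m + 1) (hjl : j ≠ l) :
    xgen m j * xgen m l * (xgen m j * xgen m l) = 1 :=
  cyc3_mul_sq (fpt_ne m (by omega) (by omega) (by omega)) (fpt_ne m (by omega) (by omega) (by omega))
    (fpt_ne m (by omega) (by omega) (by omega)) (fpt_ne m (by omega) (by omega) (by omega))
    (fpt_ne m (by omega) (by omega) (by omega))

/-- Carmichael's generators generate the alternating group. -/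
theorem xgen_closure (m : ℕ) :
    Subgroup.closure {σ : Perm (Fin (m + 3)) | ∃ j, j < m + 1 ∧ σ = xgen m j} =
      alternatingGroup (Fin (m + 3)) := by
  apply le_antisymm
  · rw [Subgroup.closure_le]
    rintro _ ⟨j, hj, rfl⟩
    exact Perm.mem_alternatingGroup.mpr (xgen_sign m j hj)
  · rw [← (Cfsg.Agent.Helper37.carmPhi_bij m).2, MonoidHom.range_eq_map,
      ← PresentedGroup.closure_range_of, MonoidHom.map_closure, Subgroup.closure_le]
    rintro _ ⟨_, ⟨j, rfl⟩, rfl⟩
    rw [Cfsg.Agent.Helper37.carmPhi_of]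
    have hmem : ∀ l, l < m + 1 → xgen m l ∈
        Subgroup.closure {σ : Perm (Fin (m + 3)) | ∃ j, j < m + 1 ∧ σ = xgen m j} :=
      fun l hl => Subgroup.subset_closure ⟨l, hl, rfl⟩
    have hS0 : Cfsg.Agent.Helper37.carmS (m + 3) 0 = swap (fpt m 0) (fpt m 1) := by
      unfold Cfsg.Agent.Helper37.carmS
      rw [dif_pos (by omega), fpt_eq m 0 (by omega), fpt_eq m 1 (by omega)]
    have hS : ∀ i, i + 2 < m + 3 →
        Cfsg.Agent.Helper37.carmS (m + 3) (i + 1) = swap (fpt m (i + 1)) (fpt m (i + 2)) := by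
      intro i hi
      unfold Cfsg.Agent.Helper37.carmS
      rw [dif_pos (by omega), fpt_eq m (i + 1) (by omega), fpt_eq m (i + 2) (by omega)]
    have hj := j.2
    unfold Cfsg.Agent.Helper37.carmY
    rw [hS0, hS j.val (by omega)]
    rcases Nat.eq_zero_or_pos j.val with h0 | h1
    · -- swap 0 1 * swap 1 2 = xgen 0
      have e : swap (fpt m 0) (fpt m 1) * swap (fpt m (j.val + 1)) (fpt m (j.val + 2)) =
          xgen m 0 := by
        rw [h0]
        unfold xgen cyc3
        have h := swap_apply_apply (swap (fpt m 0) (fpt m 1)) (fpt m 1) (fpt m 2)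
        rw [swap_apply_right, swap_apply_of_ne_of_ne (fpt_ne m (by omega) (by omega) (by omega))
          (fpt_ne m (by omega) (by omega) (by omega)), swap_inv] at h
        rw [h]
        simp only [mul_assoc, swap_mul_self, mul_one]
      rw [SetLike.mem_coe, e]
      exact hmem 0 (by omega)
    · -- swap 0 1 * swap a b = x_a⁻¹ x_b x_a⁻¹
      obtain ⟨i, hi⟩ : ∃ i, j.val = i + 1 := ⟨j.val - 1, by omega⟩
      have e : swap (fpt m 0) (fpt m 1) * swap (fpt m (j.val + 1)) (fpt m (j.val + 2)) =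
          (xgen m i)⁻¹ * xgen m (i + 1) * (xgen m i)⁻¹ := by
        rw [hi]
        unfold xgen
        rw [cyc3_inv]
        unfold cyc3
        have h := swap_apply_apply (swap (fpt m 0) (fpt m (i + 2))) (fpt m 0) (fpt m (i + 1 + 2))
        rw [swap_apply_left, swap_apply_of_ne_of_ne (fpt_ne m (by omega) (by omega) (by omega))
          (fpt_ne m (by omega) (by omega) (by omega)), swap_inv] at h
        rw [show i + 1 + 1 = i + 2 from rfl, h]
        simp only [mul_assoc, swap_mul_self_mul]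
      rw [SetLike.mem_coe, e]
      exact Subgroup.mul_mem _ (Subgroup.mul_mem _ (Subgroup.inv_mem _ (hmem i (by omega)))
        (hmem (i + 1) (by omega))) (Subgroup.inv_mem _ (hmem i (by omega)))

end Gen

end Cfsg.Agent.Helper48
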