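import Mathlib
import Cfsg.Agent.Helper48.SchurB
import Cfsg.Agent.Helper48.SchurC

/-!
# Canonical lifts of three-cycles in central extensions of alternating groups (helper48)

For a homomorphism `π : Γ → Perm α` with central kernel and image the alternating group of
degree at least `8`:

* `lift_commute` : a lift of a permutation commuting with a three-cycle commutes with every lift
  of the three-cycle.
* `IsCanLift π τ y` : `y = [t⁻¹, γ]` for a lift `t` of `τ` and a lift `γ` of an inverter of `τ`.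
* `IsCanLift.exists`, `IsCanLift.unique`, `IsCanLift.cube`, `IsCanLift.conj`, `IsCanLift.inv`,
  `IsCanLift.map_eq`.
-/

set_option autoImplicit false

namespace Cfsg.Agent.Helper48

open Equiv Subgroup
open scoped commutatorElement

section Central

variable {Γ : Type*} [Group Γ]

theorem conj_mul_central {g s ζ : Γ} (hζ : ζ ∈ center Γ) :
    g * (ζ * s) * g⁻¹ = ζ * (g * s * g⁻¹) := by
  rw [← mul_assoc, Subgroup.mem_center_iff.mp hζ g]
  simp only [mul_assoc]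

/-- If `x` and `y` centralise `t` modulo the centre then `⁅x, y⁆` centralises `t`. -/
theorem commutator_centralizes (t x y : Γ) (hx : x * t * x⁻¹ * t⁻¹ ∈ center Γ)
    (hy : y * t * y⁻¹ * t⁻¹ ∈ center Γ) : ⁅x, y⁆ * t = t * ⁅x, y⁆ := by
  obtain ⟨ζ, hζ⟩ : ∃ ζ : Γ, ζ = x * t * x⁻¹ * t⁻¹ := ⟨_, rfl⟩
  obtain ⟨η, hη⟩ : ∃ η : Γ, η = y * t * y⁻¹ * t⁻¹ := ⟨_, rfl⟩
  rw [← hζ] at hx
  rw [← hη] at hy
  have hζi : ζ⁻¹ ∈ center Γ := (center Γ).inv_mem hx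
  have hηi : η⁻¹ ∈ center Γ := (center Γ).inv_mem hy
  have h1 : x * t * x⁻¹ = ζ * t := by rw [hζ, inv_mul_cancel_right]
  have h2 : y * t * y⁻¹ = η * t := by rw [hη, inv_mul_cancel_right]
  have h3 : x⁻¹ * t * x = ζ⁻¹ * t := by
    have h := conj_mul_central (g := x⁻¹) (s := t) hx
    rw [← h1, inv_inv] at h
    have h' : x⁻¹ * (x * t * x⁻¹) * x = t := by group
    rw [h'] at h
    rw [eq_inv_mul_iff_mul_eq]
    exact h.symm
  have h4 : y⁻¹ * t * y = η⁻¹ * t := by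
    have h := conj_mul_central (g := y⁻¹) (s := t) hy
    rw [← h2, inv_inv] at h
    have h' : y⁻¹ * (y * t * y⁻¹) * y = t := by group
    rw [h'] at h
    rw [eq_inv_mul_iff_mul_eq]
    exact h.symm
  have key : ⁅x, y⁆ * t * ⁅x, y⁆⁻¹ = t := by
    have e : ⁅x, y⁆ * t * ⁅x, y⁆⁻¹ = x * (y * (x⁻¹ * (y⁻¹ * t * y) * x⁻¹⁻¹) * y⁻¹) * x⁻¹ := by
      rw [commutatorElement_def]
      group
    rw [e, h4, conj_mul_central hηi, inv_inv, h3, conj_mul_central hηi, conj_mul_central hζi, h2,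
      conj_mul_central hηi, conj_mul_central hζi, conj_mul_central hy, h1]
    rw [← mul_assoc η⁻¹, ← mul_assoc (η⁻¹ * ζ⁻¹)]
    have hc : η⁻¹ * ζ⁻¹ * η = ζ⁻¹ := by
      rw [mul_assoc, ← Subgroup.mem_center_iff.mp hζi η, inv_mul_cancel_left]
    rw [hc, inv_mul_cancel_left]
  exact mul_inv_eq_iff_eq_mul.mp key

/-- Central factors do not change commutators. -/
theorem commutator_mul_central (x y ζ η : Γ) (hζ : ζ ∈ center Γ) (hη : η ∈ center Γ) :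
    ⁅x * ζ, y * η⁆ = ⁅x, y⁆ := by
  have h1 : ∀ (a b ξ : Γ), ξ ∈ center Γ → ⁅a * ξ, b⁆ = ⁅a, b⁆ := by
    intro a b ξ hξ
    have h2 : ξ * b * ξ⁻¹ = b := by
      rw [← Subgroup.mem_center_iff.mp hξ b, mul_inv_cancel_right]
    rw [commutatorElement_def, commutatorElement_def]
    calc a * ξ * b * (a * ξ)⁻¹ * b⁻¹ = a * (ξ * b * ξ⁻¹) * a⁻¹ * b⁻¹ := by group
      _ = a * b * a⁻¹ * b⁻¹ := by rw [h2]
  rw [h1 x (y * η) ζ hζ, ← commutatorElement_inv, h1 y x η hη, commutatorElement_inv]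

end Central

section Lift

variable {Γ : Type*} [Group Γ] {α : Type*} [Fintype α] [DecidableEq α]

/-- a homomorphism onto the alternating group with central kernel -/
structure AltCover (π : Γ →* Perm α) : Prop where
  ker : π.ker ≤ center Γ
  sign : ∀ g, Perm.sign (π g) = 1
  surj : ∀ σ : Perm α, Perm.sign σ = 1 → ∃ g, π g = σ

variable (π : Γ →* Perm α)

/-- Lifts of elements of the centraliser of a three-cycle commute with lifts of the three-cycle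
(degree at least `8`). -/
theorem lift_commute (hπ : AltCover π) (h8 : 8 ≤ Fintype.card α) {a b c : α} (hab : a ≠ b)
    (hac : a ≠ c) (hbc : b ≠ c) (t k : Γ) (ht : π t = cyc3 a b c)
    (hk : π k * cyc3 a b c = cyc3 a b c * π k) : k * t = t * k := by
  obtain ⟨e, k', hk', ha, hb, hc⟩ := cyc3_centralizer hac hbc (π k) hk
  have hsign : Perm.sign k' = 1 := by
    have h := hπ.sign k
    rw [hk', map_mul, map_pow, cyc3_sign hab hac, one_pow, one_mul] at h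
    exact h
  have hk'mem : k' ∈ fix3 a b c := ⟨hsign, ha, hb, hc⟩
  obtain ⟨N, hN⟩ : ∃ N : Subgroup Γ, N = Subgroup.comap π (fix3 a b c) := ⟨_, rfl⟩
  have hcx : ∀ x ∈ N, x * t * x⁻¹ * t⁻¹ ∈ center Γ := by
    intro x hx
    apply hπ.ker
    rw [hN, Subgroup.mem_comap] at hx
    rw [MonoidHom.mem_ker, map_mul, map_mul, map_mul, map_inv, map_inv, ht, fix3_commute hx,
      mul_inv_cancel_right, mul_inv_cancel]
  have hNcent : ∀ ν ∈ ⁅N, N⁆, ν * t = t * ν := by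
    have hle : ⁅N, N⁆ ≤ Subgroup.centralizer {t} := by
      rw [Subgroup.commutator_le]
      intro x hx y hy
      rw [Subgroup.mem_centralizer_singleton_iff]
      exact commutator_centralizes t x y (hcx x hx) (hcx y hy)
    intro ν hν
    exact Subgroup.mem_centralizer_singleton_iff.mp (hle hν)
  have hmap : Subgroup.map π N = fix3 a b c := by
    rw [hN]
    apply Subgroup.map_comap_eq_self
    intro σ hσ
    obtain ⟨g, hg⟩ := hπ.surj σ hσ.1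
    exact ⟨g, hg⟩
  have hk'2 : k' ∈ Subgroup.map π ⁅N, N⁆ := by
    rw [Subgroup.map_commutator, hmap]
    exact fix3_perfect a b c h8 hk'mem
  obtain ⟨ν, hν, hνk⟩ := hk'2
  obtain ⟨ζ, hζ⟩ : ∃ ζ : Γ, ζ = (t ^ e)⁻¹ * k * ν⁻¹ := ⟨_, rfl⟩
  have hz : ζ ∈ center Γ := by
    apply hπ.ker
    rw [MonoidHom.mem_ker, hζ, map_mul, map_mul, map_inv, map_inv, map_pow, ht, hνk, hk']
    group
  have hkeq : k = t ^ e * ζ * ν := by
    rw [hζ]
    group
  have hνt : ν * t = t * ν := hNcent ν hν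
  have hζt : ζ * t = t * ζ := (Subgroup.mem_center_iff.mp hz t).symm
  have hpt : t ^ e * t = t * t ^ e := (Commute.pow_self t e).eq
  rw [hkeq]
  calc t ^ e * ζ * ν * t = t ^ e * ζ * (ν * t) := by rw [mul_assoc]
    _ = t ^ e * ζ * (t * ν) := by rw [hνt]
    _ = t ^ e * (ζ * t) * ν := by simp only [mul_assoc]
    _ = t ^ e * (t * ζ) * ν := by rw [hζt]
    _ = (t ^ e * t) * ζ * ν := by simp only [mul_assoc]
    _ = (t * t ^ e) * ζ * ν := by rw [hpt]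
    _ = t * (t ^ e * ζ * ν) := by simp only [mul_assoc]

/-- `y` is the canonical lift `[t⁻¹, γ]` of `τ`, for a lift `t` of `τ` and a lift `γ` of an
element inverting `τ`. -/
def IsCanLift (π : Γ →* Perm α) (τ : Perm α) (y : Γ) : Prop :=
  ∃ t γ : Γ, π t = τ ∧ π γ * τ * (π γ)⁻¹ = τ⁻¹ ∧ y = t⁻¹ * γ * t * γ⁻¹

variable {π}

omit [Fintype α] [DecidableEq α] in
theorem IsCanLift.conj {τ : Perm α} {y : Γ} (h : IsCanLift π τ y) (δ : Γ) :
    IsCanLift π (π δ * τ * (π δ)⁻¹) (δ * y * δ⁻¹) := by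
  obtain ⟨t, γ, ht, hγ, rfl⟩ := h
  refine ⟨δ * t * δ⁻¹, δ * γ * δ⁻¹, ?_, ?_, ?_⟩
  · rw [map_mul, map_mul, map_inv, ht]
  · rw [map_mul, map_mul, map_inv]
    have e : π δ * π γ * (π δ)⁻¹ * (π δ * τ * (π δ)⁻¹) * (π δ * π γ * (π δ)⁻¹)⁻¹ =
        π δ * (π γ * τ * (π γ)⁻¹) * (π δ)⁻¹ := by group
    rw [e, hγ]
    group
  · group

theorem canlift_commute (hπ : AltCover π) {τ : Perm α} {t γ : Γ} (ht : π t = τ)
    (hγ : π γ * τ * (π γ)⁻¹ = τ⁻¹) : Commute t (γ * t * γ⁻¹) := by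
  have h1 : t * (γ * t * γ⁻¹) ∈ center Γ := by
    apply hπ.ker
    rw [MonoidHom.mem_ker, map_mul, map_mul, map_mul, map_inv, ht, hγ, mul_inv_cancel]
  have h2 := Subgroup.mem_center_iff.mp h1 t
  exact mul_left_cancel (h2.trans (mul_assoc _ _ _))

omit [Fintype α] [DecidableEq α] in
theorem IsCanLift.map_eq {τ : Perm α} (hτ : τ * τ * τ = 1) {y : Γ} (h : IsCanLift π τ y) :
    π y = τ := by
  obtain ⟨t, γ, ht, hγ, rfl⟩ := h
  rw [map_mul, map_mul, map_mul, map_inv, map_inv, ht, mul_assoc, mul_assoc, ← mul_assoc (π γ),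
    hγ]
  exact cube_inv_inv_eq hτ

theorem IsCanLift.cube (hπ : AltCover π) {τ : Perm α} (hτ : τ * τ * τ = 1) {y : Γ}
    (h : IsCanLift π τ y) : y * y * y = 1 := by
  obtain ⟨t, γ, ht, hγ, rfl⟩ := h
  have hc : Commute t⁻¹ (γ * t * γ⁻¹) := (canlift_commute hπ ht hγ).inv_left
  have h3 : t ^ 3 ∈ center Γ := by
    apply hπ.ker
    rw [MonoidHom.mem_ker, map_pow, ht, pow_three']
    exact hτ
  have h4 : γ * t ^ 3 * γ⁻¹ = t ^ 3 := by
    rw [Subgroup.mem_center_iff.mp h3 γ, mul_inv_cancel_right]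
  have e : t⁻¹ * γ * t * γ⁻¹ = t⁻¹ * (γ * t * γ⁻¹) := by simp only [mul_assoc]
  rw [← pow_three', e, hc.mul_pow, conj_pow, h4, inv_pow, inv_mul_cancel]

theorem IsCanLift.inv (hπ : AltCover π) {τ : Perm α} {y : Γ} (h : IsCanLift π τ y) :
    IsCanLift π τ⁻¹ y⁻¹ := by
  obtain ⟨t, γ, ht, hγ, rfl⟩ := h
  refine ⟨t⁻¹, γ, by rw [map_inv, ht], ?_, ?_⟩
  · have e : π γ * τ⁻¹ * (π γ)⁻¹ = (π γ * τ * (π γ)⁻¹)⁻¹ := by group
    rw [e, hγ]
  · have hc := canlift_commute hπ ht hγ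
    have e1 : (t⁻¹ * γ * t * γ⁻¹)⁻¹ = (γ * t * γ⁻¹)⁻¹ * t := by group
    have e2 : t⁻¹⁻¹ * γ * t⁻¹ * γ⁻¹ = t * (γ * t * γ⁻¹)⁻¹ := by group
    rw [e1, e2]
    exact hc.inv_right.eq.symm

/-- Canonical lifts of three-cycles exist. -/
theorem IsCanLift.exists (hπ : AltCover π) (h5 : 5 ≤ Fintype.card α) {a b c : α} (hab : a ≠ b)
    (hac : a ≠ c) (hbc : b ≠ c) : ∃ y : Γ, IsCanLift π (cyc3 a b c) y := by
  have hcard : 1 < (Finset.univ \ {a, b, c} : Finset α).card := by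
    have h1 := Finset.le_card_sdiff ({a, b, c} : Finset α) Finset.univ
    have h2 : ({a, b, c} : Finset α).card ≤ 3 := Finset.card_le_three
    rw [Finset.card_univ] at h1
    omega
  obtain ⟨d, hd, e, he, hde⟩ := Finset.one_lt_card.mp hcard
  rw [Finset.mem_sdiff, Finset.mem_insert, Finset.mem_insert, Finset.mem_singleton] at hd he
  push Not at hd he
  obtain ⟨hg1, hg2⟩ := cyc3_inverter hab hac hbc hde hd.2.1 he.2.1 hd.2.2.1 he.2.2.1 hd.2.2.2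
    he.2.2.2
  obtain ⟨γ, hγ⟩ := hπ.surj _ hg1
  obtain ⟨t, ht⟩ := hπ.surj _ (cyc3_sign hab hac)
  exact ⟨t⁻¹ * γ * t * γ⁻¹, t, γ, ht, by rw [hγ]; exact hg2, rfl⟩

/-- Canonical lifts of three-cycles are unique (degree at least `8`). -/
theorem IsCanLift.unique (hπ : AltCover π) (h8 : 8 ≤ Fintype.card α) {a b c : α} (hab : a ≠ b)
    (hac : a ≠ c) (hbc : b ≠ c) {y y' : Γ} (h : IsCanLift π (cyc3 a b c) y)
    (h' : IsCanLift π (cyc3 a b c) y') : y = y' := by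
  obtain ⟨t, γ, ht, hγ, rfl⟩ := h
  obtain ⟨t', γ', ht', hγ', rfl⟩ := h'
  obtain ⟨z, hzdef⟩ : ∃ z : Γ, z = t⁻¹ * t' := ⟨_, rfl⟩
  obtain ⟨κ, hκdef⟩ : ∃ κ : Γ, κ = γ⁻¹ * γ' := ⟨_, rfl⟩
  have hz : z ∈ center Γ := by
    apply hπ.ker
    rw [MonoidHom.mem_ker, hzdef, map_mul, map_inv, ht, ht', inv_mul_cancel]
  have hκ : π κ * cyc3 a b c = cyc3 a b c * π κ := by
    rw [hκdef, map_mul, map_inv]
    have e : (π γ)⁻¹ * π γ' * cyc3 a b c * ((π γ)⁻¹ * π γ')⁻¹ =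
        (π γ)⁻¹ * (π γ' * cyc3 a b c * (π γ')⁻¹) * π γ := by group
    rw [hγ', ← hγ] at e
    have e2 : (π γ)⁻¹ * (π γ * cyc3 a b c * (π γ)⁻¹) * π γ = cyc3 a b c := by group
    rw [e2] at e
    exact mul_inv_eq_iff_eq_mul.mp e
  have hκt : κ * t = t * κ := lift_commute π hπ h8 hab hac hbc t κ ht hκ
  have e1 : t' = t * z := by rw [hzdef, mul_inv_cancel_left]
  have e2 : γ' = γ * κ := by rw [hκdef, mul_inv_cancel_left]
  have hcz : ∀ w : Γ, z * w = w * z := fun w => (Subgroup.mem_center_iff.mp hz w).symm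
  rw [e1, e2]
  symm
  calc (t * z)⁻¹ * (γ * κ) * (t * z) * (γ * κ)⁻¹
      = z⁻¹ * (t⁻¹ * (γ * κ) * t * (z * (γ * κ)⁻¹)) := by group
    _ = z⁻¹ * (t⁻¹ * (γ * κ) * t * ((γ * κ)⁻¹ * z)) := by rw [hcz (γ * κ)⁻¹]
    _ = z⁻¹ * ((t⁻¹ * (γ * κ) * t * (γ * κ)⁻¹) * z) := by simp only [mul_assoc]
    _ = z⁻¹ * (z * (t⁻¹ * (γ * κ) * t * (γ * κ)⁻¹)) := by
        rw [hcz (t⁻¹ * (γ * κ) * t * (γ * κ)⁻¹)]
    _ = t⁻¹ * (γ * κ) * t * (γ * κ)⁻¹ := inv_mul_cancel_left _ _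
    _ = t⁻¹ * γ * (κ * t) * κ⁻¹ * γ⁻¹ := by group
    _ = t⁻¹ * γ * (t * κ) * κ⁻¹ * γ⁻¹ := by rw [hκt]
    _ = t⁻¹ * γ * t * γ⁻¹ := by group

end Lift

end Cfsg.Agent.Helper48
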