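import Mathlib
import Cfsg.Agent.Helper48.SchurD

/-!
# The Schur multiplier of the alternating groups of degree at least eight (helper48)

* `carmichael_lifts` : in a central extension of `A_n`, `n ≥ 8`, Carmichael's generators
  `(0 1 j+2)` lift to elements `y j` of order three with `(y j * y l)^2 = c` for a fixed central
  `c` with `c^2 = 1`.
* `card_ker_le_two_of_altCover` : a central extension of `A_n`, `n ≥ 8`, whose kernel lies in
  the commutator subgroup has kernel of order at most two.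
-/

set_option autoImplicit false

namespace Cfsg.Agent.Helper48

open Equiv Subgroup
open scoped commutatorElement

section Rel

variable {Γ : Type*} [Group Γ] {m : ℕ} {π : Γ →* Perm (Fin (m + 3))}

theorem canlift_xgen_conj_unique (hπ : AltCover π) (h5 : 5 ≤ m) (j : ℕ) (hj : j < m + 1)
    (g : Perm (Fin (m + 3))) {y y' : Γ} (h : IsCanLift π (g * xgen m j * g⁻¹) y)
    (h' : IsCanLift π (g * xgen m j * g⁻¹) y') : y = y' := by
  unfold xgen at h h'
  rw [cyc3_conj] at h h'
  exact IsCanLift.unique hπ (by rw [Fintype.card_fin]; omega)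
    (g.injective.ne (fpt_ne m (by omega) (by omega) (by omega)))
    (g.injective.ne (fpt_ne m (by omega) (by omega) (by omega)))
    (g.injective.ne (fpt_ne m (by omega) (by omega) (by omega))) h h'

theorem canlift_xgen_unique (hπ : AltCover π) (h5 : 5 ≤ m) (j : ℕ) (hj : j < m + 1)
    {y y' : Γ} (h : IsCanLift π (xgen m j) y) (h' : IsCanLift π (xgen m j) y') : y = y' := by
  have e : xgen m j = 1 * xgen m j * 1⁻¹ := by group
  rw [e] at h h'
  exact canlift_xgen_conj_unique hπ h5 j hj 1 h h'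

/-- a fourth index -/
theorem exists_fourth (j l l' : ℕ) : ∃ k, k < 4 ∧ k ≠ j ∧ k ≠ l ∧ k ≠ l' := by
  by_cases h0 : 0 ≠ j ∧ 0 ≠ l ∧ 0 ≠ l'
  · exact ⟨0, by omega, h0.1, h0.2.1, h0.2.2⟩
  by_cases h1 : 1 ≠ j ∧ 1 ≠ l ∧ 1 ≠ l'
  · exact ⟨1, by omega, h1.1, h1.2.1, h1.2.2⟩
  by_cases h2 : 2 ≠ j ∧ 2 ≠ l ∧ 2 ≠ l'
  · exact ⟨2, by omega, h2.1, h2.2.1, h2.2.2⟩
  exact ⟨3, by omega, by omega, by omega, by omega⟩

/-- Carmichael's generators lift to elements of order three whose pairwise products all have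
the same central square. -/
theorem carmichael_lifts (hπ : AltCover π) (h5 : 5 ≤ m) :
    ∃ (y : ℕ → Γ) (c : Γ), c ∈ π.ker ∧ c * c = 1 ∧ (∀ j, j < m + 1 → π (y j) = xgen m j) ∧
      (∀ j, j < m + 1 → y j * y j * y j = 1) ∧
      (∀ j l, j < m + 1 → l < m + 1 → j ≠ l → y j * y l * (y j * y l) = c) := by
  have hcard5 : 5 ≤ Fintype.card (Fin (m + 3)) := by rw [Fintype.card_fin]; omega
  have hex : ∀ j, ∃ y : Γ, j < m + 1 → IsCanLift π (xgen m j) y := by
    intro j
    by_cases hj : j < m + 1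
    · obtain ⟨y, hy⟩ := IsCanLift.exists hπ hcard5
        (fpt_ne m (show 0 < m + 3 by omega) (show j + 2 < m + 3 by omega) (by omega))
        (fpt_ne m (show 0 < m + 3 by omega) (show 1 < m + 3 by omega) (by omega))
        (fpt_ne m (show j + 2 < m + 3 by omega) (show 1 < m + 3 by omega) (by omega))
      exact ⟨y, fun _ => hy⟩
    · exact ⟨1, fun h => absurd h hj⟩
  choose y hy using hex
  have hmap : ∀ j, j < m + 1 → π (y j) = xgen m j :=
    fun j hj => (hy j hj).map_eq (xgen_cube m j hj)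
  have hcube : ∀ j, j < m + 1 → y j * y j * y j = 1 :=
    fun j hj => (hy j hj).cube hπ (xgen_cube m j hj)
  have hbker : ∀ j l, j < m + 1 → l < m + 1 → j ≠ l → y j * y l * (y j * y l) ∈ π.ker := by
    intro j l hj hl hjl
    rw [MonoidHom.mem_ker, map_mul, map_mul, hmap j hj, hmap l hl]
    exact xgen_mul_sq m j l hj hl hjl
  have hbcen : ∀ j l, j < m + 1 → l < m + 1 → j ≠ l →
      ∀ g : Γ, g * (y j * y l * (y j * y l)) = y j * y l * (y j * y l) * g :=
    fun j l hj hl hjl => Subgroup.mem_center_iff.mp (hπ.ker (hbker j l hj hl hjl))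
  have hbsymm : ∀ j l, j < m + 1 → l < m + 1 → j ≠ l →
      y l * y j * (y l * y j) = y j * y l * (y j * y l) := by
    intro j l hj hl hjl
    have e : y l * y j * (y l * y j) = (y j)⁻¹ * ((y j * y l * (y j * y l)) * y j) := by group
    rw [e, ← hbcen j l hj hl hjl (y j), inv_mul_cancel_left]
  -- the squares are involutions
  have hbsq : ∀ j l, j < m + 1 → l < m + 1 → j ≠ l →
      y j * y l * (y j * y l) * (y j * y l * (y j * y l)) = 1 := by
    intro j l hj hl hjl
    have h1 : IsCanLift π (xgen m l * xgen m j * (xgen m l)⁻¹) (y l * y j * (y l)⁻¹) := by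
      have h := (hy j hj).conj (y l)
      rwa [hmap l hl] at h
    have h2 : IsCanLift π (xgen m j * xgen m l * (xgen m j)⁻¹) (y j * y l * (y j)⁻¹) := by
      have h := (hy l hl).conj (y j)
      rwa [hmap j hj] at h
    have hperm : (xgen m l * xgen m j * (xgen m l)⁻¹)⁻¹ = xgen m j * xgen m l * (xgen m j)⁻¹ := by
      have hr := xgen_mul_sq m j l hj hl hjl
      have e1 : xgen m l * xgen m j = (xgen m j)⁻¹ * (xgen m l)⁻¹ := pair_sq_comm hr
      have e2 : xgen m j * xgen m l = (xgen m l)⁻¹ * (xgen m j)⁻¹ :=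
        pair_sq_comm (pair_sq_swap hr)
      rw [e1, e2, mul_assoc, mul_assoc, cube_inv_inv_eq (xgen_cube m l hl),
        cube_inv_inv_eq (xgen_cube m j hj), mul_inv_rev, inv_inv]
    have h1' := h1.inv hπ
    rw [hperm] at h1'
    have heq : y j * y l * (y j)⁻¹ = (y l * y j * (y l)⁻¹)⁻¹ :=
      canlift_xgen_conj_unique hπ h5 l hl (xgen m j) h2 h1'
    have e1 : y j * y l * (y j)⁻¹ = (y l)⁻¹ * (y l * y j * (y l * y j)) * y j := by
      rw [cube_inv_eq (hcube j hj)]
      group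
    have e2 : y l * y j * (y l)⁻¹ = (y j)⁻¹ * (y j * y l * (y j * y l)) * y l := by
      rw [cube_inv_eq (hcube l hl)]
      group
    have h3 : y j * y l * (y j)⁻¹ * (y l * y j * (y l)⁻¹) = 1 := by
      rw [heq, inv_mul_cancel]
    rw [e1, e2, hbsymm j l hj hl hjl] at h3
    obtain ⟨b, hb⟩ : ∃ b : Γ, b = y j * y l * (y j * y l) := ⟨_, rfl⟩
    rw [← hb] at h3 ⊢
    have h4 : b * b = y l * ((y l)⁻¹ * b * y j * ((y j)⁻¹ * b * y l)) * (y l)⁻¹ := by group
    rw [h4, h3, mul_one, mul_inv_cancel]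
  -- the squares do not depend on the second index
  have hb1 : ∀ j l l', j < m + 1 → l < m + 1 → l' < m + 1 → j ≠ l → j ≠ l' → l ≠ l' →
      y j * y l * (y j * y l) = y j * y l' * (y j * y l') := by
    intro j l l' hj hl hl' hjl hjl' hll'
    obtain ⟨k, hk4, hkj, hkl, hkl'⟩ := exists_fourth j l l'
    have hqs : fpt m (l + 2) ≠ fpt m (k + 2) := fpt_ne m (by omega) (by omega) (by omega)
    have hqr : fpt m (l + 2) ≠ fpt m (l' + 2) := fpt_ne m (by omega) (by omega) (by omega)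
    have hsr : fpt m (k + 2) ≠ fpt m (l' + 2) := fpt_ne m (by omega) (by omega) (by omega)
    obtain ⟨g, hg⟩ : ∃ g : Perm (Fin (m + 3)),
        g = cyc3 (fpt m (l + 2)) (fpt m (k + 2)) (fpt m (l' + 2)) := ⟨_, rfl⟩
    have hg0 : g (fpt m 0) = fpt m 0 := by
      rw [hg]
      exact cyc3_apply_of_ne (fpt_ne m (by omega) (by omega) (by omega))
        (fpt_ne m (by omega) (by omega) (by omega)) (fpt_ne m (by omega) (by omega) (by omega))
    have hg1 : g (fpt m 1) = fpt m 1 := by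
      rw [hg]
      exact cyc3_apply_of_ne (fpt_ne m (by omega) (by omega) (by omega))
        (fpt_ne m (by omega) (by omega) (by omega)) (fpt_ne m (by omega) (by omega) (by omega))
    have hgj : g (fpt m (j + 2)) = fpt m (j + 2) := by
      rw [hg]
      exact cyc3_apply_of_ne (fpt_ne m (by omega) (by omega) (by omega))
        (fpt_ne m (by omega) (by omega) (by omega)) (fpt_ne m (by omega) (by omega) (by omega))
    have hgl : g (fpt m (l + 2)) = fpt m (l' + 2) := by
      rw [hg]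
      exact cyc3_apply_a hqr hsr
    obtain ⟨γ, hγ⟩ := hπ.surj g (by rw [hg]; exact cyc3_sign hqs hqr)
    have hcj : γ * y j * γ⁻¹ = y j := by
      have h := (hy j hj).conj γ
      have e : π γ * xgen m j * (π γ)⁻¹ = xgen m j := by
        rw [hγ]
        unfold xgen
        rw [cyc3_conj, hg0, hg1, hgj]
      rw [e] at h
      exact canlift_xgen_unique hπ h5 j hj h (hy j hj)
    have hcl : γ * y l * γ⁻¹ = y l' := by
      have h := (hy l hl).conj γ
      have e : π γ * xgen m l * (π γ)⁻¹ = xgen m l' := by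
        rw [hγ]
        unfold xgen
        rw [cyc3_conj, hg0, hg1, hgl]
      rw [e] at h
      exact canlift_xgen_unique hπ h5 l' hl' h (hy l' hl')
    have e1 : y j * y l * (y j * y l) = γ * (y j * y l * (y j * y l)) * γ⁻¹ := by
      rw [hbcen j l hj hl hjl γ, mul_inv_cancel_right]
    have e2 : γ * (y j * y l * (y j * y l)) * γ⁻¹ =
        (γ * y j * γ⁻¹) * (γ * y l * γ⁻¹) * ((γ * y j * γ⁻¹) * (γ * y l * γ⁻¹)) := by group
    rw [e1, e2, hcj, hcl]
  refine ⟨y, y 0 * y 1 * (y 0 * y 1), hbker 0 1 (by omega) (by omega) (by omega),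
    hbsq 0 1 (by omega) (by omega) (by omega), hmap, hcube, ?_⟩
  have hA : ∀ l, l < m + 1 → 0 ≠ l → y 0 * y l * (y 0 * y l) = y 0 * y 1 * (y 0 * y 1) := by
    intro l hl h0l
    by_cases hl1 : l = 1
    · rw [hl1]
    · exact hb1 0 l 1 (by omega) hl (by omega) h0l (by omega) hl1
  intro j l hj hl hjl
  by_cases hj0 : j = 0
  · rw [hj0]
    exact hA l hl (by omega)
  · have h1 : y j * y l * (y j * y l) = y j * y 0 * (y j * y 0) := by
      by_cases hl0 : l = 0
      · rw [hl0]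
      · exact hb1 j l 0 hj hl (by omega) hjl hj0 hl0
    rw [h1, hbsymm 0 j (by omega) hj (by omega)]
    exact hA j hj (by omega)

end Rel

section Final

variable {Γ : Type*} [Group Γ] [Finite Γ]

/-- A central extension of `A_n`, `n ≥ 8`, whose kernel lies in the commutator subgroup has
kernel of order at most two. -/
theorem card_ker_le_two_of_altCover (m : ℕ) (h5 : 5 ≤ m) (π : Γ →* Perm (Fin (m + 3)))
    (hπ : AltCover π) (hd : π.ker ≤ commutator Γ) : Nat.card π.ker ≤ 2 := by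
  classical
  obtain ⟨y, c, hcker, hcc, hmap, hcube, hrel⟩ := carmichael_lifts hπ h5
  have hccen : c ∈ center Γ := hπ.ker hcker
  obtain ⟨C, hC⟩ : ∃ C : Subgroup Γ, C = Subgroup.zpowers c := ⟨_, rfl⟩
  have hCcen : C ≤ center Γ := by
    rw [hC, Subgroup.zpowers_le]
    exact hccen
  have hCker : C ≤ π.ker := by
    rw [hC, Subgroup.zpowers_le]
    exact hcker
  have hCn : C.Normal := ⟨fun n hn g => by
    have h : g * n * g⁻¹ = n := by
      rw [Subgroup.mem_center_iff.mp (hCcen hn) g, mul_inv_cancel_right]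
    rw [h]
    exact hn⟩
  have hcC : c ∈ C := by
    rw [hC]
    exact Subgroup.mem_zpowers c
  obtain ⟨q, hq⟩ : ∃ q : Γ →* Γ ⧸ C, q = QuotientGroup.mk' C := ⟨_, rfl⟩
  have hqsurj : Function.Surjective q := by
    rw [hq]
    exact QuotientGroup.mk'_surjective C
  have hq1 : ∀ g : Γ, q g = 1 ↔ g ∈ C := by
    intro g
    rw [hq, QuotientGroup.mk'_apply, QuotientGroup.eq_one_iff]
  obtain ⟨πb, hπb⟩ : ∃ πb : Γ ⧸ C →* Perm (Fin (m + 3)), ∀ g, πb (q g) = π g :=
    ⟨QuotientGroup.lift C π hCker, fun g => by rw [hq]; exact QuotientGroup.lift_mk' C hCker g⟩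
  obtain ⟨Λ, hΛ⟩ : ∃ Λ : Subgroup (Γ ⧸ C),
      Λ = Subgroup.closure {g : Γ ⧸ C | ∃ p, p < m + 1 ∧ g = q (y p)} := ⟨_, rfl⟩
  have hce : 2 * Nat.card Λ ≤ (m + 1 + 2).factorial := by
    rw [hΛ]
    exact carmichael_card_le (fun j => q (y j)) (m + 1)
      (fun p hp => by rw [← map_mul, ← map_mul, hcube p hp, map_one])
      (fun p l hp hl hpl => by
        rw [← map_mul, ← map_mul, hrel p l hp hl hpl]
        exact (hq1 c).mpr hcC)
  have hmapΛ : Subgroup.map πb Λ = alternatingGroup (Fin (m + 3)) := by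
    rw [hΛ, MonoidHom.map_closure, ← xgen_closure m]
    congr 1
    ext σ
    constructor
    · rintro ⟨_, ⟨p, hp, rfl⟩, rfl⟩
      exact ⟨p, hp, by rw [hπb, hmap p hp]⟩
    · rintro ⟨p, hp, rfl⟩
      exact ⟨q (y p), ⟨p, hp, rfl⟩, by rw [hπb, hmap p hp]⟩
  have hcardA : 2 * Nat.card (alternatingGroup (Fin (m + 3))) = (m + 3).factorial := by
    rw [two_mul_nat_card_alternatingGroup, Nat.card_perm, Nat.card_fin]
  have hcardΛ : Nat.card Λ ≤ Nat.card (Subgroup.map πb Λ) := by
    rw [hmapΛ]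
    have h3 : (m + 1 + 2).factorial = (m + 3).factorial := rfl
    omega
  have hbij := (πb.subgroupMap_surjective Λ).bijective_of_nat_card_le hcardΛ
  have hinj : ∀ x ∈ Λ, πb x = 1 → x = 1 := by
    intro x hx hx1
    have h1 : πb.subgroupMap Λ ⟨x, hx⟩ = πb.subgroupMap Λ 1 :=
      (Subtype.ext hx1).trans (map_one _).symm
    exact congrArg Subtype.val (hbij.1 h1)
  have hkerb : ∀ x : Γ ⧸ C, πb x = 1 → x ∈ center (Γ ⧸ C) := by
    intro x hx
    obtain ⟨g, rfl⟩ := hqsurj x
    rw [hπb] at hx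
    have hg : g ∈ center Γ := hπ.ker (MonoidHom.mem_ker.mpr hx)
    rw [Subgroup.mem_center_iff]
    intro w
    obtain ⟨h, rfl⟩ := hqsurj w
    rw [← map_mul, ← map_mul, Subgroup.mem_center_iff.mp hg h]
  have hdec : ∀ x : Γ ⧸ C, ∃ l ∈ Λ, ∃ ζ ∈ center (Γ ⧸ C), x = l * ζ := by
    intro x
    have hx : πb x ∈ Subgroup.map πb Λ := by
      rw [hmapΛ, Perm.mem_alternatingGroup]
      obtain ⟨g, rfl⟩ := hqsurj x
      rw [hπb]
      exact hπ.sign g
    obtain ⟨l, hl, hlx⟩ := hx
    exact ⟨l, hl, l⁻¹ * x, hkerb _ (by rw [map_mul, map_inv, hlx, inv_mul_cancel]),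
      by rw [mul_inv_cancel_left]⟩
  have hcomm : commutator (Γ ⧸ C) ≤ Λ := by
    rw [commutator_eq_closure, Subgroup.closure_le]
    rintro _ ⟨x, x', rfl⟩
    obtain ⟨l, hl, ζ, hζ, rfl⟩ := hdec x
    obtain ⟨l', hl', ζ', hζ', rfl⟩ := hdec x'
    rw [SetLike.mem_coe, commutator_mul_central l l' ζ ζ' hζ hζ', commutatorElement_def]
    exact Λ.mul_mem (Λ.mul_mem (Λ.mul_mem hl hl') (Λ.inv_mem hl)) (Λ.inv_mem hl')
  have hle : π.ker ≤ C := by
    intro z hz
    have hz1 : q z ∈ commutator (Γ ⧸ C) := by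
      have h1 : z ∈ commutator Γ := hd hz
      rw [_root_.commutator_def] at h1 ⊢
      have h2 : q z ∈ Subgroup.map q ⁅(⊤ : Subgroup Γ), ⊤⁆ := Subgroup.mem_map_of_mem q h1
      rw [Subgroup.map_commutator] at h2
      exact Subgroup.commutator_mono le_top le_top h2
    have hz2 : q z = 1 := hinj _ (hcomm hz1) (by rw [hπb]; exact MonoidHom.mem_ker.mp hz)
    exact (hq1 z).mp hz2
  calc Nat.card π.ker ≤ Nat.card C := Subgroup.card_le_of_le hle
    _ = orderOf c := by rw [hC, Nat.card_zpowers]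
    _ ≤ 2 := Nat.le_of_dvd (by norm_num) (orderOf_dvd_of_pow_eq_one (by rw [pow_two]; exact hcc))

end Final

end Cfsg.Agent.Helper48
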