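import Mathlib
import Cfsg.Agent.Helper48.TSCDefs

/-!
# SUB-CALL TSC (helper48, COUNT stage of helper58's CALL TS), piece CNTA

The number of independent totally singular `m`-families of a quadratic space, given the count
`c j` of singular vectors orthogonal to such a family of size `j`.  Port of `ocnt_a`
(`Cfsg/Agent/Helper42/OTSCNTA.lean`).
-/

set_option autoImplicit false

namespace Cfsg.Agent.Helper48.TSC

open Module Cfsg Cfsg.Geo Cfsg.Agent.Helper58.TS
open Cfsg.Agent.Helper43 Cfsg.Agent.Helper43.OrthEven

/-- the span of a totally singular family is totally isotropic for the polar form -/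
theorem cnta_span_ti {F : Type*} [Field F] {V : Type*} [AddCommGroup V] [Module F V]
    (Q : QuadraticForm F V) (m : ℕ) (v : Fin m → V)
    (hti : ∀ a b, QuadraticMap.polar Q (v a) (v b) = 0) :
    ∀ x ∈ Submodule.span F (Set.range v), ∀ y ∈ Submodule.span F (Set.range v),
      QuadraticMap.polar Q x y = 0 := by
  intro x hx y hy
  induction hx using Submodule.span_induction with
  | mem x hx =>
    obtain ⟨a, rfl⟩ := hx
    induction hy using Submodule.span_induction with
    | mem y hy =>
      obtain ⟨b, rfl⟩ := hy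
      exact hti a b
    | zero => rw [QuadraticMap.polar_zero_right]
    | add y z _ _ hy hz => rw [QuadraticMap.polar_add_right, hy, hz, add_zero]
    | smul c y _ hy => rw [QuadraticMap.polar_smul_right, hy, smul_zero]
  | zero => rw [QuadraticMap.polar_zero_left]
  | add x z _ _ hx hz => rw [QuadraticMap.polar_add_left, hx, hz, add_zero]
  | smul c x _ hx => rw [QuadraticMap.polar_smul_left, hx, smul_zero]

/-- the span of a totally singular family is totally singular -/
theorem cnta_span_ts {F : Type*} [Field F] {V : Type*} [AddCommGroup V] [Module F V]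
    (Q : QuadraticForm F V) (m : ℕ) (v : Fin m → V) (hs : ∀ a, Q (v a) = 0)
    (hti : ∀ a b, QuadraticMap.polar Q (v a) (v b) = 0) :
    ∀ x ∈ Submodule.span F (Set.range v), Q x = 0 := by
  intro x hx
  induction hx using Submodule.span_induction with
  | mem x hx =>
    obtain ⟨a, rfl⟩ := hx
    exact hs a
  | zero => exact map_zero Q
  | add x z hx hz ihx ihz =>
    rw [QuadraticMap.map_add Q x z, ihx, ihz, cnta_span_ti Q m v hti x hx z hz, add_zero, add_zero]
  | smul c x _ ihx => rw [QuadraticMap.map_smul, ihx, smul_zero]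

theorem cnta_perp_count {F : Type*} [Field F] [Fintype F] {V : Type*} [AddCommGroup V]
    [Module F V] [FiniteDimensional F V] (Q : QuadraticForm F V) (j cj : ℕ) (v : Fin j → V)
    (hli : LinearIndependent F v) (hs : ∀ a, Q (v a) = 0)
    (hti : ∀ a b, QuadraticMap.polar Q (v a) (v b) = 0)
    (hperp : Nat.card {x : V // Q x = 0 ∧ ∀ a, QuadraticMap.polar Q x (v a) = 0} = cj) :
    Nat.card {x : V // x ∉ Submodule.span F (Set.range v) ∧
      Q x = 0 ∧ ∀ a, QuadraticMap.polar Q x (v a) = 0} = cj - Fintype.card F ^ j := by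
  classical
  have hfinV : Finite V := Module.finite_of_finite F
  obtain ⟨W, hW⟩ : ∃ W : Submodule F V, W = Submodule.span F (Set.range v) := ⟨_, rfl⟩
  have hvW : ∀ a, v a ∈ W := fun a => by rw [hW]; exact Submodule.subset_span ⟨a, rfl⟩
  have hfW : finrank F W = j := by
    rw [hW, finrank_span_eq_card hli, Fintype.card_fin]
  have hcW : Nat.card W = Fintype.card F ^ j := by
    rw [Module.natCard_eq_pow_finrank (K := F), hfW, Nat.card_eq_fintype_card]
  have hsub : (W : Set V) ⊆ {x : V | Q x = 0 ∧ ∀ a, QuadraticMap.polar Q x (v a) = 0} := by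
    intro x hx
    rw [SetLike.mem_coe, hW] at hx
    exact ⟨cnta_span_ts Q j v hs hti x hx,
      fun a => cnta_span_ti Q j v hti x hx (v a) (Submodule.subset_span ⟨a, rfl⟩)⟩
  have hset : {x : V | x ∉ Submodule.span F (Set.range v) ∧
      Q x = 0 ∧ ∀ a, QuadraticMap.polar Q x (v a) = 0} =
      {x : V | Q x = 0 ∧ ∀ a, QuadraticMap.polar Q x (v a) = 0} \ (W : Set V) := by
    ext x
    simp only [Set.mem_ofPred_eq, Set.mem_sdiff, SetLike.mem_coe]
    rw [hW]
    tauto
  have h1 : Nat.card {x : V // x ∉ Submodule.span F (Set.range v) ∧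
      Q x = 0 ∧ ∀ a, QuadraticMap.polar Q x (v a) = 0} =
      Set.ncard {x : V | x ∉ Submodule.span F (Set.range v) ∧
      Q x = 0 ∧ ∀ a, QuadraticMap.polar Q x (v a) = 0} := Nat.card_coe_set_eq _
  rw [h1, hset, Set.ncard_sdiff hsub (Set.toFinite _),
    ← Nat.card_coe_set_eq, ← Nat.card_coe_set_eq]
  exact congrArg₂ (· - ·) hperp hcW

/-- Splitting off the last vector of a totally singular independent family. -/
noncomputable def cntaEquiv {F : Type*} [Field F] {V : Type*} [AddCommGroup V] [Module F V]
    (Q : QuadraticForm F V) (m : ℕ) : TSFam Q (m + 1) ≃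
    Σ s : TSFam Q m, {x : V // x ∉ Submodule.span F (Set.range s.1) ∧
      Q x = 0 ∧ ∀ a, QuadraticMap.polar Q x (s.1 a) = 0} where
  toFun u :=
    ⟨⟨Fin.init u.1,
        (linearIndependent_finSnoc.mp (by rw [Fin.snoc_init_self]; exact u.2.1)).1,
        fun a => u.2.2.1 _, fun a b => u.2.2.2 _ _⟩,
      ⟨u.1 (Fin.last m),
        (linearIndependent_finSnoc.mp (by rw [Fin.snoc_init_self]; exact u.2.1)).2,
        u.2.2.1 _, fun a => u.2.2.2 _ _⟩⟩
  invFun p :=
    ⟨Fin.snoc p.1.1 p.2.1, linearIndependent_finSnoc.mpr ⟨p.1.2.1, p.2.2.1⟩, by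
      intro a
      induction a using Fin.lastCases with
      | last =>
        rw [Fin.snoc_last]
        exact p.2.2.2.1
      | cast a =>
        rw [Fin.snoc_castSucc]
        exact p.1.2.2.1 a, by
      intro a b
      induction a using Fin.lastCases with
      | last =>
        induction b using Fin.lastCases with
        | last =>
          rw [Fin.snoc_last, QuadraticMap.polar_self, p.2.2.2.1, smul_zero]
        | cast b =>
          rw [Fin.snoc_last, Fin.snoc_castSucc]
          exact p.2.2.2.2 b
      | cast a =>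
        induction b using Fin.lastCases with
        | last =>
          rw [Fin.snoc_last, Fin.snoc_castSucc, QuadraticMap.polar_comm]
          exact p.2.2.2.2 a
        | cast b =>
          rw [Fin.snoc_castSucc, Fin.snoc_castSucc]
          exact p.1.2.2.2 a b⟩
  left_inv u := Subtype.ext (Fin.snoc_init_self _)
  right_inv p := by
    apply Sigma.subtype_ext
    · apply Subtype.ext
      show Fin.init (Fin.snoc (α := fun _ => V) p.1.1 p.2.1) = p.1.1
      exact Fin.init_snoc _ _
    · show Fin.snoc (α := fun _ => V) p.1.1 p.2.1 (Fin.last m) = p.2.1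
      exact Fin.snoc_last _ _

/-- CNTA. Frames, one vector at a time. -/
theorem tsc_cnt_a {F : Type*} [Field F] [Fintype F] {V : Type*} [AddCommGroup V] [Module F V]
    [FiniteDimensional F V] (Q : QuadraticForm F V) (c : ℕ → ℕ) (m : ℕ)
    (hperp : ∀ j, j < m → ∀ v : Fin j → V, LinearIndependent F v → (∀ a, Q (v a) = 0) →
      (∀ a b, QuadraticMap.polar Q (v a) (v b) = 0) →
      Nat.card {x : V // Q x = 0 ∧ ∀ a, QuadraticMap.polar Q x (v a) = 0} = c j) :
    Nat.card (TSFam Q m) = ∏ j ∈ Finset.range m, (c j - Fintype.card F ^ j) := by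
  classical
  have hfinV : Finite V := Module.finite_of_finite F
  induction m with
  | zero =>
    rw [Finset.prod_range_zero]
    have : Subsingleton (TSFam Q 0) := ⟨fun a b => Subtype.ext (Subsingleton.elim _ _)⟩
    have : Nonempty (TSFam Q 0) :=
      ⟨⟨fun a => Fin.elim0 a, linearIndependent_empty_type, fun a => Fin.elim0 a,
        fun a => Fin.elim0 a⟩⟩
    exact Nat.card_unique
  | succ m ih =>
    have : Finite (TSFam Q m) := by
      unfold TSFam
      infer_instance
    have : Fintype (TSFam Q m) := Fintype.ofFinite _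
    have hfib : ∀ s : TSFam Q m, Nat.card {x : V // x ∉ Submodule.span F (Set.range s.1) ∧
        Q x = 0 ∧ ∀ a, QuadraticMap.polar Q x (s.1 a) = 0} = c m - Fintype.card F ^ m := by
      intro s
      exact cnta_perp_count Q m (c m) s.1 s.2.1 s.2.2.1 s.2.2.2
        (hperp m (by omega) s.1 s.2.1 s.2.2.1 s.2.2.2)
    have hih := ih (fun j hj => hperp j (by omega))
    rw [Finset.prod_range_succ, ← hih, Nat.card_congr (cntaEquiv Q m), Nat.card_sigma]
    rw [Finset.sum_congr rfl (fun s _ => hfib s), Finset.sum_const, Finset.card_univ,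
      smul_eq_mul, Nat.card_eq_fintype_card]

end Cfsg.Agent.Helper48.TSC
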