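import Mathlib

set_option autoImplicit false

namespace Cfsg.Agent.Helper48.TSC

theorem tsc_fac_plus (q d j c S : ℕ) (hq : 1 ≤ q) (hj : j + 1 ≤ d)
    (h1 : c + q ^ (2 * d - 1) = S + q ^ (2 * d - 1 - j))
    (h2 : S + q ^ (d - 1) = q ^ (2 * d - 1) + q ^ d) :
    c - q ^ j = q ^ j * ((q ^ (d - j) - 1) * (q ^ (d - j - 1) + 1)) := by
  obtain ⟨a, rfl⟩ : ∃ a, d = j + 1 + a := ⟨d - (j + 1), by omega⟩
  have e1 : 2 * (j + 1 + a) - 1 = j + j + 1 + a + a := by omega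
  have e2 : 2 * (j + 1 + a) - 1 - j = j + 1 + a + a := by omega
  have e3 : j + 1 + a - 1 = j + a := by omega
  have e4 : j + 1 + a - j = a + 1 := by omega
  have e5 : j + 1 + a - j - 1 = a := by omega
  rw [e2, e1] at h1
  rw [e1, e3] at h2
  rw [e5, e4]
  obtain ⟨Qj, hQj⟩ : ∃ Qj, Qj = q ^ j := ⟨_, rfl⟩
  obtain ⟨Qa, hQa⟩ : ∃ Qa, Qa = q ^ a := ⟨_, rfl⟩
  have p1 : q ^ (j + j + 1 + a + a) = Qj * Qj * q * Qa * Qa := by rw [hQj, hQa]; ring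
  have p2 : q ^ (j + 1 + a + a) = Qj * q * Qa * Qa := by rw [hQj, hQa]; ring
  have p3 : q ^ (j + a) = Qj * Qa := by rw [hQj, hQa]; ring
  have p4 : q ^ (j + 1 + a) = Qj * q * Qa := by rw [hQj, hQa]; ring
  have p5 : q ^ (a + 1) = q * Qa := by rw [hQa]; ring
  rw [p1, p2] at h1
  rw [p1, p3, p4] at h2
  rw [p5, ← hQj, ← hQa]
  have hQa1 : 1 ≤ Qa := by rw [hQa]; exact Nat.one_le_pow _ _ hq
  obtain ⟨t, ht⟩ : ∃ t, q * Qa = t + 1 := ⟨q * Qa - 1, by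
    have : 1 ≤ q * Qa := Nat.mul_pos hq hQa1
    omega⟩
  have h3 : c + Qj * Qa = Qj * (t + 1) + Qj * (t + 1) * Qa := by
    rw [← ht]
    have h4 : c + Qj * Qj * q * Qa * Qa + Qj * Qa =
        Qj * Qj * q * Qa * Qa + (Qj * (q * Qa) + Qj * (q * Qa) * Qa) := by
      have e6 : Qj * (q * Qa) = Qj * q * Qa := by ring
      have e7 : Qj * (q * Qa) * Qa = Qj * q * Qa * Qa := by ring
      rw [e7, e6]
      omega
    omega
  have h5 : c = Qj * t + Qj + Qj * t * Qa := by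
    have e8 : Qj * (t + 1) + Qj * (t + 1) * Qa = Qj * t + Qj + Qj * t * Qa + Qj * Qa := by ring
    rw [e8] at h3
    omega
  rw [ht, h5, Nat.add_sub_cancel]
  have e9 : Qj * t + Qj + Qj * t * Qa - Qj = Qj * t + Qj * t * Qa := by omega
  rw [e9]
  ring

theorem tsc_fac_minus (q d j c S : ℕ) (hq : 1 ≤ q) (hj : j + 1 ≤ d)
    (h1 : c + q ^ (2 * d - 1) = S + q ^ (2 * d - 1 - j))
    (h2 : S + q ^ d = q ^ (2 * d - 1) + q ^ (d - 1)) :
    c - q ^ j = q ^ j * ((q ^ (d - j) + 1) * (q ^ (d - j - 1) - 1)) := by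
  obtain ⟨a, rfl⟩ : ∃ a, d = j + 1 + a := ⟨d - (j + 1), by omega⟩
  have e1 : 2 * (j + 1 + a) - 1 = j + j + 1 + a + a := by omega
  have e2 : 2 * (j + 1 + a) - 1 - j = j + 1 + a + a := by omega
  have e3 : j + 1 + a - 1 = j + a := by omega
  have e4 : j + 1 + a - j = a + 1 := by omega
  have e5 : j + 1 + a - j - 1 = a := by omega
  rw [e2, e1] at h1
  rw [e1, e3] at h2
  rw [e5, e4]
  obtain ⟨Qj, hQj⟩ : ∃ Qj, Qj = q ^ j := ⟨_, rfl⟩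
  obtain ⟨Qa, hQa⟩ : ∃ Qa, Qa = q ^ a := ⟨_, rfl⟩
  have p1 : q ^ (j + j + 1 + a + a) = Qj * Qj * q * Qa * Qa := by rw [hQj, hQa]; ring
  have p2 : q ^ (j + 1 + a + a) = Qj * q * Qa * Qa := by rw [hQj, hQa]; ring
  have p3 : q ^ (j + a) = Qj * Qa := by rw [hQj, hQa]; ring
  have p4 : q ^ (j + 1 + a) = Qj * q * Qa := by rw [hQj, hQa]; ring
  have p5 : q ^ (a + 1) = q * Qa := by rw [hQa]; ring
  rw [p1, p2] at h1
  rw [p1, p3, p4] at h2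
  rw [p5, ← hQj, ← hQa]
  have hQa1 : 1 ≤ Qa := by rw [hQa]; exact Nat.one_le_pow _ _ hq
  obtain ⟨t, rfl⟩ : ∃ t, Qa = t + 1 := ⟨Qa - 1, by omega⟩
  have h3 : c + Qj * q * (t + 1) = Qj * q * (t + 1) * (t + 1) + Qj * (t + 1) := by omega
  have h5 : c = Qj * q * (t + 1) * t + Qj * t + Qj := by
    have e8 : Qj * q * (t + 1) * (t + 1) + Qj * (t + 1) =
        Qj * q * (t + 1) * t + Qj * t + Qj + Qj * q * (t + 1) := by ring
    rw [e8] at h3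
    omega
  rw [h5, Nat.add_sub_cancel, Nat.add_sub_cancel]
  ring

end Cfsg.Agent.Helper48.TSC
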