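import Mathlib

set_option autoImplicit false

namespace Cfsg.Agent.Helper48.TSC

theorem tsc_fib {F : Type*} [Field F] [Fintype F] {V : Type*} [AddCommGroup V] [Module F V]
    [Finite V] (P : V → Prop) (hP : ∀ (c : F) (x : V), c ≠ 0 → P x → P (c • x))
    (φ : V →ₗ[F] F) :
    Nat.card {x : V // P x} =
      Nat.card {x : V // P x ∧ φ x = 0} +
        (Fintype.card F - 1) * Nat.card {x : V // P x ∧ φ x = 1} := by
  classical
  have e : {x : V // P x} ≃ Σ c : F, {x : V // P x ∧ φ x = c} :=
    { toFun := fun x => ⟨φ x.1, ⟨x.1, x.2, rfl⟩⟩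
      invFun := fun y => ⟨y.2.1, y.2.2.1⟩
      left_inv := fun x => rfl
      right_inv := by
        rintro ⟨c, x, hx, rfl⟩
        rfl }
  rw [Nat.card_congr e, Nat.card_sigma]
  have hfib : ∀ c : F, c ≠ 0 →
      Nat.card {x : V // P x ∧ φ x = c} = Nat.card {x : V // P x ∧ φ x = 1} := by
    intro c hc
    apply Nat.card_congr
    exact
    { toFun := fun x => ⟨c⁻¹ • x.1, hP _ _ (inv_ne_zero hc) x.2.1, by
        rw [map_smul, x.2.2, smul_eq_mul, inv_mul_cancel₀ hc]⟩
      invFun := fun y => ⟨c • y.1, hP _ _ hc y.2.1, by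
        rw [map_smul, y.2.2, smul_eq_mul, mul_one]⟩
      left_inv := fun x => by
        apply Subtype.ext
        simp only
        rw [smul_smul, mul_inv_cancel₀ hc, one_smul]
      right_inv := fun y => by
        apply Subtype.ext
        simp only
        rw [smul_smul, inv_mul_cancel₀ hc, one_smul] }
  rw [← Finset.add_sum_erase Finset.univ _ (Finset.mem_univ (0 : F))]
  congr 1
  rw [Finset.sum_congr rfl (fun c hc => hfib c (Finset.ne_of_mem_erase hc)), Finset.sum_const,
    Finset.card_erase_of_mem (Finset.mem_univ _), Finset.card_univ, smul_eq_mul]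

end Cfsg.Agent.Helper48.TSC
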