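import Mathlib
import Cfsg.Agent.Helper48.TSCDefs

/-!
# SUB-CALL TSC (helper48, COUNT stage of helper58's CALL TS), pieces SG0P and SG0M

The number of singular vectors of an even-dimensional nondegenerate quadratic space over a finite
field: `q^(2d-1) + q^d - q^(d-1)` (plus type), `q^(2d-1) - q^d + q^(d-1)` (minus type).
-/

set_option autoImplicit false

namespace Cfsg.Agent.Helper48.TSC

open Module Cfsg Cfsg.Geo Cfsg.Agent.Helper58.TS
open Cfsg.Agent.Helper43 Cfsg.Agent.Helper43.OrthEven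

/-- SG0P. Singular vectors of a plus-type space of dimension `2d`. -/
theorem tsc_sing_plus {F : Type*} [Field F] [Fintype F] {V : Type*} [AddCommGroup V] [Module F V]
    [FiniteDimensional F V] (Q : QuadraticForm F V) (hQ : PolarNondeg Q) (d : ℕ) (hd : 1 ≤ d)
    (hV : finrank F V = 2 * d) (hTS : HasTS Q d) :
    Nat.card {v : V // Q v = 0} + Fintype.card F ^ (d - 1) =
      Fintype.card F ^ (2 * d - 1) + Fintype.card F ^ d := by
  obtain ⟨Ψ, hΨ⟩ := exists_plus_of_hasTS hd hV Q hQ hTS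
  have e : {z : Fin d ⊕ Fin d → F // Cfsg.quadFormPlus d F z = 0} ≃ {v : V // Q v = 0} :=
    Ψ.toEquiv.subtypeEquiv (fun z => by
      show Cfsg.quadFormPlus d F z = 0 ↔ Q (Ψ z) = 0
      rw [hΨ z])
  have h := Cfsg.Agent.Helper43.SingCount.card_sing_plus (F := F) d
  rw [Nat.card_congr e, Nat.card_eq_fintype_card (α := F)] at h
  obtain ⟨q, hq⟩ : ∃ q, q = Fintype.card F := ⟨_, rfl⟩
  obtain ⟨S, hS⟩ : ∃ S, S = Nat.card {v : V // Q v = 0} := ⟨_, rfl⟩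
  rw [← hq, ← hS] at h
  rw [← hq, ← hS]
  have hq0 : 0 < q := by rw [hq]; exact Fintype.card_pos
  obtain ⟨n, rfl⟩ : ∃ n, d = n + 1 := ⟨d - 1, by omega⟩
  have h2 : 2 * (n + 1) - 1 = 2 * n + 1 := by omega
  rw [h2, Nat.add_sub_cancel]
  have hY : 1 ≤ q ^ n := Nat.one_le_pow _ _ hq0
  have e1 : q ^ (n + 1) = q * q ^ n := pow_succ' q n
  have e2 : q ^ (n + 1 + 1) = q * (q * q ^ n) := by rw [pow_succ', pow_succ']
  have e3 : q ^ (2 * n + 1) = q * (q ^ n * q ^ n) := by rw [pow_succ', two_mul, pow_add]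
  rw [e1, e2] at h
  rw [e1, e3]
  obtain ⟨Y, hYdef⟩ : ∃ Y, Y = q ^ n := ⟨_, rfl⟩
  rw [← hYdef] at h hY ⊢
  obtain ⟨t, ht⟩ : ∃ t, q * Y = t + 1 := ⟨q * Y - 1, by
    have : 1 ≤ q * Y := Nat.one_le_iff_ne_zero.mpr (Nat.mul_ne_zero hq0.ne' (by omega))
    omega⟩
  have h3 : q * (q * Y) = q * (t + 1) := by rw [ht]
  rw [h3, ht, Nat.add_sub_cancel] at h
  apply Nat.eq_of_mul_eq_mul_left hq0
  have h4 : q * (q * (Y * Y)) = (t + 1) * (t + 1) := by
    rw [← ht]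
    ring
  rw [mul_add, mul_add, h, h4, ht]
  ring

/-- SG0M. Singular vectors of a minus-type space of dimension `2d`. -/
theorem tsc_sing_minus {F : Type*} [Field F] [Fintype F] {V : Type*} [AddCommGroup V] [Module F V]
    [FiniteDimensional F V] (Q : QuadraticForm F V) (hQ : PolarNondeg Q) (d : ℕ) (hd : 1 ≤ d)
    (hV : finrank F V = 2 * d) (hTS : ¬ HasTS Q d) :
    Nat.card {v : V // Q v = 0} + Fintype.card F ^ d =
      Fintype.card F ^ (2 * d - 1) + Fintype.card F ^ (d - 1) := by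
  obtain ⟨ζ, hζ, Ψ, hΨ⟩ := exists_minus_of_not_hasTS hd hV Q hQ hTS
  have hac := Cfsg.Agent.S2617.aniso ζ hζ
  have e : {z : (Fin (d - 1) ⊕ Fin (d - 1)) ⊕ Fin 2 → F //
      Cfsg.quadFormMinus (d - 1) F 1 ζ z = 0} ≃ {v : V // Q v = 0} :=
    Ψ.toEquiv.subtypeEquiv (fun z => by
      show Cfsg.quadFormMinus (d - 1) F 1 ζ z = 0 ↔ Q (Ψ z) = 0
      rw [hΨ z])
  have h := Cfsg.Agent.Helper43.SingCount.card_sing_minus (F := F) (d - 1) 1 ζ hac
  rw [Nat.card_congr e, Nat.card_eq_fintype_card (α := F)] at h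
  obtain ⟨q, hq⟩ : ∃ q, q = Fintype.card F := ⟨_, rfl⟩
  obtain ⟨S, hS⟩ : ∃ S, S = Nat.card {v : V // Q v = 0} := ⟨_, rfl⟩
  rw [← hq, ← hS] at h
  rw [← hq, ← hS]
  have hq0 : 0 < q := by rw [hq]; exact Fintype.card_pos
  obtain ⟨n, rfl⟩ : ∃ n, d = n + 1 := ⟨d - 1, by omega⟩
  have h2 : 2 * (n + 1) - 1 = 2 * n + 1 := by omega
  rw [h2, Nat.add_sub_cancel]
  rw [Nat.add_sub_cancel] at h
  have hY : 1 ≤ q ^ n := Nat.one_le_pow _ _ hq0
  have e1 : q ^ (n + 1) = q * q ^ n := pow_succ' q n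
  have e3 : q ^ (2 * n + 1) = q * (q ^ n * q ^ n) := by rw [pow_succ', two_mul, pow_add]
  rw [e1] at h
  rw [e1, e3]
  obtain ⟨Y, hYdef⟩ : ∃ Y, Y = q ^ n := ⟨_, rfl⟩
  rw [← hYdef] at h hY ⊢
  obtain ⟨t, rfl⟩ : ∃ t, Y = t + 1 := ⟨Y - 1, by omega⟩
  rw [Nat.add_sub_cancel] at h
  apply Nat.eq_of_mul_eq_mul_left hq0
  rw [mul_add, mul_add, h]
  ring

end Cfsg.Agent.Helper48.TSC
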